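import Mathlib
import Cfsg.Agent.Lib.H24.OddPGroup
import Cfsg.Agent.Lib.H69.CountLemmas
import Cfsg.Agent.Lib.H69.TISub
import Cfsg.Agent.Lib.H1.Hall

/-!
Number of elements of order `p ^ s * m` in groups with noncyclic Sylow `p`-subgroups, `p` odd.
-/

set_option autoImplicit false

open scoped Pointwise

namespace H69.OrderCount

universe u

theorem mul_pow_of_central {G : Type*} [Group G] (w e c : G) (hc : e * w = c * w * e)
    (hcw : c * w = w * c) (hce : c * e = e * c) (n : ℕ) :
    (w * e) ^ n = w ^ n * e ^ n * c ^ (n.choose 2) := by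
  have hcw' : ∀ k : ℕ, Commute (c ^ k) w := fun k => Commute.pow_left hcw k
  have hce' : ∀ k l : ℕ, Commute (c ^ k) (e ^ l) := fun k l => Commute.pow_pow hce k l
  have h1 : ∀ k : ℕ, e ^ k * w = c ^ k * w * e ^ k := by
    intro k
    induction k with
    | zero => simp
    | succ k ih =>
      calc e ^ (k + 1) * w = e ^ k * (e * w) := by rw [pow_succ]; group
        _ = e ^ k * (c * w * e) := by rw [hc]
        _ = (e ^ k * c) * w * e := by group
        _ = c * (e ^ k * w) * e := by
            have h3 := (hce' 1 k).eq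
            rw [pow_one] at h3
            rw [← h3]; group
        _ = c * (c ^ k * w * e ^ k) * e := by rw [ih]
        _ = c ^ (k + 1) * w * e ^ (k + 1) := by rw [pow_succ' c, pow_succ e]; group
  induction n with
  | zero => simp
  | succ n ih =>
    have h2 : (n + 1).choose 2 = n.choose 2 + n := by
      rw [Nat.choose_succ_succ' n 1, Nat.choose_one_right, add_comm]
    calc (w * e) ^ (n + 1) = (w ^ n * e ^ n * c ^ (n.choose 2)) * (w * e) := by rw [pow_succ, ih]
      _ = w ^ n * e ^ n * (c ^ (n.choose 2) * w) * e := by group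
      _ = w ^ n * e ^ n * (w * c ^ (n.choose 2)) * e := by rw [(hcw' _).eq]
      _ = w ^ n * (e ^ n * w) * (c ^ (n.choose 2) * e) := by group
      _ = w ^ n * (c ^ n * w * e ^ n) * (e * c ^ (n.choose 2)) := by
          rw [h1 n]
          congr 1
          have := (hce' (n.choose 2) 1).eq
          rwa [pow_one] at this
      _ = w ^ n * (c ^ n * w) * (e ^ n * e) * c ^ (n.choose 2) := by group
      _ = w ^ n * (w * c ^ n) * (e ^ n * e) * c ^ (n.choose 2) := by rw [(hcw' n).eq]
      _ = (w ^ n * w) * (c ^ n * e ^ (n + 1)) * c ^ (n.choose 2) := by rw [pow_succ e]; group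
      _ = (w ^ n * w) * (e ^ (n + 1) * c ^ n) * c ^ (n.choose 2) := by rw [(hce' n (n + 1)).eq]
      _ = w ^ (n + 1) * e ^ (n + 1) * c ^ ((n + 1).choose 2) := by
          have : c ^ n * c ^ (n.choose 2) = c ^ ((n + 1).choose 2) := by
            rw [← pow_add, h2, add_comm]
          calc w ^ n * w * (e ^ (n + 1) * c ^ n) * c ^ (n.choose 2)
              = w ^ n * w * e ^ (n + 1) * (c ^ n * c ^ (n.choose 2)) := by group
            _ = w ^ (n + 1) * e ^ (n + 1) * c ^ ((n + 1).choose 2) := by rw [this, pow_succ w]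

/-- noncyclic `p`-groups, `p` odd: the number of elements of order `p ^ s`, `s ≥ 2`. -/
theorem dvd_card_pgroup {P : Type u} [Group P] [Finite P] {p : ℕ} [hp : Fact p.Prime] (hp2 : p ≠ 2)
    (hP : IsPGroup p P) (hnc : ¬ IsCyclic P) (s : ℕ) (hs : 1 < s) :
    p ^ s ∣ Nat.card {u : P // orderOf u = p ^ s} := by
  have hpp : p.Prime := hp.out
  obtain ⟨z, E, hzc, hzp, hEn, hEc, hE1, hzE, hEz⟩ :=
    H24.OddPGroup.exists_center_normal_elementary_sq hp2 hP hnc
  -- key computation
  have key : ∀ w : P, ∀ e ∈ E, (w * e) ^ p = w ^ p := by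
    intro w e he
    have hc := hEz e he w
    -- c := e w e⁻¹ w⁻¹
    set c := e * w * e⁻¹ * w⁻¹ with hcdef
    have hc' : c ∈ Subgroup.zpowers z := by
      have : c = (w * e * w⁻¹ * e⁻¹)⁻¹ := by rw [hcdef]; group
      rw [this]
      exact inv_mem hc
    obtain ⟨k, hk⟩ := Subgroup.mem_zpowers_iff.1 hc'
    have hcent : ∀ x : P, c * x = x * c := by
      intro x
      rw [← hk]
      have h1 : Commute x z := Subgroup.mem_center_iff.1 hzc x
      exact (h1.zpow_right k).symm.eq
    have h1 := mul_pow_of_central w e c (by rw [hcdef]; group) (hcent w) (hcent e) p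
    obtain ⟨d, hd⟩ : p ∣ p.choose 2 := Nat.Prime.dvd_choose_self hpp (by norm_num) (by
      have := hpp.two_le
      omega)
    have hcp : c ^ p = 1 := by
      rw [← hk, ← zpow_natCast, ← zpow_mul, mul_comm, zpow_mul, zpow_natCast]
      have : z ^ p = 1 := by rw [← hzp]; exact pow_orderOf_eq_one z
      rw [this, one_zpow]
    rw [h1, hE1 e he, hd, pow_mul, hcp, one_pow, mul_one, mul_one]
  let A : P → Subgroup P := fun u => Subgroup.zpowers (u ^ p) ⊔ E
  have hord : ∀ x : P, ∀ k, orderOf (x ^ p) = p ^ (k + 1) → orderOf x = p ^ (k + 2) := by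
    intro x k hx
    obtain ⟨j, hj⟩ := IsPGroup.iff_orderOf.1 hP x
    have hj0 : j ≠ 0 := by
      rintro rfl
      rw [pow_zero, orderOf_eq_one_iff] at hj
      rw [hj, one_pow, orderOf_one] at hx
      have := Nat.one_lt_pow (Nat.succ_ne_zero k) hpp.one_lt
      rw [Nat.succ_eq_add_one, ← hx] at this
      omega
    obtain ⟨j', rfl⟩ := Nat.exists_eq_succ_of_ne_zero hj0
    rw [orderOf_pow, hj] at hx
    have h1 : Nat.gcd (p ^ (j' + 1)) p = p := by
      rw [Nat.gcd_comm]
      exact Nat.gcd_eq_left (dvd_pow_self p (Nat.succ_ne_zero j'))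
    rw [Nat.succ_eq_add_one, h1, pow_succ, Nat.mul_div_cancel _ hpp.pos] at hx
    rw [hj, Nat.succ_eq_add_one, pow_succ, hx]
    ring
  obtain ⟨s', rfl⟩ : ∃ s', s = s' + 2 := ⟨s - 2, by omega⟩
  have hW : ∀ u : P, orderOf u = p ^ (s' + 2) → orderOf (u ^ p) = p ^ (s' + 1) := by
    intro u hu
    rw [orderOf_pow_of_dvd hpp.ne_zero (by rw [hu]; exact dvd_pow_self p (by omega)), hu, pow_succ,
      Nat.mul_div_cancel _ hpp.pos]
  apply H69.CountLemmas.dvd_card_of_cosets (p ^ (s' + 2)) A {u : P | orderOf u = p ^ (s' + 2)}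
  · intro u hu
    have hu' : orderOf u = p ^ (s' + 2) := hu
    have h1 := H1.Hall.card_sup_mul_card_inf (Subgroup.zpowers (u ^ p)) E
    rw [Nat.card_zpowers, hW u hu', hEc] at h1
    -- the intersection has order dividing p
    have h2 : Nat.card (Subgroup.zpowers (u ^ p) ⊓ E : Subgroup P) ∣ p := by
      have hcyc : IsCyclic (Subgroup.zpowers (u ^ p) ⊓ E : Subgroup P) := by
        have h3 : IsCyclic ((Subgroup.zpowers (u ^ p) ⊓ E : Subgroup P).subgroupOf (Subgroup.zpowers (u ^ p))) := inferInstance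
        exact isCyclic_of_surjective (Subgroup.subgroupOfEquivOfLe inf_le_left).toMonoidHom
            (Subgroup.subgroupOfEquivOfLe inf_le_left).surjective
      obtain ⟨g, hg⟩ := hcyc.exists_generator
      rw [← orderOf_eq_card_of_forall_mem_zpowers hg]
      apply orderOf_dvd_of_pow_eq_one
      exact Subtype.ext (by simpa using hE1 g (g.2.2))
    have hpos : 0 < Nat.card (Subgroup.zpowers (u ^ p) ⊓ E : Subgroup P) := Nat.card_pos
    rcases (Nat.dvd_prime hpp).1 h2 with h3 | h3
    · rw [h3, mul_one] at h1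
      have h4 : Nat.card (A u) = p ^ (s' + 1) * p ^ 2 := h1
      rw [h4, ← pow_add]
      exact pow_dvd_pow p (by omega)
    · rw [h3] at h1
      have h4 : Nat.card (A u) = p ^ (s' + 2) := by
        apply Nat.eq_of_mul_eq_mul_right hpp.pos
        have h5 : Nat.card (A u) * p = p ^ (s' + 1) * p ^ 2 := h1
        rw [h5]; ring
      rw [h4]
  · intro u hu a ha
    have hu' : orderOf u = p ^ (s' + 2) := hu
    obtain ⟨b, hb, e, he, rfl⟩ := Subgroup.mem_sup_of_normal_right.1 ha
    obtain ⟨k, hk⟩ := Subgroup.mem_zpowers_iff.1 hb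
    have h1 : u * (b * e) = u ^ (1 + p * k : ℤ) * e := by
      rw [← hk, ← mul_assoc, zpow_add, zpow_one, zpow_mul, zpow_natCast]
    have h2 : (u * (b * e)) ^ p = (u ^ p) ^ (1 + p * k : ℤ) := by
      rw [h1, key _ e he, ← zpow_natCast, ← zpow_mul, mul_comm, zpow_mul, zpow_natCast]
    have hcop : Int.gcd (1 + p * k) (orderOf (u ^ p)) = 1 := by
      rw [hW u hu', ← Int.isCoprime_iff_gcd_eq_one]
      push_cast
      apply IsCoprime.pow_right
      exact ⟨1, -k, by ring⟩
    have h3 : Subgroup.zpowers ((u ^ p) ^ (1 + p * k : ℤ)) = Subgroup.zpowers (u ^ p) := by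
      apply le_antisymm
      · rw [Subgroup.zpowers_le]
        exact Subgroup.zpow_mem _ (Subgroup.mem_zpowers _) _
      · rw [Subgroup.zpowers_le]
        have h4 := Int.isCoprime_iff_gcd_eq_one.2 hcop
        obtain ⟨x, y, hxy⟩ := h4
        rw [Subgroup.mem_zpowers_iff]
        refine ⟨x, ?_⟩
        rw [← zpow_mul]
        have h5 : (1 + p * k : ℤ) * x = 1 - y * (orderOf (u ^ p) : ℤ) := by
          linear_combination hxy
        rw [h5, zpow_sub, zpow_one, mul_comm y, zpow_mul, zpow_natCast, pow_orderOf_eq_one, one_zpow,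
          inv_one, mul_one]
    have h4 : orderOf ((u * (b * e)) ^ p) = p ^ (s' + 1) := by
      rw [h2, ← Nat.card_zpowers, h3, Nat.card_zpowers, hW u hu']
    refine ⟨hord _ _ h4, ?_⟩
    change Subgroup.zpowers ((u * (b * e)) ^ p) ⊔ E = Subgroup.zpowers (u ^ p) ⊔ E
    rw [h2, h3]

/-- elements of order `n` versus cyclic subgroups of order `n` -/
theorem card_orderOf_eq {Q : Type u} [Group Q] [Finite Q] (n : ℕ) :
    Nat.card {u : Q // orderOf u = n} =
      Nat.card {U : Subgroup Q // IsCyclic U ∧ Nat.card U = n} * n.totient := by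
  classical
  have e : (Σ U : {U : Subgroup Q // IsCyclic U ∧ Nat.card U = n}, {u : U.1 // orderOf u = n}) ≃
      {u : Q // orderOf u = n} := by
    apply Equiv.ofBijective (fun y => ⟨(y.2.1 : Q), by rw [Subgroup.orderOf_coe]; exact y.2.2⟩)
    constructor
    · rintro ⟨⟨U, hU1, hU2⟩, ⟨u, hu⟩, hun⟩ ⟨⟨V, hV1, hV2⟩, ⟨v, hv⟩, hvn⟩ h
      have h1 : u = v := congrArg Subtype.val h
      subst h1
      have hUz : U = Subgroup.zpowers u := by
        symm
        apply Subgroup.eq_of_le_of_card_ge
        · rwa [Subgroup.zpowers_le]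
        · rw [Nat.card_zpowers, hU2]
          rw [Subgroup.orderOf_mk] at hun
          exact hun.ge
      have hVz : V = Subgroup.zpowers u := by
        symm
        apply Subgroup.eq_of_le_of_card_ge
        · rwa [Subgroup.zpowers_le]
        · rw [Nat.card_zpowers, hV2]
          rw [Subgroup.orderOf_mk] at hvn
          exact hvn.ge
      have : U = V := hUz.trans hVz.symm
      subst this
      rfl
    · rintro ⟨u, hu⟩
      refine ⟨⟨⟨Subgroup.zpowers u, inferInstance, by rw [Nat.card_zpowers, hu]⟩,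
        ⟨⟨u, Subgroup.mem_zpowers u⟩, by rw [Subgroup.orderOf_mk]; exact hu⟩⟩, rfl⟩
  have hfin : Fintype {U : Subgroup Q // IsCyclic U ∧ Nat.card U = n} := Fintype.ofFinite _
  rw [← Nat.card_congr e, Nat.card_sigma]
  have h1 : ∀ U : {U : Subgroup Q // IsCyclic U ∧ Nat.card U = n},
      Nat.card {u : U.1 // orderOf u = n} = n.totient := by
    intro U
    have := Fintype.ofFinite U.1
    have hc := U.2.1
    have h2 := IsCyclic.card_orderOf_eq_totient (α := U.1) (d := n) (by rw [← Nat.card_eq_fintype_card, U.2.2])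
    rw [Nat.card_eq_fintype_card, Fintype.card_subtype]
    exact h2
  rw [Finset.sum_congr rfl (fun U _ => h1 U), Finset.sum_const, smul_eq_mul, Finset.card_univ,
    Nat.card_eq_fintype_card]

/-- the number of normal cyclic subgroups of order `p ^ s` of a noncyclic `p`-group -/
theorem dvd_card_normal {P : Type u} [Group P] [Finite P] {p : ℕ} [hp : Fact p.Prime] (hp2 : p ≠ 2)
    (hP : IsPGroup p P) (hnc : ¬ IsCyclic P) (s : ℕ) (hs : 1 < s) :
    p ∣ Nat.card {U : Subgroup P // U.Normal ∧ IsCyclic U ∧ Nat.card U = p ^ s} := by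
  have hpp : p.Prime := hp.out
  have h1 := dvd_card_pgroup hp2 hP hnc s hs
  rw [card_orderOf_eq] at h1
  have h2 : p ∣ Nat.card {U : Subgroup P // IsCyclic U ∧ Nat.card U = p ^ s} := by
    obtain ⟨s', rfl⟩ : ∃ s', s = s' + 1 := ⟨s - 1, by omega⟩
    rw [Nat.totient_prime_pow_succ hpp, pow_succ'] at h1
    have h3 : p * p ^ s' ∣ (Nat.card {U : Subgroup P // IsCyclic U ∧ Nat.card U = p ^ (s' + 1)} * (p - 1)) * p ^ s' := by
      convert h1 using 1
      ring
    have h4 := Nat.dvd_of_mul_dvd_mul_right (pow_pos hpp.pos s') h3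
    have h5 : Nat.Coprime p (p - 1) := by
      rw [Nat.Prime.coprime_iff_not_dvd hpp]
      intro h
      have h6 := hpp.two_le
      have := Nat.le_of_dvd (by omega) h
      omega
    exact h5.dvd_of_dvd_mul_right h4
  -- P acts by conjugation
  have hcard : ∀ (g : ConjAct P) (H : Subgroup P), Nat.card (g • H : Subgroup P) = Nat.card H := by
    intro g H
    exact (Nat.card_congr (Subgroup.equivSMul g H).toEquiv).symm
  have hcyc : ∀ (g : ConjAct P) (H : Subgroup P), IsCyclic H → IsCyclic (g • H : Subgroup P) := by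
    intro g H hH
    exact isCyclic_of_surjective (Subgroup.equivSMul g H).toMonoidHom (Subgroup.equivSMul g H).surjective
  let inst : MulAction (ConjAct P) {U : Subgroup P // IsCyclic U ∧ Nat.card U = p ^ s} :=
    { smul := fun g H => ⟨g • H.1, hcyc g _ H.2.1, by rw [hcard]; exact H.2.2⟩
      one_smul := fun H => Subtype.ext (one_smul _ H.1)
      mul_smul := fun g h H => Subtype.ext (mul_smul g h H.1) }
  have hpG : IsPGroup p (ConjAct P) := hP
  have h3 := hpG.card_modEq_card_fixedPoints {U : Subgroup P // IsCyclic U ∧ Nat.card U = p ^ s}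
  have h4 : Nat.card (MulAction.fixedPoints (ConjAct P) {U : Subgroup P // IsCyclic U ∧ Nat.card U = p ^ s}) =
      Nat.card {U : Subgroup P // U.Normal ∧ IsCyclic U ∧ Nat.card U = p ^ s} := by
    apply Nat.card_congr
    refine ⟨fun H => ⟨H.1.1, ?_, H.1.2⟩, fun H => ⟨⟨H.1, H.2.2⟩, ?_⟩, fun H => rfl, fun H => rfl⟩
    · constructor
      intro n hn g
      have h4 : (ConjAct.toConjAct g) • H.1.1 = H.1.1 := congrArg Subtype.val (H.2 (ConjAct.toConjAct g))
      have h5 : (ConjAct.toConjAct g) • n ∈ (ConjAct.toConjAct g) • H.1.1 :=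
        Subgroup.smul_mem_pointwise_smul _ _ _ hn
      rw [h4, ConjAct.smul_def, ConjAct.ofConjAct_toConjAct] at h5
      exact h5
    · intro g
      apply Subtype.ext
      have := H.2.1
      exact Subgroup.Normal.conjAct this g
  rw [h4] at h3
  exact (Nat.modEq_zero_iff_dvd).1 (h3.symm.trans ((Nat.modEq_zero_iff_dvd).2 h2))

end H69.OrderCount
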