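import Mathlib
import Cfsg.Agent.Lib.H76.TwoGen
import Cfsg.Agent.Lib.H72.TpCount
import Cfsg.Agent.Lib.H69.SylowFactor

/-!
Abelian Sylow `p`-subgroups of rank `d` in groups of order prime to `∏ (p ^ i - 1)`.
-/

set_option autoImplicit false

open Subgroup

namespace H69.AbSylow

universe u

variable {G : Type u} [Group G]

theorem exists_dvd_of_aut {V : Type*} [Group V] [Finite V] {p q d : ℕ} [hp : Fact p.Prime] [hq : Fact q.Prime]
    (hpq : q ≠ p) (hV : Nat.card V ∣ p ^ d) (σ : MulAut V) (hσ : σ ^ q = 1) (h1 : σ ≠ 1) :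
    ∃ i, 1 ≤ i ∧ i ≤ d ∧ q ∣ p ^ i - 1 := by
  have hmod := H76.TwoGen.card_modEq_fixed q σ (k := 1) (by rw [pow_one]; exact hσ)
  set F : Subgroup V :=
    { carrier := {v | σ v = v}
      mul_mem' := by intro a b ha hb; show σ (a * b) = a * b; rw [map_mul, ha, hb]
      one_mem' := map_one σ
      inv_mem' := by intro a ha; show σ a⁻¹ = a⁻¹; rw [map_inv, ha] } with hF
  have hcF : Nat.card {v : V // σ v = v} = Nat.card F := rfl
  rw [hcF] at hmod
  have hlt : Nat.card F < Nat.card V := by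
    apply lt_of_le_of_ne (card_le_card_group F)
    intro h
    have h2 : F = ⊤ := (card_eq_iff_eq_top F).mp h
    apply h1
    ext v
    have : v ∈ F := by rw [h2]; exact mem_top _
    exact this
  obtain ⟨k, hk2, hk⟩ := (Nat.dvd_prime_pow hp.out).mp hV
  have hFd : Nat.card F ∣ p ^ k := by rw [← hk]; exact card_subgroup_dvd_card F
  obtain ⟨j, hjk, hj⟩ := (Nat.dvd_prime_pow hp.out).mp hFd
  rw [hk, hj] at hlt hmod
  have hjk' : j < k := (Nat.pow_lt_pow_iff_right hp.out.one_lt).mp hlt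
  have h2 : q ∣ p ^ k - p ^ j := (Nat.modEq_iff_dvd' hlt.le).mp hmod.symm
  have h3 : p ^ k - p ^ j = p ^ j * (p ^ (k - j) - 1) := by
    rw [Nat.mul_sub, ← pow_add, Nat.add_sub_cancel' hjk'.le, mul_one]
  rw [h3] at h2
  have hqp : ¬ q ∣ p ^ j := by
    intro h
    exact hpq ((Nat.prime_dvd_prime_iff_eq hq.out hp.out).mp (hq.out.dvd_of_dvd_pow h))
  have h4 := (hq.out.dvd_mul.mp h2).resolve_left hqp
  exact ⟨k - j, by omega, by omega, h4⟩

open H76.TwoGen in
/-- A `p'`-element normalizing a `p`-group `D` with `|D : Φ(D)| ∣ p ^ d`, of order coprime to `p ^ i - 1` for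
`1 ≤ i ≤ d`, centralizes `D`. -/
theorem local_trivial [Finite G] {p d : ℕ} [hp : Fact p.Prime] (D : Subgroup G) (hD : IsPGroup p D)
    (hrk : (frattini D).index ∣ p ^ d) : ∀ (n : ℕ) (g : G), orderOf g = n → g ∈ normalizer (D : Set G) →
    (orderOf g).Coprime p → (∀ i, 1 ≤ i → i ≤ d → (orderOf g).Coprime (p ^ i - 1)) →
    g ∈ centralizer (D : Set G) := by
  intro n
  induction n using Nat.strong_induction_on with
  | _ n ih =>
  intro g hn hg hgp hg2
  by_contra hgC
  have hg1 : g ≠ 1 := fun h => hgC (h ▸ one_mem _)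
  have hn1 : orderOf g ≠ 1 := fun h => hg1 (orderOf_eq_one_iff.mp h)
  obtain ⟨q, hq, hqn⟩ := Nat.exists_prime_and_dvd hn1
  have hqf : Fact q.Prime := ⟨hq⟩
  have hpos : 0 < orderOf g := orderOf_pos g
  -- `g ^ q` centralizes `D`
  have hgq : g ^ q ∈ centralizer (D : Set G) := by
    have ho : orderOf (g ^ q) = orderOf g / q := orderOf_pow_of_dvd hq.ne_zero hqn
    have hd : orderOf (g ^ q) ∣ orderOf g := orderOf_pow_dvd q
    apply ih (orderOf (g ^ q)) ?_ (g ^ q) rfl (pow_mem hg q) (Nat.Coprime.coprime_dvd_left hd hgp)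
      (fun i h1 h2 => Nat.Coprime.coprime_dvd_left hd (hg2 i h1 h2))
    rw [← hn, ho]
    exact Nat.div_lt_self hpos hq.one_lt
  set σ := conjQ D ⟨g, hg⟩ with hσ
  have hσq : σ ^ q = 1 := by
    rw [hσ, ← map_pow]
    ext x
    obtain ⟨x, rfl⟩ := QuotientGroup.mk'_surjective _ x
    show conjQ D _ (QuotientGroup.mk x) = _
    rw [conjQ_apply]
    congr 1
    apply Subtype.ext
    show (g ^ q) * x * (g ^ q)⁻¹ = x
    rw [← mem_centralizer_iff.mp hgq x x.2, mul_inv_cancel_right]
  have hqp : q ≠ p := by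
    rintro rfl
    have := hgp.symm
    rw [Nat.Prime.coprime_iff_not_dvd hq] at this
    exact this hqn
  by_cases h1 : σ = 1
  · -- then `g` centralizes `D`
    apply hgC
    have hle : zpowers g ≤ centralizer (D : Set G) := by
      apply H1.Coprime2.le_centralizer_of_frattini
      · rw [Nat.card_zpowers]
        obtain ⟨j, hj⟩ := IsPGroup.iff_card.mp (hD.to_subgroup (frattini D))
        rw [hj]
        exact Nat.Coprime.pow_right j hgp
      · intro a ha k hk
        have haN : a ∈ normalizer (D : Set G) := by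
          have : zpowers g ≤ normalizer (D : Set G) := by rwa [zpowers_le]
          exact this ha
        have h2 : conjQ D ⟨a, haN⟩ = 1 := by
          obtain ⟨m, rfl⟩ := mem_zpowers_iff.mp ha
          have : (⟨g ^ m, haN⟩ : normalizer (D : Set G)) = (⟨g, hg⟩ : normalizer (D : Set G)) ^ m := rfl
          rw [this, map_zpow, ← hσ, h1, one_zpow]
        have h3 := congrArg (fun f : MulAut (D ⧸ frattini D) => f (QuotientGroup.mk ⟨k, hk⟩)) h2
        simp only [conjQ_apply, MulAut.one_apply] at h3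
        rw [QuotientGroup.eq] at h3
        have h4 := inv_mem h3
        rw [mul_inv_rev, inv_inv] at h4
        have h5 := (inferInstance : (frattini D).Normal).conj_mem _ h4 ⟨k, hk⟩
        refine ⟨_, h5, ?_⟩
        show k * (k⁻¹ * (a * k * a⁻¹)) * k⁻¹ = _
        group
    exact hle (mem_zpowers g)
  · obtain ⟨i, hi1, hi2, h2⟩ := exists_dvd_of_aut hqp (by rw [← index_eq_card]; exact hrk) σ hσq h1
    have h3 : q ∣ 1 := by
      have : Nat.gcd (orderOf g) (p ^ i - 1) = 1 := hg2 i hi1 hi2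
      rw [← this]
      exact Nat.dvd_gcd hqn h2
    exact hq.one_lt.ne' (Nat.dvd_one.mp h3)

theorem index_frattini_dvd_rank {R : Type*} [Group R] [Finite R] {p : ℕ} [hp : Fact p.Prime]
    (hR : IsPGroup p R) : (frattini R).index ∣ p ^ (Group.rank R) := by
  classical
  obtain ⟨S, hS, hS'⟩ := Group.rank_spec R
  have h1 := H1.Frat.card_closure_sup_frattini_dvd hR S
  rw [hS', top_sup_eq, card_top, ← (frattini R).card_mul_index, mul_comm] at h1
  have h2 := Nat.dvd_of_mul_dvd_mul_right Nat.card_pos h1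
  rw [← hS]
  exact h2

theorem hasNPC [Finite G] {p d : ℕ} [hp : Fact p.Prime] (P : Sylow p G)
    (hab : IsMulCommutative (P : Subgroup G)) (hrk : Group.rank (P : Subgroup G) ≤ d)
    (hcop : ∀ i, 1 ≤ i → i ≤ d → (Nat.card G).Coprime (p ^ i - 1)) :
    Cfsg.HasNormalPComplement p G := by
  apply H72.TpCount.hasNormalPComplement_of_normalizer_le P
  have hfr : (frattini (P : Subgroup G)).index ∣ p ^ d :=
    (index_frattini_dvd_rank P.isPGroup').trans (pow_dvd_pow p hrk)
  intro n hn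
  apply H69.SylowFactor.mem_of_prime_powers
  intro q b i hq hqn hqb
  have hni : n ^ i ∈ normalizer ((P : Subgroup G) : Set G) := pow_mem hn i
  by_cases hqp : q = p
  · subst hqp
    have h6 : IsPGroup q (Subgroup.zpowers (n ^ i)) := by
      rw [IsPGroup.iff_card]
      exact ⟨b, by rw [Nat.card_zpowers, hqb]⟩
    have h7 : Subgroup.zpowers (n ^ i) ⊓ Subgroup.normalizer ((P : Subgroup G) : Set G) =
        Subgroup.zpowers (n ^ i) ⊓ (P : Subgroup G) := h6.inf_normalizer_sylow P
    have h8 : n ^ i ∈ Subgroup.zpowers (n ^ i) ⊓ Subgroup.normalizer ((P : Subgroup G) : Set G) :=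
      Subgroup.mem_inf.2 ⟨Subgroup.mem_zpowers _, hni⟩
    rw [h7] at h8
    rw [mem_centralizer_iff]
    intro y hy
    have h9 := hab.is_comm.comm (⟨y, hy⟩ : (P : Subgroup G)) ⟨n ^ i, h8.2⟩
    exact congrArg Subtype.val h9
  · apply local_trivial (P : Subgroup G) P.isPGroup' hfr _ (n ^ i) rfl hni
    · rw [hqb]
      exact Nat.Coprime.pow_left b ((Nat.coprime_primes hq hp.out).2 hqp)
    · intro j hj1 hj2
      exact Nat.Coprime.coprime_dvd_left (orderOf_dvd_natCard _) (hcop j hj1 hj2)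

end H69.AbSylow
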