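import Mathlib

/-!
A cyclic group killed by `N` is an image of `Multiplicative (ZMod N)`.
-/

set_option autoImplicit false

namespace H69.CyclicSurj

theorem exists_surjective_of_generator {K : Type*} [Group K] (N : ℕ) (g : K)
    (hg : ∀ x : K, x ∈ Subgroup.zpowers g) (hN : g ^ N = 1) :
    ∃ π : Multiplicative (ZMod N) →* K, Function.Surjective π := by
  have hcyc : IsCyclic K := ⟨g, hg⟩
  let _ : CommGroup K := IsCyclic.commGroup
  let f : ℤ →+ Additive K := zmultiplesHom (Additive K) (Additive.ofMul g)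
  have hf : f N = 0 := by
    show (zmultiplesHom (Additive K) (Additive.ofMul g)) N = 0
    rw [zmultiplesHom_apply, ← ofMul_zpow, zpow_natCast, hN]
    rfl
  let F : ZMod N →+ Additive K := ZMod.lift N ⟨f, hf⟩
  refine ⟨AddMonoidHom.toMultiplicativeLeft F, ?_⟩
  intro x
  obtain ⟨i, hi⟩ := Subgroup.mem_zpowers_iff.1 (hg x)
  refine ⟨Multiplicative.ofAdd (i : ZMod N), ?_⟩
  show Additive.toMul (F (i : ZMod N)) = x
  rw [show F (i : ZMod N) = f i from ZMod.lift_coe N ⟨f, hf⟩ i]
  rw [← hi]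
  rfl

theorem exists_surjective_of_le_zpowers {Γ : Type*} [Group Γ] (K : Subgroup Γ) (N : ℕ) (x : Γ)
    (hK : K ≤ Subgroup.zpowers x) (hN : x ^ N = 1) :
    ∃ π : Multiplicative (ZMod N) →* K, Function.Surjective π := by
  have hcyc : IsCyclic (K.subgroupOf (Subgroup.zpowers x)) := inferInstance
  have e := Subgroup.subgroupOfEquivOfLe hK
  have hcyc' : IsCyclic K := isCyclic_of_surjective e e.surjective
  obtain ⟨g, hg⟩ := hcyc'.exists_generator
  apply exists_surjective_of_generator N g hg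
  have h1 : (g : Γ) ∈ Subgroup.zpowers x := hK g.2
  obtain ⟨i, hi⟩ := Subgroup.mem_zpowers_iff.1 h1
  apply Subtype.ext
  rw [Subgroup.coe_pow, ← hi, ← zpow_natCast, ← zpow_mul, mul_comm, zpow_mul, zpow_natCast, hN,
    one_zpow]
  rfl

end H69.CyclicSurj
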