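import Mathlib
import Cfsg.Agent.S3997
import Cfsg.Agent.Lib.H1.Cores
import Cfsg.Agent.Lib.H1.Hall
import Cfsg.Agent.Lib.H1.Frob

/-!
# Groups of the same order type as a Frobenius group
-/

set_option autoImplicit false

namespace H69.SameOrder

open Cfsg Subgroup
open scoped Pointwise

/-- if `F` has a normal Sylow `p`-subgroup and `G` has the same order type, so has `G` -/
theorem sylow_normal {F G : Type*} [Group F] [Finite F] [Group G] [Finite G]
    (e : F ≃ G) (he : ∀ g, orderOf (e g) = orderOf g) {p : ℕ} [Fact p.Prime] (P : Sylow p F)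
    (hP : (P : Subgroup F).Normal) (Q : Sylow p G) : (Q : Subgroup G).Normal := by
  have hcard : Nat.card P = Nat.card Q := by
    rw [P.card_eq_multiplicity, Q.card_eq_multiplicity, Nat.card_congr e]
  have hset : ((P : Subgroup F) : Set F) = {g : F | ∃ k, orderOf g = p ^ k} := by
    ext g
    exact ⟨fun hg => Cfsg.Agent.S3997.isPElem_of_mem P hg,
      fun ⟨k, hk⟩ => Cfsg.Agent.S3997.mem_of_isPElem P hP hk⟩
  have hcnt : Set.ncard {g : G | ∃ k, orderOf g = p ^ k} = Nat.card P := by
    have h1 : Nat.card P = Set.ncard {g : F | ∃ k, orderOf g = p ^ k} := by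
      rw [← hset]; rfl
    rw [h1]
    symm
    apply Nat.card_congr
    exact e.subtypeEquiv (fun g => by simp [he])
  have hsetQ : ((Q : Subgroup G) : Set G) = {g : G | ∃ k, orderOf g = p ^ k} := by
    apply Set.eq_of_subset_of_ncard_le
    · intro g hg
      exact Cfsg.Agent.S3997.isPElem_of_mem Q hg
    · rw [hcnt, hcard]
      exact le_of_eq rfl
    · exact Set.toFinite _
  have hmem : ∀ g : G, g ∈ (Q : Subgroup G) ↔ ∃ k, orderOf g = p ^ k := by
    intro g
    rw [← SetLike.mem_coe, hsetQ]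
    rfl
  constructor
  intro x hx y
  rw [hmem] at hx ⊢
  have : orderOf (y * x * y⁻¹) = orderOf x := by
    have := orderOf_injective (MulAut.conj y).toMonoidHom (MulAut.conj y).injective x
    simpa using this
  rwa [this]

variable {G : Type*} [Group G] [Finite G]

theorem card_pCore_of_normal {p : ℕ} [Fact p.Prime] (h : ∀ Q : Sylow p G, (Q : Subgroup G).Normal) :
    Nat.card (pCore p G) = p ^ (Nat.card G).factorization p := by
  obtain ⟨Q⟩ : Nonempty (Sylow p G) := inferInstance
  have h1 : pCore p G = (Q : Subgroup G) :=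
    le_antisymm (H1.Cores.pCore_le_sylow Q) (H1.Cores.le_pCore (h Q) Q.isPGroup')
  rw [h1]
  exact Q.card_eq_multiplicity

/-- the product of normal Sylow subgroups -/
theorem exists_normal_hall (s : Finset ℕ) (hs : ∀ p ∈ s, p.Prime ∧ ∀ Q : Sylow p G, (Q : Subgroup G).Normal) :
    ∃ N : Subgroup G, N.Normal ∧ N ≤ fittingSubgroup G ∧
      Nat.card N = ∏ p ∈ s, p ^ (Nat.card G).factorization p := by
  classical
  induction s using Finset.induction_on with
  | empty => exact ⟨⊥, inferInstance, bot_le, by simp⟩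
  | insert p s hps ih =>
    obtain ⟨N, hN, hNf, hNc⟩ := ih (fun q hq => hs q (Finset.mem_insert_of_mem hq))
    obtain ⟨hp, hpn⟩ := hs p (Finset.mem_insert_self _ _)
    have := Fact.mk hp
    refine ⟨N ⊔ pCore p G, inferInstance, sup_le hNf (H1.Cores.pCore_le_fittingSubgroup p), ?_⟩
    have hcop : (Nat.card N).Coprime (Nat.card (pCore p G)) := by
      rw [hNc, card_pCore_of_normal hpn]
      apply Nat.Coprime.prod_left
      intro q hq
      apply Nat.Coprime.pow
      rw [Nat.coprime_primes (hs q (Finset.mem_insert_of_mem hq)).1 hp]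
      rintro rfl
      exact hps hq
    rw [H1.Hall.card_sup_of_disjoint_normal (H1.Coprime.inf_eq_bot_of_coprime_card hcop), hNc,
      card_pCore_of_normal hpn, Finset.prod_insert hps, mul_comm]

/-- a normal Hall subgroup and no mixed orders: a Frobenius group -/
theorem exists_complement (N : Subgroup G) [hN : N.Normal] (hN1 : Nat.card N ≠ 1) (hN2 : N.index ≠ 1)
    (hcop : (Nat.card N).Coprime N.index)
    (hmix : ∀ p q : ℕ, p.Prime → q.Prime → p ∣ Nat.card N → q ∣ N.index → ∀ g : G, orderOf g ≠ p * q) :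
    ∃ C : Subgroup G, IsFrobeniusComplement C ∧ N.IsComplement' C := by
  obtain ⟨C, hC⟩ := Subgroup.exists_right_complement'_of_coprime hcop
  refine ⟨C, ?_, hC⟩
  have hNb : N ≠ ⊥ := fun h => hN1 (Subgroup.card_eq_one.2 h)
  have hCcard : N.index = Nat.card C := hC.symm.index_eq_card
  have hCb : C ≠ ⊥ := fun h => hN2 (by rw [hCcard]; exact Subgroup.card_eq_one.2 h)
  rw [H1.Frob.isFrobeniusComplement_iff N C hC hNb hCb]
  intro h hh hh1
  rw [eq_bot_iff]
  intro x hx
  rw [mem_inf, mem_centralizer_singleton_iff] at hx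
  rw [mem_bot]
  by_contra hx1
  obtain ⟨p, hp, hpx⟩ := Nat.exists_prime_and_dvd (fun h' => hx1 (orderOf_eq_one_iff.1 h') : orderOf x ≠ 1)
  obtain ⟨q, hq, hqh⟩ := Nat.exists_prime_and_dvd (fun h' => hh1 (orderOf_eq_one_iff.1 h') : orderOf h ≠ 1)
  have hpN : p ∣ Nat.card N := hpx.trans (by
    rw [← Subgroup.orderOf_mk x hx.1]; exact orderOf_dvd_natCard _)
  have hqC : q ∣ N.index := hqh.trans (by
    rw [hCcard, ← Subgroup.orderOf_mk h hh]; exact orderOf_dvd_natCard _)
  obtain ⟨a, ha⟩ := hpx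
  obtain ⟨b, hb⟩ := hqh
  have ha0 : a ≠ 0 := by rintro rfl; rw [mul_zero] at ha; exact (orderOf_pos x).ne' ha
  have hb0 : b ≠ 0 := by rintro rfl; rw [mul_zero] at hb; exact (orderOf_pos h).ne' hb
  have h1 : orderOf (x ^ a) = p := by
    rw [orderOf_pow_of_dvd ha0 ⟨p, by rw [ha, mul_comm]⟩, ha, Nat.mul_div_cancel _ (Nat.pos_of_ne_zero ha0)]
  have h2 : orderOf (h ^ b) = q := by
    rw [orderOf_pow_of_dvd hb0 ⟨q, by rw [hb, mul_comm]⟩, hb, Nat.mul_div_cancel _ (Nat.pos_of_ne_zero hb0)]
  have h3 : Commute (x ^ a) (h ^ b) := (show Commute x h from hx.2).pow_pow a b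
  apply hmix p q hp hq hpN hqC (x ^ a * h ^ b)
  rw [h3.orderOf_mul_eq_mul_orderOf_of_coprime, h1, h2]
  rw [h1, h2]
  exact Nat.Coprime.coprime_dvd_left hpN (Nat.Coprime.coprime_dvd_right hqC hcop)

end H69.SameOrder
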