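import Mathlib
import Cfsg.Agent.Lib.H69.SameOrder
import Cfsg.Agent.Lib.H1.FpfNilp
import Cfsg.Agent.Lib.H2.FrobComp
import Cfsg.Agent.Lib.H11.MinNormal
import Cfsg.Agent.Lib.H73.SolvSmall
import Cfsg.Agent.Lib.H25.SL2Card
import Cfsg.Agent.Lib.H3.CardSup
import Cfsg.Agent.Lib.H4.Burnside

/-!
# Elements of order 15 in Frobenius complements
-/

set_option autoImplicit false

namespace H69.Fifteen

open Cfsg Subgroup
open scoped Pointwise

theorem zmod5_cases (t : ZMod 5) : t = 0 ∨ t = 1 ∨ t = -1 ∨ t = 2 ∨ t = -2 := by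
  revert t; decide

/-- in `SL(2,5)` every element satisfies `x ^ 12 = 1` or `x ^ 10 = 1` -/
theorem sl25_pow (x : Matrix.SpecialLinearGroup (Fin 2) (ZMod 5)) : x ^ 12 = 1 ∨ x ^ 10 = 1 := by
  have hF : Fact (Nat.Prime 5) := ⟨by norm_num⟩
  set A : Matrix (Fin 2) (Fin 2) (ZMod 5) := x.1 with hA
  have hdet : A.det = 1 := x.2
  have hch : A * A - A.trace • A + 1 = 0 := by
    have h1 := Matrix.aeval_self_charpoly A
    rw [Matrix.charpoly_fin_two, hdet] at h1
    simp only [map_add, map_sub, map_mul, map_pow, Polynomial.aeval_X, Polynomial.aeval_C, map_one] at h1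
    rw [pow_two] at h1
    rw [← h1, Algebra.smul_def]
  have hcases : A.trace = 0 ∨ A.trace = 1 ∨ A.trace = -1 ∨ A.trace = 2 ∨ A.trace = -2 := by
    exact zmod5_cases A.trace
  have h5 : (5 : Matrix (Fin 2) (Fin 2) (ZMod 5)) = 0 := by
    have : ((5 : ℕ) : Matrix (Fin 2) (Fin 2) (ZMod 5)) = 0 := by
      rw [← map_natCast (algebraMap (ZMod 5) (Matrix (Fin 2) (Fin 2) (ZMod 5))), ZMod.natCast_self, map_zero]
    exact_mod_cast this
  have key : A ^ 12 = 1 ∨ A ^ 10 = 1 := by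
    rcases hcases with h | h | h | h | h
    · left
      rw [h, zero_smul, sub_zero] at hch
      have : A ^ 12 - 1 = (A * A + 1) * (A ^ 10 - A ^ 8 + A ^ 6 - A ^ 4 + A ^ 2 - 1) := by noncomm_ring
      rw [hch, zero_mul] at this
      exact sub_eq_zero.1 this
    · left
      rw [h, one_smul] at hch
      have : A ^ 12 - 1 = (A * A - A + 1) * ((A + 1) * (A ^ 3 - 1) * (A ^ 6 + 1)) := by noncomm_ring
      rw [hch, zero_mul] at this
      exact sub_eq_zero.1 this
    · left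
      rw [h, neg_smul, one_smul, sub_neg_eq_add] at hch
      have : A ^ 12 - 1 = (A * A + A + 1) * ((A - 1) * (A ^ 3 + 1) * (A ^ 6 + 1)) := by noncomm_ring
      rw [hch, zero_mul] at this
      exact sub_eq_zero.1 this
    · right
      rw [h] at hch
      have h1 : A * A - (2 : ZMod 5) • A + 1 = (A - 1) * (A - 1) := by
        rw [two_smul]; noncomm_ring
      rw [h1] at hch
      have h2 : A ^ 10 - 1 = (A - 1) * (A - 1) * ((A - 1) ^ 3 * (A ^ 5 + 1)) +
          5 * ((A ^ 4 - 2 * A ^ 3 + 2 * A ^ 2 - A) * (A ^ 5 + 1)) := by noncomm_ring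
      rw [hch, h5, zero_mul, zero_mul, add_zero] at h2
      exact sub_eq_zero.1 h2
    · right
      rw [h] at hch
      have h1 : A * A - (-2 : ZMod 5) • A + 1 = (A + 1) * (A + 1) := by
        rw [neg_smul, two_smul]; noncomm_ring
      rw [h1] at hch
      have h2 : A ^ 10 - 1 = (A + 1) * (A + 1) * ((A + 1) ^ 3 * (A ^ 5 - 1)) -
          5 * ((A ^ 4 + 2 * A ^ 3 + 2 * A ^ 2 + A) * (A ^ 5 - 1)) := by noncomm_ring
      rw [hch, h5, zero_mul, zero_mul, sub_zero] at h2
      exact sub_eq_zero.1 h2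
  rcases key with h | h
  · left
    apply Subtype.ext
    rw [Matrix.SpecialLinearGroup.coe_pow, Matrix.SpecialLinearGroup.coe_one]; exact h
  · right
    apply Subtype.ext
    rw [Matrix.SpecialLinearGroup.coe_pow, Matrix.SpecialLinearGroup.coe_one]; exact h

theorem sl25_no_fifteen (x : Matrix.SpecialLinearGroup (Fin 2) (ZMod 5)) : orderOf x ≠ 15 := by
  intro h
  rcases sl25_pow x with h1 | h1
  · have := orderOf_dvd_of_pow_eq_one h1
    rw [h] at this
    omega
  · have := orderOf_dvd_of_pow_eq_one h1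
    rw [h] at this
    omega

theorem sl25_card : 15 ∣ Nat.card (Matrix.SpecialLinearGroup (Fin 2) (ZMod 5)) := by
  have hF : Fact (Nat.Prime 5) := ⟨by norm_num⟩
  rw [H25.SL2Card.card_SL2, ZMod.card]
  norm_num

/-- the consequence of Zassenhaus' theorem -/
theorem of_struct {Y : Type*} [Group Y] [Finite Y]
    (h : ∃ G₀ : Subgroup Y, G₀.Normal ∧ (G₀.index = 1 ∨ G₀.index = 2) ∧
      ∃ S M : Subgroup Y, S ⊔ M = G₀ ∧ S ⊓ M = ⊥ ∧ (∀ s ∈ S, ∀ x ∈ M, s * x = x * s) ∧
        Nonempty (S ≃* Matrix.SpecialLinearGroup (Fin 2) (ZMod 5)) ∧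
        (∀ (p : ℕ) [Fact p.Prime] (P : Sylow p M), IsCyclic P) ∧ (Nat.card M).Coprime 30) :
    15 ∣ Nat.card Y ∧ ∀ x : Y, orderOf x ≠ 15 := by
  obtain ⟨G₀, hn, hidx, S, M, hSM, -, hcomm, ⟨e⟩, -, hcop⟩ := h
  constructor
  · have h1 : 15 ∣ Nat.card S := by rw [Nat.card_congr e.toEquiv]; exact sl25_card
    exact h1.trans (Subgroup.card_subgroup_dvd_card S)
  · intro x hx
    have hx0 : x ∈ G₀ := by
      have hsq : x ^ 2 ∈ G₀ := by
        rcases hidx with h | h
        · rw [Subgroup.index_eq_one.1 h]; exact Subgroup.mem_top _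
        · exact Subgroup.sq_mem_of_index_two h x
      have h1 : x = (x ^ 2) ^ 8 := by
        rw [← pow_mul]
        have : x ^ 15 = 1 := by rw [← hx]; exact pow_orderOf_eq_one x
        calc x = x ^ 15 * x := by rw [this, one_mul]
          _ = x ^ (2 * 8) := by rw [← pow_succ]
      rw [h1]; exact pow_mem hsq 8
    have hcomm' : ∀ (a : S) (b : M), Commute (S.subtype a) (M.subtype b) :=
      fun a b => hcomm a a.2 b b.2
    have hx1 : x ∈ ((S.subtype).noncommCoprod M.subtype hcomm').range := by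
      rw [MonoidHom.noncommCoprod_range, Subgroup.range_subtype, Subgroup.range_subtype, hSM]
      exact hx0
    obtain ⟨⟨a, b⟩, hab⟩ := hx1
    have hab' : (a : Y) * (b : Y) = x := hab
    have hc : Commute (a : Y) (b : Y) := hcomm a a.2 b b.2
    have hb : (b : Y) ^ Nat.card M = 1 := by
      have : b ^ Nat.card M = 1 := pow_card_eq_one'
      exact congrArg Subtype.val this
    have h1 : x ^ Nat.card M = (a : Y) ^ Nat.card M := by
      rw [← hab', hc.mul_pow, hb, mul_one]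
    have h2 : orderOf (x ^ Nat.card M) = 15 := by
      rw [Nat.Coprime.orderOf_pow, hx]
      rw [hx]
      exact (Nat.Coprime.coprime_dvd_right (by norm_num : 15 ∣ 30) hcop).symm
    have h3 : orderOf (e (a ^ Nat.card M)) = 15 := by
      rw [MulEquiv.orderOf_eq, ← Subgroup.orderOf_coe]
      rw [← h2, h1]; rfl
    exact sl25_no_fifteen _ h3

/-- two odd primes in a solvable group acting fixed-point-freely -/
theorem exists_order_mul {X : Type*} [Group X] [Finite X] (B N : Subgroup X) (hN : N ≠ ⊥)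
    (hBN : B ≤ normalizer (N : Set X)) (hfpf : ∀ a ∈ B, a ≠ 1 → N ⊓ centralizer {a} = ⊥)
    (hB : Group.IsSolvable B) {r s : ℕ} (hr : r.Prime) (hs : s.Prime) (hrs : r ≠ s) (hr2 : r ≠ 2)
    (hs2 : s ≠ 2) (hall : ∀ t : ℕ, t.Prime → t ∣ Nat.card B → t = r ∨ t = s)
    (hrB : r ∣ Nat.card B) (hsB : s ∣ Nat.card B) : ∃ x ∈ B, orderOf x = r * s := by
  have hB1 : (⊤ : Subgroup ↥B) ≠ ⊥ := by
    intro h
    have h1 : Nat.card (⊤ : Subgroup ↥B) = 1 := by rw [h, Subgroup.card_bot]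
    rw [Subgroup.card_top] at h1
    rw [h1] at hrB
    exact hr.one_lt.ne' (Nat.dvd_one.1 hrB)
  obtain ⟨R, -, hRn, hRb, hRmin⟩ := H73.SolvSmall.exists_minimal_normal
    (inferInstance : (⊤ : Subgroup ↥B).Normal) hB1
  obtain ⟨-, t, ht, hRt, hRe⟩ := H11.MinNormal.minimal_normal_abelian hB R hRb hRmin
  -- reduce to t = r or t = s
  have hmain : ∀ u : ℕ, u.Prime → u ≠ t → u ∣ Nat.card B → t ≠ 2 → ∃ x ∈ B, orderOf x = t * u := by
    intro u hu hut huB ht2
    have hFt := Fact.mk ht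
    have hFu := Fact.mk hu
    obtain ⟨R₁, hR₁⟩ : ∃ R₁, R₁ = R.map B.subtype := ⟨_, rfl⟩
    have hR₁B : R₁ ≤ B := by rw [hR₁]; exact Subgroup.map_subtype_le _
    have hR₁t : IsPGroup t R₁ := by rw [hR₁]; exact hRt.map _
    have hR₁b : R₁ ≠ ⊥ := by
      rw [hR₁]
      intro h
      rw [Subgroup.map_eq_bot_iff_of_injective _ B.subtype_injective] at h
      exact hRb h
    have hR₁e : ∀ x ∈ R₁, x ^ t = 1 := by
      rw [hR₁]
      rintro _ ⟨y, hy, rfl⟩
      have := hRe y hy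
      exact congrArg Subtype.val this
    have hcyc : IsCyclic R₁ := by
      rcases H1.FrobSyl.cyclic_or_quaternion R₁ N hN (hR₁B.trans hBN)
        (fun a ha => hfpf a (hR₁B ha)) t hR₁t with h | h
      · exact h
      · exact absurd h.1 ht2
    have hcard : Nat.card R₁ = t := by
      obtain ⟨g, hg⟩ := hcyc.exists_ofOrder_eq_natCard
      have h1 : orderOf g ∣ t := by
        apply orderOf_dvd_of_pow_eq_one
        exact Subtype.ext (hR₁e g g.2)
      rw [hg] at h1
      rcases (Nat.dvd_prime ht).1 h1 with h | h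
      · exact absurd (Subgroup.card_eq_one.1 h) hR₁b
      · exact h
    obtain ⟨y, hy⟩ := exists_prime_orderOf_dvd_card' u huB
    have hyo : orderOf (y : X) = u := by rw [Subgroup.orderOf_coe, hy]
    have hyn : zpowers (y : X) ≤ normalizer (R₁ : Set X) := by
      rw [Subgroup.zpowers_le, Subgroup.mem_normalizer_iff]
      intro x
      constructor
      · intro hx
        rw [hR₁] at hx ⊢
        obtain ⟨z, hz, rfl⟩ := hx
        exact ⟨y * z * y⁻¹, hRn.conj_mem z hz y, rfl⟩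
      · intro hx
        rw [hR₁] at hx ⊢
        obtain ⟨z, hz, hzx⟩ := hx
        refine ⟨y⁻¹ * z * y, by have := hRn.conj_mem z hz y⁻¹; simpa using this, ?_⟩
        change (y : X)⁻¹ * (z : X) * (y : X) = x
        have hzx' : (z : X) = (y : X) * x * (y : X)⁻¹ := hzx
        rw [hzx']; group
    have hcardz : Nat.card ↥(zpowers (y : X)) = u := by rw [Nat.card_zpowers, hyo]
    have hcop : (Nat.card ↥(zpowers (y : X))).Coprime (Nat.card ↥R₁) := by
      rw [hcard, hcardz]; exact (Nat.coprime_primes hu ht).2 hut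
    have hcardA : Nat.card ↥(zpowers (y : X) ⊔ R₁ : Subgroup X) = t * u := by
      have h1 := H3.CardSup.card_sup_mul_card_inf (zpowers (y : X)) R₁ hyn
      rw [H1.Coprime.inf_eq_bot_of_coprime_card hcop, Subgroup.card_bot, mul_one, hcard, hcardz,
        mul_comm] at h1
      exact h1
    have hAB : zpowers (y : X) ⊔ R₁ ≤ B := sup_le (by rw [Subgroup.zpowers_le]; exact y.2) hR₁B
    have hAs : Group.IsSolvable ↥(zpowers (y : X) ⊔ R₁ : Subgroup X) :=
      H4.Burnside.isSolvable_of_card_eq t u ht hu _ _ hcardA ⟨1, 1, by rw [pow_one, pow_one]⟩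
    have hAcyc := H2.FrobComp.isCyclic_of_card_eq_mul (zpowers (y : X) ⊔ R₁) N hN (hAB.trans hBN)
      (fun a ha => hfpf a (hAB ha)) hAs ht hu hcardA
    obtain ⟨g, hg⟩ := hAcyc.exists_ofOrder_eq_natCard
    exact ⟨g, hAB g.2, by rw [Subgroup.orderOf_coe, hg, hcardA]⟩
  have htB : t ∣ Nat.card B := by
    have hFt := Fact.mk ht
    obtain ⟨n, hn⟩ := IsPGroup.iff_card.1 hRt
    have hn0 : n ≠ 0 := by
      rintro rfl
      rw [pow_zero] at hn
      exact hRb (Subgroup.card_eq_one.1 hn)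
    have h2 : t ∣ Nat.card R := by rw [hn]; exact dvd_pow_self t hn0
    exact h2.trans (Subgroup.card_subgroup_dvd_card _)
  rcases hall t ht htB with h | h
  · rw [h] at hmain
    exact hmain s hs hrs.symm hsB hr2
  · rw [h] at hmain
    obtain ⟨x, hx, hxo⟩ := hmain r hr hrs hrB hs2
    exact ⟨x, hx, by rw [hxo, mul_comm]⟩

theorem nat_split {c : ℕ} (h0 : c ≠ 0) (h15 : 15 ∣ c) : ∃ m n : ℕ, c = m * n ∧ m.Coprime n ∧
    3 ∣ m ∧ 5 ∣ m ∧ ∀ t : ℕ, t.Prime → t ∣ m → t = 3 ∨ t = 5 := by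
  have hp3 : Nat.Prime 3 := by norm_num
  have hp5 : Nat.Prime 5 := by norm_num
  obtain ⟨a, c', hc', hc⟩ := Nat.exists_eq_pow_mul_and_not_dvd h0 3 (by norm_num)
  have h0' : c' ≠ 0 := by rintro rfl; exact hc' (dvd_zero _)
  obtain ⟨b, c'', hc'', hcc⟩ := Nat.exists_eq_pow_mul_and_not_dvd h0' 5 (by norm_num)
  refine ⟨3 ^ a * 5 ^ b, c'', by rw [hc, hcc, mul_assoc], ?_, ?_, ?_, ?_⟩
  · have h3 : ¬ 3 ∣ c'' := fun h => hc' (by rw [hcc]; exact Dvd.dvd.mul_left h _)
    exact Nat.Coprime.mul_left (Nat.Coprime.pow_left _ ((Nat.Prime.coprime_iff_not_dvd hp3).2 h3))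
      (Nat.Coprime.pow_left _ ((Nat.Prime.coprime_iff_not_dvd hp5).2 hc''))
  · apply Dvd.dvd.mul_right
    apply dvd_pow_self
    rintro rfl
    rw [pow_zero, one_mul] at hc
    rw [hc] at h15
    exact hc' ((by norm_num : 3 ∣ 15).trans h15)
  · apply Dvd.dvd.mul_left
    apply dvd_pow_self
    rintro rfl
    rw [pow_zero, one_mul] at hcc
    have h5 : 5 ∣ 3 ^ a * c' := by rw [← hc]; exact (by norm_num : 5 ∣ 15).trans h15
    rcases (hp5.dvd_mul).1 h5 with h | h
    · have := (Nat.prime_dvd_prime_iff_eq hp5 hp3).1 (hp5.dvd_of_dvd_pow h)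
      omega
    · rw [hcc] at h; exact hc'' h
  · intro t ht htm
    rcases (ht.dvd_mul).1 htm with h | h
    · exact Or.inl ((Nat.prime_dvd_prime_iff_eq ht hp3).1 (ht.dvd_of_dvd_pow h))
    · exact Or.inr ((Nat.prime_dvd_prime_iff_eq ht hp5).1 (ht.dvd_of_dvd_pow h))

/-- a solvable Frobenius complement of order divisible by 15 has elements of order 15 -/
theorem exists_fifteen {X : Type*} [Group X] [Finite X] {C : Subgroup X} (hC : IsFrobeniusComplement C)
    (hs : Group.IsSolvable C) (h15 : 15 ∣ Nat.card C) : ∃ x ∈ C, orderOf x = 15 := by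
  obtain ⟨hC1, hC2, hTI⟩ := id hC
  obtain ⟨N, hN, hNn, hNc⟩ := H1.FrobThm.frobenius_kernel hTI
  have hfpf := H1.FrobConj.fpf_of_TI hTI hN
  have hNb : N ≠ ⊥ := by
    rintro rfl
    apply hC2
    have := hNc.sup_eq_top
    rwa [bot_sup_eq] at this
  have hCN : C ≤ normalizer (N : Set X) := by
    rw [Subgroup.normalizer_eq_top_iff.mpr hNn]; exact le_top
  -- the Hall {3,5}-subgroup
  obtain ⟨m, n, hmn, hcop, hm3, hm5, hm⟩ : ∃ m n : ℕ, Nat.card C = m * n ∧ m.Coprime n ∧ 3 ∣ m ∧ 5 ∣ m ∧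
      ∀ t : ℕ, t.Prime → t ∣ m → t = 3 ∨ t = 5 := by
    exact nat_split Nat.card_pos.ne' h15
  obtain ⟨B₀, hB₀⟩ := H1.Hall.exists_card_eq hs m n hmn hcop
  obtain ⟨B, hB⟩ : ∃ B, B = B₀.map C.subtype := ⟨_, rfl⟩
  have hBC : B ≤ C := by rw [hB]; exact Subgroup.map_subtype_le _
  have hBcard : Nat.card B = m := by
    rw [hB, Subgroup.card_map_of_injective C.subtype_injective, hB₀]
  have hBs : Group.IsSolvable B := H1.Coprime.isSolvable_of_le hBC hs
  obtain ⟨x, hx, hxo⟩ := exists_order_mul B N hNb (hBC.trans hCN) (fun a ha => hfpf a (hBC ha)) hBs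
    (by norm_num : Nat.Prime 3) (by norm_num : Nat.Prime 5) (by norm_num) (by norm_num) (by norm_num)
    (by rw [hBcard]; exact hm) (by rw [hBcard]; exact hm3) (by rw [hBcard]; exact hm5)
  exact ⟨x, hBC hx, hxo⟩

end H69.Fifteen
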