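import Mathlib
import Cfsg.Agent.Lib.H69.Engel2

/-!
A 2-group `N` normalized by a symmetric group of degree three whose element of order 3 acts fixed
point freely and such that `(n t) ^ 4 = 1` for all `n ∈ N` has exponent two.
-/

set_option autoImplicit false

open scoped commutatorElement

namespace H69.FpfS3

universe u

/-- the abelian case -/
theorem abelian_case {G : Type u} [Group G] (N : Subgroup G) (hN : N.Normal)
    (hcomm : ∀ a ∈ N, ∀ b ∈ N, a * b = b * a) (x t : G) (hx : x ^ 3 = 1) (ht : t * t = 1)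
    (htx : t * x * t⁻¹ = x⁻¹)
    (hnorm : ∀ a ∈ N, a * (x * a * x⁻¹) * (x ^ 2 * a * (x ^ 2)⁻¹) = 1)
    (h4 : ∀ n ∈ N, n ^ 4 = 1) (hf : ∀ n ∈ N, (n * (t * n * t⁻¹)) ^ 2 = 1) (n : G) (hn : n ∈ N) :
    n ^ 2 = 1 := by
  have hti : t⁻¹ = t := inv_eq_of_mul_eq_one_right ht
  -- squares are inverted by t
  have hsq : ∀ a ∈ N, t * (a ^ 2) * t⁻¹ = (a ^ 2)⁻¹ := by
    intro a ha
    have h1 := hf a ha
    have h2 : Commute a (t * a * t⁻¹) := hcomm a ha _ (hN.conj_mem a ha t)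
    rw [h2.mul_pow] at h1
    have h3 : (t * a * t⁻¹) ^ 2 = t * a ^ 2 * t⁻¹ := conj_pow
    rw [h3] at h1
    exact eq_inv_of_mul_eq_one_right h1
  set m := n ^ 2 with hm
  have hmN : m ∈ N := N.pow_mem hn 2
  have h1 : t * m * t⁻¹ = m⁻¹ := hsq n hn
  have h2 : t * (x * m * x⁻¹) * t⁻¹ = (x * m * x⁻¹)⁻¹ := by
    have h3 := hsq (x * n * x⁻¹) (hN.conj_mem n hn x)
    have h4 : (x * n * x⁻¹) ^ 2 = x * m * x⁻¹ := conj_pow
    rwa [h4] at h3
  have h3 : t * (x * m * x⁻¹) * t⁻¹ = x⁻¹ * m⁻¹ * x := by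
    calc t * (x * m * x⁻¹) * t⁻¹ = (t * x * t⁻¹) * (t * m * t⁻¹) * (t * x * t⁻¹)⁻¹ := by group
      _ = x⁻¹ * m⁻¹ * x := by rw [htx, h1, inv_inv]
  rw [h3] at h2
  have h5 : x⁻¹ * m * x = x * m * x⁻¹ := by
    have : (x⁻¹ * m⁻¹ * x)⁻¹ = ((x * m * x⁻¹)⁻¹)⁻¹ := by rw [h2]
    rw [inv_inv] at this
    rw [← this]; group
  have h6 : x ^ 2 * m * (x ^ 2)⁻¹ = m := by
    calc x ^ 2 * m * (x ^ 2)⁻¹ = x * (x * m * x⁻¹) * x⁻¹ := by rw [pow_two]; group
      _ = x * (x⁻¹ * m * x) * x⁻¹ := by rw [h5]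
      _ = m := by group
  have hx2 : x ^ 2 = x⁻¹ := by
    rw [pow_succ] at hx
    exact eq_inv_of_mul_eq_one_left hx
  have h7 : x * m * x⁻¹ = m := by
    rw [hx2, inv_inv] at h6
    calc x * m * x⁻¹ = x * (x⁻¹ * m * x) * x⁻¹ := by rw [h6]
      _ = m := by group
  have h8 := hnorm m hmN
  rw [h6, h7] at h8
  have h9 : m ^ 2 = 1 := by
    rw [hm, ← pow_mul]
    exact h4 n hn
  rw [← pow_two, h9, one_mul] at h8
  exact h8

theorem pow_two_eq_one {G : Type u} [Group G] (N : Subgroup G) [hN : N.Normal] [Finite N]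
    (x t : G) (hx : x ^ 3 = 1) (ht : t * t = 1)
    (htx : t * x * t⁻¹ = x⁻¹) (hC : ∀ n ∈ N, x * n * x⁻¹ = n → n = 1)
    (h4 : ∀ n ∈ N, n ^ 4 = 1) (hf : ∀ n ∈ N, (n * (t * n * t⁻¹)) ^ 2 = 1) (n : G) (hn : n ∈ N) :
    n ^ 2 = 1 := by
  have hti : t⁻¹ = t := inv_eq_of_mul_eq_one_right ht
  have hx2 : x ^ 2 = x⁻¹ := by
    rw [pow_succ] at hx
    exact eq_inv_of_mul_eq_one_left hx
  have h3 : ∀ n ∈ N, n ^ 3 = 1 → n = 1 := by
    intro n hn h
    have h5 : n ^ 4 = n ^ 3 * n := by rw [pow_succ]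
    rw [h4 n hn, h, one_mul] at h5
    exact h5.symm
  have hnorm := H69.Engel2.norm_right N x hx hC
  have hcl := H69.Engel2.class_two_of_fpf N x hx hC h3
  have hcj : ∀ (g : G) (a : G), a ∈ N → g * a * g⁻¹ ∈ N := fun g a ha => hN.conj_mem a ha g
  let D : Subgroup G := ⁅N, N⁆
  have hDn : D.Normal := Subgroup.commutator_normal N N
  have hDN : D ≤ N := Subgroup.commutator_le_left N N
  have hDcomm : ∀ a ∈ N, ∀ b ∈ N, ⁅a, b⁆ ∈ D := fun a ha b hb => Subgroup.commutator_mem_commutator ha hb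
  -- D is central in N
  have hDc : ∀ z ∈ D, ∀ a ∈ N, a * z = z * a := by
    have h1 : D ≤ Subgroup.centralizer (N : Set G) := by
      rw [Subgroup.commutator_le]
      intro a ha b hb
      rw [Subgroup.mem_centralizer_iff]
      intro c hc
      exact commutatorElement_eq_one_iff_mul_comm.1 (hcl c a b hc ha hb)
    intro z hz a ha
    exact Subgroup.mem_centralizer_iff.1 (h1 hz) a ha
  -- the quotient
  let q : G →* G ⧸ D := QuotientGroup.mk' D
  have hq : ∀ z : G, q z = 1 ↔ z ∈ D := fun z => QuotientGroup.eq_one_iff z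
  have hqcomm : ∀ a ∈ N, ∀ b ∈ N, q a * q b = q b * q a := by
    intro a ha b hb
    have h1 : q ⁅a, b⁆ = 1 := (hq _).2 (hDcomm a ha b hb)
    rw [map_commutatorElement, commutatorElement_eq_one_iff_mul_comm] at h1
    exact h1
  have hsqD : ∀ a ∈ N, a ^ 2 ∈ D := by
    intro a ha
    rw [← hq, map_pow]
    refine abelian_case (N.map q) (hN.map q (QuotientGroup.mk'_surjective D)) ?_ (q x) (q t) ?_ ?_ ?_ ?_ ?_ ?_
      (q a) (Subgroup.mem_map_of_mem q ha)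
    · rintro _ ⟨a, ha, rfl⟩ _ ⟨b, hb, rfl⟩
      exact hqcomm a ha b hb
    · rw [← map_pow, hx, map_one]
    · rw [← map_mul, ht, map_one]
    · rw [← map_inv, ← map_inv, ← map_mul, ← map_mul, htx]
    · rintro _ ⟨a, ha, rfl⟩
      have := congrArg q (hnorm a ha)
      simpa only [map_mul, map_inv, map_pow, map_one] using this
    · rintro _ ⟨a, ha, rfl⟩
      have := congrArg q (h4 a ha)
      simpa only [map_mul, map_inv, map_pow, map_one] using this
    · rintro _ ⟨a, ha, rfl⟩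
      have := congrArg q (hf a ha)
      simpa only [map_mul, map_inv, map_pow, map_one] using this
  -- commutators have square one
  have hcsq : ∀ a ∈ N, ∀ b ∈ N, ⁅a, b⁆ ^ 2 = 1 := by
    intro a ha b hb
    have hc := hDcomm a ha b hb
    have h1 : a * b * a⁻¹ = ⁅a, b⁆ * b := by rw [commutatorElement_def]; group
    have h2 : a * ⁅a, b⁆ = ⁅a, b⁆ * a := hDc _ hc a ha
    have h5 : a ^ 2 * b * (a ^ 2)⁻¹ = ⁅a, b⁆ ^ 2 * b := by
      calc a ^ 2 * b * (a ^ 2)⁻¹ = a * (a * b * a⁻¹) * a⁻¹ := by rw [pow_two]; group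
        _ = (a * ⁅a, b⁆) * b * a⁻¹ := by rw [h1]; group
        _ = ⁅a, b⁆ * (a * b * a⁻¹) := by rw [h2]; group
        _ = ⁅a, b⁆ ^ 2 * b := by rw [h1, pow_two]; group
    have h6 : a ^ 2 * b * (a ^ 2)⁻¹ = b := by
      rw [← hDc (a ^ 2) (hsqD a ha) b hb]; group
    rw [h6] at h5
    exact mul_eq_right.1 h5.symm
  have hDsq : ∀ z ∈ D, z ^ 2 = 1 := by
    let E : Subgroup G :=
      { carrier := {z | z ∈ N ∧ (∀ a ∈ N, a * z = z * a) ∧ z ^ 2 = 1}
        mul_mem' := by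
          rintro a b ⟨ha, ha1, ha2⟩ ⟨hb, hb1, hb2⟩
          refine ⟨mul_mem ha hb, ?_, ?_⟩
          · intro c hc
            rw [← mul_assoc, ha1 c hc, mul_assoc, hb1 c hc, mul_assoc]
          · have : Commute a b := hb1 a ha
            rw [this.mul_pow, ha2, hb2, one_mul]
        one_mem' := ⟨one_mem _, by simp, by simp⟩
        inv_mem' := by
          rintro a ⟨ha, ha1, ha2⟩
          refine ⟨inv_mem ha, ?_, ?_⟩
          · intro c hc
            exact (Commute.inv_right (ha1 c hc) : Commute _ _)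
          · rw [inv_pow, ha2, inv_one] }
    have h1 : D ≤ E := by
      rw [Subgroup.commutator_le]
      intro a ha b hb
      exact ⟨hDN (hDcomm a ha b hb), fun c hc => hDc _ (hDcomm a ha b hb) c hc, hcsq a ha b hb⟩
    intro z hz
    exact (h1 hz).2.2
  -- f n = n * (t n t⁻¹)
  have hfN : ∀ a ∈ N, a * (t * a * t⁻¹) ∈ N := fun a ha => mul_mem ha (hcj t a ha)
  have hfcomm : ∀ a ∈ N, ∀ b ∈ N, (a * (t * a * t⁻¹)) * (b * (t * b * t⁻¹)) =
      (b * (t * b * t⁻¹)) * (a * (t * a * t⁻¹)) := by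
    intro a ha b hb
    set u := t * a * t⁻¹ with hu
    set v := t * b * t⁻¹ with hv
    have huN : u ∈ N := hcj t a ha
    have hvN : v ∈ N := hcj t b hb
    have hcD := hDcomm _ (inv_mem huN) _ (inv_mem hb)
    set c := ⁅u⁻¹, b⁻¹⁆ with hc
    have h1 : (a * u) * (b * v) = (a * b * (t * (a * b) * t⁻¹)) * c := by
      have h2 : t * (a * b) * t⁻¹ = u * v := by rw [hu, hv]; group
      have h5 : (a * u) * (b * v) = a * b * u * c * v := by
        rw [hc, commutatorElement_def]; group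
      rw [h5, h2, mul_assoc _ c v, ← hDc c hcD v hvN]
      group
    have h2 : ((a * u) * (b * v)) ^ 2 = 1 := by
      rw [h1]
      have h5 : Commute (a * b * (t * (a * b) * t⁻¹)) c := hDc c hcD _ (hfN _ (mul_mem ha hb))
      rw [h5.mul_pow, hf _ (mul_mem ha hb), hDsq c hcD, one_mul]
    have h5 : (a * u) ^ 2 = 1 := hf a ha
    have h6 : (b * v) ^ 2 = 1 := hf b hb
    have h7 : (a * u)⁻¹ = a * u := inv_eq_of_mul_eq_one_right (by rw [← pow_two]; exact h5)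
    have h8 : (b * v)⁻¹ = b * v := inv_eq_of_mul_eq_one_right (by rw [← pow_two]; exact h6)
    have h9 : ((a * u) * (b * v))⁻¹ = (a * u) * (b * v) :=
      inv_eq_of_mul_eq_one_right (by rw [← pow_two]; exact h2)
    rw [mul_inv_rev, h7, h8] at h9
    exact h9.symm
  -- f a commutes with x (f b) x⁻¹
  have hfx : ∀ a ∈ N, ∀ b ∈ N, (a * (t * a * t⁻¹)) * (x * (b * (t * b * t⁻¹)) * x⁻¹) =
      (x * (b * (t * b * t⁻¹)) * x⁻¹) * (a * (t * a * t⁻¹)) := by
    intro a' ha' b' hb'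
    have haN := hfN a' ha'
    have hbN := hfN b' hb'
    have hab := hfcomm a' ha' b' hb'
    set a := a' * (t * a' * t⁻¹) with ha
    set b := b' * (t * b' * t⁻¹) with hb
    have hna := hnorm a haN
    have hnb := hnorm b hbN
    set ax := x * a * x⁻¹ with hax
    set bx := x * b * x⁻¹ with hbx
    have haxN : ax ∈ N := hcj x a haN
    have hbxN : bx ∈ N := hcj x b hbN
    have hcD := hDcomm a haN bx hbxN
    set c := ⁅a, bx⁆ with hc
    have hcN : c ∈ N := hDN hcD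
    have h1 : a * bx * a⁻¹ = c * bx := by rw [hc, commutatorElement_def]; group
    -- [a, (b bx)⁻¹] = c⁻¹
    have h2 : x ^ 2 * b * (x ^ 2)⁻¹ = (b * bx)⁻¹ := eq_inv_of_mul_eq_one_right hnb
    have h5 : x ^ 2 * a * (x ^ 2)⁻¹ = (a * ax)⁻¹ := eq_inv_of_mul_eq_one_right hna
    have h6 : ⁅a, x ^ 2 * b * (x ^ 2)⁻¹⁆ = c⁻¹ := by
      rw [h2]
      have h7 : a * (b * bx) * a⁻¹ = c * (b * bx) := by
        calc a * (b * bx) * a⁻¹ = (a * b) * bx * a⁻¹ := by group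
          _ = b * (a * bx * a⁻¹) := by rw [hab]; group
          _ = (b * c) * bx := by rw [h1]; group
          _ = c * (b * bx) := by rw [hDc c hcD b hbN]; group
      calc ⁅a, (b * bx)⁻¹⁆ = (a * (b * bx) * a⁻¹)⁻¹ * (b * bx) := by
            rw [commutatorElement_def]; group
        _ = (b * bx)⁻¹ * (c⁻¹ * (b * bx)) := by rw [h7]; group
        _ = (b * bx)⁻¹ * ((b * bx) * c⁻¹) := by
            rw [hDc c⁻¹ (inv_mem hcD) (b * bx) (mul_mem hbN hbxN)]
        _ = c⁻¹ := by group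
    have h7 : ⁅x ^ 2 * a * (x ^ 2)⁻¹, bx⁆ = c⁻¹ := by
      rw [h5]
      have h8 : ax * bx = bx * ax := by
        calc ax * bx = x * (a * b) * x⁻¹ := by rw [hax, hbx]; group
          _ = x * (b * a) * x⁻¹ := by rw [hab]
          _ = bx * ax := by rw [hax, hbx]; group
      have h9 : (a * ax) * bx * (a * ax)⁻¹ = c * bx := by
        calc (a * ax) * bx * (a * ax)⁻¹ = a * (ax * bx) * ax⁻¹ * a⁻¹ := by group
          _ = a * (bx * ax) * ax⁻¹ * a⁻¹ := by rw [h8]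
          _ = a * bx * a⁻¹ := by group
          _ = c * bx := h1
      have h10 : (a * ax) * c = c * (a * ax) := hDc c hcD _ (mul_mem haN haxN)
      have h11 : bx = (a * ax)⁻¹ * (c * bx) * (a * ax) := by rw [← h9]; group
      have h12 : bx = c * ((a * ax)⁻¹ * bx * (a * ax)) := by
        calc bx = (a * ax)⁻¹ * (c * bx) * (a * ax) := h11
          _ = ((a * ax)⁻¹ * c) * bx * (a * ax) := by group
          _ = (c * (a * ax)⁻¹) * bx * (a * ax) := by
              rw [show (a * ax)⁻¹ * c = c * (a * ax)⁻¹ from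
                hDc c hcD _ (inv_mem (mul_mem haN haxN))]
          _ = c * ((a * ax)⁻¹ * bx * (a * ax)) := by group
      have h13 : (a * ax)⁻¹ * bx * (a * ax) = c⁻¹ * bx := by
        rw [eq_inv_mul_iff_mul_eq]; exact h12.symm
      rw [commutatorElement_def, inv_inv, h13]; group
    have h8 : x * c⁻¹ * x⁻¹ = c⁻¹ := by
      rw [← h7]
      have h9 : x * ⁅x ^ 2 * a * (x ^ 2)⁻¹, bx⁆ * x⁻¹ =
          ⁅x ^ 3 * a * (x ^ 3)⁻¹, x ^ 2 * b * (x ^ 2)⁻¹⁆ := by
        rw [hbx, commutatorElement_def, commutatorElement_def, pow_succ x 2, pow_two]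
        simp only [mul_inv_rev, mul_assoc, inv_mul_cancel_left, inv_inv]
      rw [h9, hx, inv_one, mul_one, one_mul, h6, h7]
    have h9 := hC _ (inv_mem hcN) h8
    rw [inv_eq_one] at h9
    exact commutatorElement_eq_one_iff_mul_comm.1 h9
  -- decomposition
  have hn1 : x⁻¹ * n * x ∈ N := by
    have := hcj x⁻¹ n hn
    rwa [inv_inv] at this
  have hn2 : x * n * x⁻¹ ∈ N := hcj x n hn
  set m1 := x⁻¹ * n * x with hm1
  set m2 := x * n * x⁻¹ with hm2
  set F0 := n * (t * n * t⁻¹) with hF0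
  set F1 := m1 * (t * m1 * t⁻¹) with hF1
  set F2 := m2 * (t * m2 * t⁻¹) with hF2
  have hF0N : F0 ∈ N := hfN n hn
  have hF1N : F1 ∈ N := hfN m1 hn1
  have hF2N : F2 ∈ N := hfN m2 hn2
  have s0 : F0 ^ 2 = 1 := hf n hn
  have s1 : (x * F1 * x⁻¹) ^ 2 = 1 := by
    have h5 : (x * F1 * x⁻¹) ^ 2 = x * F1 ^ 2 * x⁻¹ := conj_pow
    rw [h5, hf m1 hn1]; group
  have s2 : (x⁻¹ * F2 * x) ^ 2 = 1 := by
    have h5 : (x⁻¹ * F2 * x) ^ 2 = x⁻¹ * F2 ^ 2 * x := by
      have := conj_pow (i := 2) (a := x⁻¹) (b := F2)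
      rwa [inv_inv] at this
    rw [h5, hf m2 hn2]; group
  have c01 : F0 * (x * F1 * x⁻¹) = (x * F1 * x⁻¹) * F0 := hfx n hn m1 hn1
  have c02 : F0 * (x⁻¹ * F2 * x) = (x⁻¹ * F2 * x) * F0 := by
    have h5 := hfx m2 hn2 n hn
    calc F0 * (x⁻¹ * F2 * x) = x⁻¹ * ((x * F0 * x⁻¹) * F2) * x := by group
      _ = x⁻¹ * (F2 * (x * F0 * x⁻¹)) * x := by rw [h5]
      _ = (x⁻¹ * F2 * x) * F0 := by group
  have c12 : (x * F1 * x⁻¹) * (x⁻¹ * F2 * x) = (x⁻¹ * F2 * x) * (x * F1 * x⁻¹) := by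
    -- conj by x: x² F1 x⁻² = x⁻¹ F1 x commutes with F2
    have h5 := hfx m1 hn1 m2 hn2
    have h6 : x * F1 * x⁻¹ = x⁻¹ * (x⁻¹ * F1 * x) * x := by
      calc x * F1 * x⁻¹ = (x⁻¹)⁻¹ * F1 * x⁻¹ := by rw [inv_inv]
        _ = (x ^ 2)⁻¹ * F1 * x ^ 2 := by rw [hx2]
        _ = x⁻¹ * (x⁻¹ * F1 * x) * x := by rw [pow_two]; group
    rw [h6]
    -- F1 commutes with x F2 x⁻¹
    calc x⁻¹ * (x⁻¹ * F1 * x) * x * (x⁻¹ * F2 * x) = x⁻¹ * x⁻¹ * (F1 * (x * F2 * x⁻¹)) * x * x := by group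
      _ = x⁻¹ * x⁻¹ * ((x * F2 * x⁻¹) * F1) * x * x := by rw [h5]
      _ = x⁻¹ * F2 * x * (x⁻¹ * (x⁻¹ * F1 * x) * x) := by group
  have hprod : (F0 * (x * F1 * x⁻¹) * (x⁻¹ * F2 * x)) ^ 2 = 1 := by
    have k1 : Commute F0 (x * F1 * x⁻¹) := c01
    have k2 : Commute (F0 * (x * F1 * x⁻¹)) (x⁻¹ * F2 * x) := Commute.mul_left c02 c12
    rw [k2.mul_pow, k1.mul_pow, s0, s1, s2]; simp
  -- congruence modulo D
  have hcong : (F0 * (x * F1 * x⁻¹) * (x⁻¹ * F2 * x))⁻¹ * n ∈ D := by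
    rw [← hq, map_mul, map_inv, inv_mul_eq_one]
    set u := t * n * t⁻¹ with hu
    have huN : u ∈ N := hcj t n hn
    have e1 : x * F1 * x⁻¹ = n * (x ^ 2 * u * (x ^ 2)⁻¹) := by
      have h5 : t * m1 * t⁻¹ = x * u * x⁻¹ := by
        calc t * m1 * t⁻¹ = (t * x * t⁻¹)⁻¹ * (t * n * t⁻¹) * (t * x * t⁻¹) := by rw [hm1]; group
          _ = x * u * x⁻¹ := by rw [htx, inv_inv]
      rw [hF1, h5, hm1, pow_two]; group
    have e2 : x⁻¹ * F2 * x = n * (x * u * x⁻¹) := by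
      have h5 : t * m2 * t⁻¹ = x⁻¹ * u * x := by
        calc t * m2 * t⁻¹ = (t * x * t⁻¹) * (t * n * t⁻¹) * (t * x * t⁻¹)⁻¹ := by rw [hm2]; group
          _ = x⁻¹ * u * x := by rw [htx, inv_inv]
      have h6 : x⁻¹ * x⁻¹ = x := by
        rw [← mul_inv_rev, ← pow_two, hx2, inv_inv]
      rw [hF2, h5, hm2]
      calc x⁻¹ * (x * n * x⁻¹ * (x⁻¹ * u * x)) * x = n * ((x⁻¹ * x⁻¹) * u * (x⁻¹ * x⁻¹)⁻¹) := by
            simp only [mul_assoc, mul_inv_rev, inv_inv, inv_mul_cancel_left]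
        _ = n * (x * u * x⁻¹) := by rw [h6]
    rw [e1, e2, hF0]
    have hvN : x ^ 2 * u * (x ^ 2)⁻¹ ∈ N := hcj _ u huN
    have hwN : x * u * x⁻¹ ∈ N := hcj _ u huN
    set v := x ^ 2 * u * (x ^ 2)⁻¹ with hv
    set w := x * u * x⁻¹ with hw
    have hno : u * w * v = 1 := hnorm u huN
    have h5 : q n * q n = 1 := by
      rw [← map_mul, ← pow_two]
      exact (hq _).2 (hsqD n hn)
    have h6 : q u * q w * q v = 1 := by
      rw [← map_mul, ← map_mul, hno, map_one]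
    rw [map_mul, map_mul, map_mul, map_mul, map_mul]
    have k1 := hqcomm u huN n hn
    have k2 := hqcomm v hvN n hn
    have k3 := hqcomm v hvN w hwN
    calc q n * q u * (q n * q v) * (q n * q w) = q n * (q u * q n) * (q v * q n) * q w := by group
      _ = q n * (q n * q u) * (q n * q v) * q w := by rw [k1, k2]
      _ = (q n * q n) * (q u * q n) * (q v * q w) := by group
      _ = (q n * q n) * (q n * q u) * (q w * q v) := by rw [k1, k3]
      _ = (q n * q n) * q n * (q u * q w * q v) := by group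
      _ = q n := by rw [h5, h6, one_mul, mul_one]
  set P := F0 * (x * F1 * x⁻¹) * (x⁻¹ * F2 * x) with hP
  have hPN : P ∈ N := by
    rw [hP]
    refine mul_mem (mul_mem hF0N (hcj x F1 hF1N)) ?_
    have := hcj x⁻¹ F2 hF2N
    rwa [inv_inv] at this
  have h5 : n = P * (P⁻¹ * n) := by group
  have h6 : Commute P (P⁻¹ * n) := hDc _ hcong P hPN
  rw [h5, h6.mul_pow, hprod, hDsq _ hcong, one_mul]

end H69.FpfS3
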