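import Cfsg.Agent.Lib.H37.PCOf
import Cfsg.Prelude.Def_ClassificationStages

/-! S1315, interface: size of the simple quotient of a 2-component. -/

set_option autoImplicit false
set_option linter.unusedSectionVars false

open Subgroup Cfsg H26.LocalFitting
open scoped commutatorElement Pointwise

universe u

namespace H69.IC

variable {G : Type u} [Group G] [Finite G]

/-- order of the simple quotient of a `2`-component -/
noncomputable def sq (M : Subgroup G) : ℕ :=
  Nat.card ((↥M ⧸ pPrimeCore 2 ↥M) ⧸ center (↥M ⧸ pPrimeCore 2 ↥M))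

/-- every proper normal subgroup of `E` has index at least `s` -/
def Big (E : Subgroup G) (s : ℕ) : Prop := ∀ N : Subgroup ↥E, N.Normal → N ≠ ⊤ → s ≤ N.index

/-- `K` is a `2`-component of `C(z)` containing `z` as unique involution, `Z(K/O(K))` of exponent 2 -/
structure Dat (z : G) (K : Subgroup G) : Prop where
  ord : orderOf z = 2
  mem : z ∈ K
  uniq : ∀ t ∈ K, orderOf t = 2 → t = z
  pc : IsPComponentOf 2 K (centralizer ({z} : Set G))
  cen : ∀ k ∈ K, (∀ m ∈ K, k * m * k⁻¹ * m⁻¹ ∈ ppc 2 (centralizer ({z} : Set G))) → k * k ∈ ppc 2 (centralizer ({z} : Set G))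

end H69.IC
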