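import Mathlib

/-!
# The metacyclic groups `⟨a, b | a ^ M = 1, b ^ n = a ^ T, b a b⁻¹ = a ^ R⟩`
-/

set_option autoImplicit false

namespace H69.MetacyclicPres

open Subgroup

/-- the relators -/
abbrev rels (M n R T : ℕ) : Set (FreeGroup Bool) :=
  {FreeGroup.of true ^ M, (FreeGroup.of false) ^ n * (FreeGroup.of true ^ T)⁻¹,
    FreeGroup.of false * FreeGroup.of true * (FreeGroup.of false)⁻¹ * (FreeGroup.of true ^ R)⁻¹}

/-- the presented group -/
abbrev P (M n R T : ℕ) : Type := PresentedGroup (rels M n R T)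

/-- the generator `a` -/
abbrev ga (M n R T : ℕ) : P M n R T := PresentedGroup.of true
/-- the generator `b` -/
abbrev gb (M n R T : ℕ) : P M n R T := PresentedGroup.of false

variable (M n R T : ℕ)

theorem ga_pow : (ga M n R T) ^ M = 1 := by
  have h : (FreeGroup.of true ^ M : FreeGroup Bool) ∈ rels M n R T := by simp [rels]
  have := PresentedGroup.one_of_mem h
  rw [map_pow] at this
  exact this

theorem gb_pow : (gb M n R T) ^ n = (ga M n R T) ^ T := by
  have h : ((FreeGroup.of false) ^ n * (FreeGroup.of true ^ T)⁻¹ : FreeGroup Bool) ∈ rels M n R T := by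
    simp [rels]
  have := PresentedGroup.one_of_mem h
  rw [map_mul, map_inv, mul_inv_eq_one, map_pow, map_pow] at this
  exact this

theorem gb_conj : gb M n R T * ga M n R T * (gb M n R T)⁻¹ = (ga M n R T) ^ R := by
  have h : (FreeGroup.of false * FreeGroup.of true * (FreeGroup.of false)⁻¹ * (FreeGroup.of true ^ R)⁻¹ :
      FreeGroup Bool) ∈ rels M n R T := by
    simp [rels]
  have := PresentedGroup.one_of_mem h
  rw [map_mul, map_inv, mul_inv_eq_one, map_pow, map_mul, map_mul, map_inv] at this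
  exact this

theorem closure_gen : Subgroup.closure ({ga M n R T, gb M n R T} : Set (P M n R T)) = ⊤ := by
  rw [← PresentedGroup.closure_range_of]
  congr 1
  ext x
  constructor
  · rintro (rfl | rfl)
    · exact ⟨true, rfl⟩
    · exact ⟨false, rfl⟩
  · rintro ⟨_ | _, rfl⟩
    · right; rfl
    · left; rfl

theorem exists_lift {X : Type*} [Group X] (x y : X) (h1 : x ^ M = 1) (h2 : y ^ n = x ^ T)
    (h3 : y * x * y⁻¹ = x ^ R) : ∃ f : P M n R T →* X, f (ga M n R T) = x ∧ f (gb M n R T) = y := by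
  let f : Bool → X := fun c => if c then x else y
  have h : ∀ r ∈ rels M n R T, FreeGroup.lift f r = 1 := by
    intro r hr
    rcases hr with rfl | rfl | rfl
    · simp [f, h1]
    · simp [f, h2]
    · simp [f, h3]
  refine ⟨PresentedGroup.toGroup h, ?_, ?_⟩
  · rw [PresentedGroup.toGroup.of]; simp [f]
  · rw [PresentedGroup.toGroup.of]; simp [f]

theorem hom_ext {X : Type*} [Group X] {f g : P M n R T →* X} (h1 : f (ga M n R T) = g (ga M n R T))
    (h2 : f (gb M n R T) = g (gb M n R T)) : f = g := by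
  apply PresentedGroup.ext
  rintro (_ | _)
  · exact h2
  · exact h1

/-- a group generated by `a`, `b` as above is finite -/
theorem finite_of_rel {X : Type*} [Group X] {x y : X} (hgen : Subgroup.closure ({x, y} : Set X) = ⊤)
    {M n R T : ℕ} (hM : 0 < M) (hn : 0 < n) (h1 : x ^ M = 1) (h2 : y ^ n = x ^ T)
    (h3 : y * x * y⁻¹ = x ^ R) : Finite X := by
  have hof : IsOfFinOrder x := isOfFinOrder_iff_pow_eq_one.2 ⟨M, hM, h1⟩
  have hfin : Finite (zpowers x) := by
    exact (finite_zpowers.2 hof).to_subtype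
  have hnorm : (zpowers x).Normal := by
    rw [← Subgroup.normalizer_eq_top_iff, eq_top_iff, ← hgen, Subgroup.closure_le]
    rintro z (rfl | rfl)
    · exact Subgroup.le_normalizer (mem_zpowers z)
    · have : Finite (((zpowers x : Subgroup X) : Set X)) := hfin
      apply Subgroup.mem_normalizer_fintype
      intro w hw
      obtain ⟨i, rfl⟩ := mem_zpowers_iff.1 hw
      rw [← conj_zpow, h3]
      exact zpow_mem (pow_mem (mem_zpowers x) _) _
  have hq : ∀ w : X ⧸ zpowers x, w ∈ zpowers (y : X ⧸ zpowers x) := by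
    intro w
    obtain ⟨w, rfl⟩ := QuotientGroup.mk_surjective w
    have hw : w ∈ Subgroup.closure ({x, y} : Set X) := by rw [hgen]; exact mem_top _
    have hle : Subgroup.closure ({x, y} : Set X) ≤
        (zpowers (y : X ⧸ zpowers x)).comap (QuotientGroup.mk' (zpowers x)) := by
      rw [Subgroup.closure_le]
      rintro z (rfl | rfl)
      · change ((z : X) : X ⧸ zpowers z) ∈ zpowers (y : X ⧸ zpowers z)
        rw [(QuotientGroup.eq_one_iff z).2 (mem_zpowers z)]
        exact one_mem _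
      · exact mem_zpowers _
    exact hle hw
  have hqfin : Finite (X ⧸ zpowers x) := by
    have h4 : (y : X ⧸ zpowers x) ^ n = 1 := by
      rw [← QuotientGroup.mk_pow, h2, QuotientGroup.eq_one_iff]
      exact pow_mem (mem_zpowers x) _
    have h5 : Finite (zpowers (y : X ⧸ zpowers x)) :=
      (finite_zpowers.2 (isOfFinOrder_iff_pow_eq_one.2 ⟨n, hn, h4⟩)).to_subtype
    exact Finite.of_surjective (fun z : zpowers (y : X ⧸ zpowers x) => (z : X ⧸ zpowers x))
      (fun w => ⟨⟨w, hq w⟩, rfl⟩)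
  exact Finite.of_subgroup_quotient (zpowers x)

theorem finite {M n R T : ℕ} (hM : 0 < M) (hn : 0 < n) : Finite (P M n R T) :=
  finite_of_rel (closure_gen M n R T) hM hn (ga_pow M n R T) (gb_pow M n R T) (gb_conj M n R T)

section model

/-- the shift -/
def alpha (M n : ℕ) : Equiv.Perm (ZMod M × Fin n) where
  toFun z := (z.1 + 1, z.2)
  invFun z := (z.1 - 1, z.2)
  left_inv z := by simp
  right_inv z := by simp

/-- the second generator as a map -/
def betaFun (M n R T : ℕ) (z : ZMod M × Fin n) : ZMod M × Fin n :=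
  if h : z.2.1 + 1 < n then (R * z.1, ⟨z.2.1 + 1, h⟩)
  else (R * z.1 + T, ⟨0, lt_of_le_of_lt (Nat.zero_le _) z.2.2⟩)

theorem betaFun_injective {M n R T : ℕ} (hR : IsUnit (R : ZMod M)) :
    Function.Injective (betaFun M n R T) := by
  rintro ⟨x, i⟩ ⟨y, j⟩ h
  unfold betaFun at h
  dsimp only at h
  split_ifs at h with h1 h2 h2
  · rw [Prod.mk.injEq, Fin.mk.injEq] at h
    obtain ⟨h3, h4⟩ := h
    have := hR.mul_left_cancel h3
    have hij : i = j := Fin.ext (by omega)
    rw [this, hij]
  · rw [Prod.mk.injEq, Fin.mk.injEq] at h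
    omega
  · rw [Prod.mk.injEq, Fin.mk.injEq] at h
    omega
  · rw [Prod.mk.injEq, Fin.mk.injEq] at h
    obtain ⟨h3, h4⟩ := h
    have := hR.mul_left_cancel (add_right_cancel h3)
    have hij : i = j := Fin.ext (by omega)
    rw [this, hij]

/-- the second generator -/
noncomputable def beta {M n R T : ℕ} [NeZero M] (hR : IsUnit (R : ZMod M)) :
    Equiv.Perm (ZMod M × Fin n) :=
  Equiv.ofBijective (betaFun M n R T) (Finite.injective_iff_bijective.1 (betaFun_injective hR))

theorem alpha_pow (M n k : ℕ) (z : ZMod M × Fin n) : (alpha M n ^ k) z = (z.1 + k, z.2) := by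
  induction k with
  | zero => simp
  | succ k ih =>
    rw [pow_succ', Equiv.Perm.mul_apply, ih]
    simp [alpha, add_assoc]

theorem orderOf_ga {M n R T : ℕ} (hM : 0 < M) (hn : 0 < n) (hRn : R ^ n ≡ 1 [MOD M])
    (hT : T * R ≡ T [MOD M]) : orderOf (ga M n R T) = M := by
  have : NeZero M := ⟨hM.ne'⟩
  have hRn' : (R : ZMod M) ^ n = 1 := by
    have := (ZMod.natCast_eq_natCast_iff _ _ _).2 hRn
    simpa using this
  have hR : IsUnit (R : ZMod M) := IsUnit.of_pow_eq_one hRn' hn.ne'
  have hT' : (T : ZMod M) * R = T := by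
    have := (ZMod.natCast_eq_natCast_iff _ _ _).2 hT
    simpa using this
  set α := alpha M n with hα
  set β : Equiv.Perm (ZMod M × Fin n) := beta (T := T) hR with hβ
  have hβv : ∀ z, β z = betaFun M n R T z := fun z => rfl
  have h1 : α ^ M = 1 := by
    ext z : 1
    rw [alpha_pow]
    simp
  have h3 : β * α * β⁻¹ = α ^ R := by
    rw [mul_inv_eq_iff_eq_mul]
    ext z : 1
    rw [Equiv.Perm.mul_apply, Equiv.Perm.mul_apply, alpha_pow, hβv, hβv]
    have : α z = (z.1 + 1, z.2) := rfl
    rw [this]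
    unfold betaFun
    dsimp only
    split_ifs with h
    · rw [mul_add, mul_one]
    · rw [mul_add, mul_one, add_right_comm]
  have h4 : ∀ (x : ZMod M) (k : ℕ) (hk : k < n), (β ^ k) (x, ⟨0, hn⟩) = (R ^ k * x, ⟨k, hk⟩) := by
    intro x k
    induction k with
    | zero => intro hk; simp
    | succ k ih =>
      intro hk
      rw [pow_succ', Equiv.Perm.mul_apply, ih (by omega), hβv]
      unfold betaFun
      dsimp only
      rw [dif_pos hk, pow_succ', mul_assoc]
  have h5 : ∀ x : ZMod M, (β ^ n) (x, ⟨0, hn⟩) = (x + T, ⟨0, hn⟩) := by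
    intro x
    obtain ⟨k, rfl⟩ : ∃ k, n = k + 1 := ⟨n - 1, by omega⟩
    rw [pow_succ', Equiv.Perm.mul_apply, h4 x k (by omega), hβv]
    unfold betaFun
    dsimp only
    rw [dif_neg (by omega), ← mul_assoc, ← pow_succ', hRn', one_mul]
  have h6 : Commute β (α ^ T) := by
    have : β * α ^ T * β⁻¹ = α ^ T := by
      rw [← conj_pow, h3, ← pow_mul]
      ext z : 1
      rw [alpha_pow, alpha_pow]
      push_cast
      rw [mul_comm, hT']
    rw [mul_inv_eq_iff_eq_mul] at this
    exact this
  have h2 : β ^ n = α ^ T := by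
    ext z : 1
    obtain ⟨x, j, hj⟩ := z
    -- every element is `β ^ j (y, 0)`
    obtain ⟨y, hy⟩ : ∃ y, (β ^ j) (y, ⟨0, hn⟩) = (x, ⟨j, hj⟩) := by
      obtain ⟨u, hu⟩ := hR.pow j
      refine ⟨(↑u⁻¹ : ZMod M) * x, ?_⟩
      rw [h4 _ j hj, ← hu, ← mul_assoc, Units.mul_inv, one_mul]
    rw [← hy, ← Equiv.Perm.mul_apply, ← Equiv.Perm.mul_apply, ← pow_add, add_comm, pow_add,
      Equiv.Perm.mul_apply, h5, ← (h6.pow_left j).eq, Equiv.Perm.mul_apply, alpha_pow]
  obtain ⟨f, hfa, -⟩ := exists_lift M n R T α β h1 h2 h3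
  apply Nat.dvd_antisymm
  · exact orderOf_dvd_of_pow_eq_one (ga_pow M n R T)
  · have h7 : orderOf α ∣ orderOf (ga M n R T) := by rw [← hfa]; exact orderOf_map_dvd f _
    refine Nat.dvd_trans ?_ h7
    have h8 := pow_orderOf_eq_one α
    have h9 : (α ^ orderOf α) (0, ⟨0, hn⟩) = (0, ⟨0, hn⟩) := by rw [h8]; rfl
    rw [alpha_pow] at h9
    have h10 := (Prod.mk.injEq _ _ _ _).mp h9
    have h11 : ((orderOf α : ℕ) : ZMod M) = 0 := by simpa using h10.1
    exact (ZMod.natCast_eq_zero_iff _ _).1 h11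

end model

end H69.MetacyclicPres
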