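import Mathlib
import Cfsg.Agent.Lib.H69.FrobCount
import Cfsg.Agent.Lib.H69.OrderCount

/-!
# Numbers of elements of given order
-/

set_option autoImplicit false

namespace H69.OrdCount

open Finset

universe u

/-- number of elements of order `m` -/
noncomputable def N (G : Type u) [Group G] (m : ℕ) : ℕ := Nat.card {g : G // orderOf g = m}

variable {G : Type u} [Group G] [Finite G]

theorem N_ne_zero_iff {m : ℕ} : N G m ≠ 0 ↔ ∃ g : G, orderOf g = m := by
  unfold N
  rw [Ne, Finite.card_eq_zero_iff, not_isEmpty_iff, nonempty_subtype]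

omit [Finite G] in
theorem N_one : N G 1 = 1 := by
  unfold N
  rw [Nat.card_eq_one_iff_unique]
  refine ⟨⟨fun a b => ?_⟩, ⟨⟨1, orderOf_one⟩⟩⟩
  have h1 := orderOf_eq_one_iff.1 a.2
  have h2 := orderOf_eq_one_iff.1 b.2
  exact Subtype.ext (h1.trans h2.symm)

theorem dvd_card {m : ℕ} (h : N G m ≠ 0) : m ∣ Nat.card G := by
  obtain ⟨g, hg⟩ := N_ne_zero_iff.1 h
  rw [← hg]; exact orderOf_dvd_natCard g

theorem prime_ne_zero {p : ℕ} (hp : p.Prime) (h : p ∣ Nat.card G) : N G p ≠ 0 := by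
  have := Fact.mk hp
  obtain ⟨g, hg⟩ := exists_prime_orderOf_dvd_card' p h
  exact N_ne_zero_iff.2 ⟨g, hg⟩

/-- divisors of element orders are element orders -/
theorem ne_zero_of_dvd {m d : ℕ} (h : N G m ≠ 0) (hd : d ∣ m) (hm : m ≠ 0) : N G d ≠ 0 := by
  obtain ⟨g, hg⟩ := N_ne_zero_iff.1 h
  obtain ⟨k, rfl⟩ := hd
  have hk : k ≠ 0 := by rintro rfl; simp at hm
  refine N_ne_zero_iff.2 ⟨g ^ k, ?_⟩
  rw [orderOf_pow_of_dvd hk ⟨d, by rw [hg, mul_comm]⟩, hg, Nat.mul_div_cancel _ (Nat.pos_of_ne_zero hk)]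

theorem totient_dvd (m : ℕ) : m.totient ∣ N G m := by
  unfold N
  rw [H69.OrderCount.card_orderOf_eq]
  exact Dvd.intro_left _ rfl

theorem even_of_three_le {m : ℕ} (hm : 3 ≤ m) : 2 ∣ N G m :=
  (even_iff_two_dvd.1 (Nat.totient_even hm)).trans (totient_dvd m)

/-- Frobenius' theorem -/
theorem dvd_sum {n : ℕ} (hn : n ∣ Nat.card G) : n ∣ ∑ d ∈ n.divisors, N G d := by
  classical
  have := Fintype.ofFinite G
  have h0 : n ≠ 0 := by
    rintro rfl
    exact Nat.card_pos.ne' (Nat.eq_zero_of_zero_dvd hn)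
  have h1 := H69.FrobCount.frobenius_dvd n hn
  have h2 : Nat.card {g : G // g ^ n = 1} = ∑ d ∈ n.divisors, N G d := by
    rw [Nat.card_eq_fintype_card, Fintype.card_subtype]
    rw [Finset.card_eq_sum_card_fiberwise (f := fun g : G => orderOf g) (t := n.divisors)]
    · refine Finset.sum_congr rfl fun d hd => ?_
      unfold N
      rw [Nat.card_eq_fintype_card, Fintype.card_subtype]
      congr 1
      ext g
      simp only [Finset.mem_filter, Finset.mem_univ, true_and]
      constructor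
      · rintro ⟨_, h⟩; exact h
      · intro h
        refine ⟨?_, h⟩
        rw [← orderOf_dvd_iff_pow_eq_one, h]
        exact Nat.dvd_of_mem_divisors hd
    · intro g hg
      have hg' : g ^ n = 1 := by simpa using hg
      simp only [Finset.mem_coe, Nat.mem_divisors]
      exact ⟨orderOf_dvd_of_pow_eq_one hg', h0⟩
  rwa [h2] at h1

omit [Finite G] in
/-- a prime dividing the order but not `N m` gives commuting elements -/
theorem exists_commute {p : ℕ} [hp : Fact p.Prime] {m : ℕ} (hN : ¬ p ∣ N G m) {x : G} {i : ℕ}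
    (hx : orderOf x = p ^ i) : ∃ y : G, orderOf y = m ∧ Commute x y := by
  obtain ⟨P, hP⟩ : ∃ P : Sylow p G, x ∈ P := by
    have h1 : IsPGroup p (Subgroup.zpowers x) :=
      IsPGroup.of_card (n := i) (by rw [Nat.card_zpowers, hx])
    obtain ⟨P, hP⟩ := h1.exists_le_sylow
    exact ⟨P, hP (Subgroup.mem_zpowers x)⟩
  let act : MulAction P {g : G // orderOf g = m} :=
    { smul := fun a y => ⟨(a : G) * y * (a : G)⁻¹, by
        have h := (MulAut.conj (a : G)).orderOf_eq (y : G)
        rw [MulAut.conj_apply] at h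
        rw [h, y.2]⟩
      one_smul := fun y => Subtype.ext (by change (1 : G) * y * (1 : G)⁻¹ = y; simp)
      mul_smul := fun a b y => Subtype.ext (by
        change ((a : G) * b) * y * ((a : G) * b)⁻¹ = a * (b * y * (b : G)⁻¹) * (a : G)⁻¹
        group) }
  obtain ⟨y, hy⟩ := P.isPGroup'.nonempty_fixed_point_of_prime_not_dvd_card
    {g : G // orderOf g = m} hN
  refine ⟨y, y.2, ?_⟩
  have h1 := congrArg Subtype.val (hy ⟨x, hP⟩)
  change x * y * x⁻¹ = y at h1
  exact mul_inv_eq_iff_eq_mul.1 h1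

/-- the multiplicative lower bound -/
theorem mul_le {p : ℕ} [hp : Fact p.Prime] {m : ℕ} (i : ℕ) (hm : ¬ p ∣ m)
    (hN : ¬ p ∣ N G m) : m.totient * N G (p ^ i) ≤ N G (p ^ i * m) := by
  classical
  have := Fintype.ofFinite G
  have hcop : (p ^ i).Coprime m := Nat.Coprime.pow_left i ((Nat.Prime.coprime_iff_not_dvd hp.out).2 hm)
  -- for each `x` the set of commuting `y`
  have hcard : ∀ x : {g : G // orderOf g = p ^ i},
      m.totient ≤ Nat.card {y : G // orderOf y = m ∧ Commute (x : G) y} := by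
    intro x
    obtain ⟨y, hy, hxy⟩ := exists_commute hN x.2
    rw [Nat.card_eq_fintype_card, Fintype.card_subtype]
    rw [Nat.totient_eq_card_coprime]
    apply Finset.card_le_card_of_injOn (fun k => y ^ k)
    · intro k hk
      have hk' : k < m ∧ m.Coprime k := by simpa using hk
      refine Finset.mem_coe.2 (Finset.mem_filter.2 ⟨Finset.mem_univ _, ?_, hxy.pow_right k⟩)
      rw [Nat.Coprime.orderOf_pow (by rw [hy]; exact hk'.2), hy]
    · intro k hk l hl hkl
      have hk' : k < m ∧ m.Coprime k := by simpa using hk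
      have hl' : l < m ∧ m.Coprime l := by simpa using hl
      exact pow_injOn_Iio_orderOf (by rw [hy]; exact hk'.1) (by rw [hy]; exact hl'.1) hkl
  have h1 : m.totient * N G (p ^ i) ≤
      Nat.card (Σ x : {g : G // orderOf g = p ^ i}, {y : G // orderOf y = m ∧ Commute (x : G) y}) := by
    rw [Nat.card_sigma]
    unfold N
    rw [Nat.card_eq_fintype_card, mul_comm, ← smul_eq_mul, ← Finset.card_univ, ← Finset.sum_const]
    exact Finset.sum_le_sum fun x _ => hcard x
  refine h1.trans ?_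
  unfold N
  apply Nat.card_le_card_of_injective
    (fun q : (Σ x : {g : G // orderOf g = p ^ i}, {y : G // orderOf y = m ∧ Commute (x : G) y}) =>
      (⟨(q.1 : G) * q.2, by
        rw [q.2.2.2.orderOf_mul_eq_mul_orderOf_of_coprime (by rw [q.1.2, q.2.2.1]; exact hcop),
          q.1.2, q.2.2.1]⟩ : {g : G // orderOf g = p ^ i * m}))
  rintro ⟨⟨x, hx⟩, ⟨y, hy, hxy⟩⟩ ⟨⟨x', hx'⟩, ⟨y', hy', hxy'⟩⟩ h
  have h2 : x * y = x' * y' := congrArg Subtype.val h
  simp only at hxy hxy'
  obtain ⟨k, hk1, hk2⟩ := Nat.chineseRemainder hcop 1 0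
  have h3 : ∀ x y : G, orderOf x = p ^ i → orderOf y = m → Commute x y → (x * y) ^ k = x := by
    intro x y hx hy hxy
    rw [hxy.mul_pow]
    have e1 : x ^ k = x := by
      have : x ^ k = x ^ 1 := by rw [pow_eq_pow_iff_modEq, hx]; exact hk1
      rw [this, pow_one]
    have e2 : y ^ k = 1 := by
      have : y ^ k = y ^ 0 := by rw [pow_eq_pow_iff_modEq, hy]; exact hk2
      rw [this, pow_zero]
    rw [e1, e2, mul_one]
  have h4 : x = x' := by
    rw [← h3 x y hx hy hxy, h2, h3 x' y' hx' hy' hxy']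
  subst h4
  have h5 : y = y' := mul_left_cancel h2
  subst h5
  rfl

omit [Finite G] in
/-- doubling, when there is a unique involution -/
theorem two_mul_eq (h2 : N G 2 = 1) {m : ℕ} (hm : ¬ 2 ∣ m) : N G (2 * m) = N G m := by
  classical
  unfold N at h2
  rw [Nat.card_eq_one_iff_unique] at h2
  obtain ⟨hsub, ⟨⟨z, hz⟩⟩⟩ := h2
  have huniq : ∀ w : G, orderOf w = 2 → w = z := fun w hw =>
    congrArg Subtype.val (hsub.allEq ⟨w, hw⟩ ⟨z, hz⟩)
  have hzz : z * z = 1 := by rw [← pow_two, ← hz, pow_orderOf_eq_one]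
  have hzc : ∀ g : G, Commute z g := by
    intro g
    have h := (MulAut.conj g).orderOf_eq z
    rw [MulAut.conj_apply, hz] at h
    have h1 := huniq _ h
    exact (mul_inv_eq_iff_eq_mul.1 h1).symm
  have hodd : ∀ g : G, ¬ 2 ∣ orderOf g → orderOf (z * g) = 2 * orderOf g := by
    intro g hg
    rw [(hzc g).orderOf_mul_eq_mul_orderOf_of_coprime
      (by rw [hz]; exact (Nat.Prime.coprime_iff_not_dvd Nat.prime_two).2 hg), hz]
  unfold N
  refine Nat.card_congr ⟨fun g => ⟨z * g, ?_⟩, fun g => ⟨z * g, ?_⟩, fun g => ?_, fun g => ?_⟩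
  · -- order 2m → order m
    have hg := g.2
    have hm0 : m ≠ 0 := by rintro rfl; simp at hm
    have h1 : (g : G) ^ m = z := by
      apply huniq
      rw [orderOf_pow_of_dvd hm0 ⟨2, by rw [hg, mul_comm]⟩, hg, Nat.mul_div_cancel _ (Nat.pos_of_ne_zero hm0)]
    have h2 : (z * (g : G)) ^ m = 1 := by
      rw [(hzc g).mul_pow, h1]
      obtain ⟨k, hk⟩ : ∃ k, m = 2 * k + 1 := Nat.odd_iff.2 (by omega)
      rw [hk, pow_succ, pow_mul, pow_two, hzz, one_pow, one_mul, hzz]
    have h3 : orderOf (z * (g : G)) ∣ m := orderOf_dvd_of_pow_eq_one h2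
    have h4 : ¬ 2 ∣ orderOf (z * (g : G)) := fun h => hm (h.trans h3)
    have h5 := hodd _ h4
    rw [← mul_assoc, hzz, one_mul, hg] at h5
    omega
  · rw [hodd _ (by rw [g.2]; exact hm), g.2]
  · apply Subtype.ext
    change z * (z * (g : G)) = g
    rw [← mul_assoc, hzz, one_mul]
  · apply Subtype.ext
    change z * (z * (g : G)) = g
    rw [← mul_assoc, hzz, one_mul]

/-- divisor sums over `p * n`, `p ∤ n` -/
theorem sum_divisors_prime_mul {p n : ℕ} (hp : p.Prime) (hpn : ¬ p ∣ n) (f : ℕ → ℕ) :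
    ∑ d ∈ (p * n).divisors, f d = ∑ d ∈ n.divisors, f d + ∑ d ∈ n.divisors, f (p * d) := by
  classical
  have hn0 : n ≠ 0 := by rintro rfl; exact hpn (dvd_zero _)
  have h1 : (p * n).divisors = n.divisors ∪ n.divisors.image (fun d => p * d) := by
    ext d
    simp only [Nat.mem_divisors, Finset.mem_union, Finset.mem_image]
    constructor
    · rintro ⟨hd, _⟩
      by_cases hpd : p ∣ d
      · obtain ⟨e, rfl⟩ := hpd
        exact Or.inr ⟨e, ⟨(Nat.mul_dvd_mul_iff_left hp.pos).1 hd, hn0⟩, rfl⟩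
      · exact Or.inl ⟨((Nat.Prime.coprime_iff_not_dvd hp).2 hpd).symm.dvd_of_dvd_mul_left hd, hn0⟩
    · rintro (⟨hd, _⟩ | ⟨e, ⟨he, _⟩, rfl⟩)
      · exact ⟨hd.trans (Dvd.intro_left _ rfl), mul_ne_zero hp.ne_zero hn0⟩
      · exact ⟨Nat.mul_dvd_mul_left p he, mul_ne_zero hp.ne_zero hn0⟩
  have h2 : Disjoint n.divisors (n.divisors.image (fun d => p * d)) := by
    rw [Finset.disjoint_left]
    intro d hd hd'
    obtain ⟨e, _, rfl⟩ := Finset.mem_image.1 hd'
    exact hpn ((Dvd.intro _ rfl).trans (Nat.dvd_of_mem_divisors hd))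
  rw [h1, Finset.sum_union h2, Finset.sum_image]
  intro a _ b _ hab
  exact Nat.eq_of_mul_eq_mul_left hp.pos hab

theorem sum_divisors_prime {p : ℕ} (hp : p.Prime) (f : ℕ → ℕ) :
    ∑ d ∈ p.divisors, f d = f 1 + f p := by
  rw [Nat.Prime.divisors hp, Finset.sum_pair hp.one_lt.ne]

theorem sum_divisors_mul {p q : ℕ} (hp : p.Prime) (hq : q.Prime) (hpq : p ≠ q) (f : ℕ → ℕ) :
    ∑ d ∈ (p * q).divisors, f d = f 1 + f q + f p + f (p * q) := by
  rw [sum_divisors_prime_mul hp (by rw [Nat.prime_dvd_prime_iff_eq hp hq]; exact hpq),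
    sum_divisors_prime hq, sum_divisors_prime hq, mul_one, add_assoc, add_assoc, add_assoc]

theorem sum_divisors_four (f : ℕ → ℕ) : ∑ d ∈ (4 : ℕ).divisors, f d = f 1 + f 2 + f 4 := by
  have : (4 : ℕ).divisors = {1, 2, 4} := by decide
  rw [this]
  simp [add_assoc]

/-- basic congruence -/
theorem prime_congr {p : ℕ} (hp : p.Prime) (h : p ∣ Nat.card G) : p ∣ 1 + N G p := by
  have := dvd_sum (G := G) h
  rwa [sum_divisors_prime hp, N_one] at this

theorem not_dvd_N {p : ℕ} (hp : p.Prime) (h : p ∣ Nat.card G) : ¬ p ∣ N G p := by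
  intro h1
  have h2 := prime_congr hp h
  have h3 : p ∣ 1 := (Nat.dvd_add_left h1).1 h2
  exact hp.one_lt.ne' (Nat.dvd_one.1 h3)

theorem mul_congr {p q : ℕ} (hp : p.Prime) (hq : q.Prime) (hpq : p ≠ q) (h : p ∣ Nat.card G)
    (h' : q ∣ Nat.card G) : p * q ∣ 1 + N G q + N G p + N G (p * q) := by
  have h1 : p * q ∣ Nat.card G := ((Nat.coprime_primes hp hq).2 hpq).mul_dvd_of_dvd_of_dvd h h'
  have := dvd_sum (G := G) h1
  rwa [sum_divisors_mul hp hq hpq, N_one] at this

/-- if there are no elements of order `p ^ 2`, the full `p`-part divides `1 + N p` -/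
theorem ordProj_dvd {p : ℕ} (hp : p.Prime) (h : p ∣ Nat.card G) (hsq : N G (p ^ 2) = 0) :
    p ^ (Nat.card G).factorization p ∣ 1 + N G p := by
  have h1 := dvd_sum (G := G) (Nat.ordProj_dvd (Nat.card G) p)
  have h2 : ∑ d ∈ (p ^ (Nat.card G).factorization p).divisors, N G d = 1 + N G p := by
    have hpos : 1 ≤ (Nat.card G).factorization p := hp.factorization_pos_of_dvd Nat.card_pos.ne' h
    have hsub : ({1, p} : Finset ℕ) ⊆ (p ^ (Nat.card G).factorization p).divisors := by
      intro d hd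
      rw [Nat.mem_divisors]
      refine ⟨?_, pow_ne_zero _ hp.ne_zero⟩
      rw [Finset.mem_insert, Finset.mem_singleton] at hd
      rcases hd with rfl | rfl
      · exact one_dvd _
      · exact dvd_pow_self _ (by omega)
    rw [← Finset.sum_subset hsub, Finset.sum_pair hp.one_lt.ne, N_one]
    intro d hd hd'
    obtain ⟨j, hj, rfl⟩ := (Nat.dvd_prime_pow hp).1 (Nat.dvd_of_mem_divisors hd)
    have hj2 : 2 ≤ j := by
      rcases j with _ | _ | j
      · simp at hd'
      · simp at hd'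
      · omega
    by_contra hne
    exact ne_zero_of_dvd hne (pow_dvd_pow p hj2) (pow_ne_zero _ hp.ne_zero) hsq
  rwa [h2] at h1

end H69.OrdCount
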