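import Mathlib
import Cfsg.Agent.Lib.H69.OrdCount

/-!
# Same-order classes: two values outside orders 1 and 2
-/

set_option autoImplicit false

namespace H69.OrdClass

open H69.OrdCount

universe u

variable {G : Type u} [Group G] [Finite G]

theorem mul_le_one {p : ℕ} (hp : p.Prime) {m : ℕ} (hm : ¬ p ∣ m) (hN : ¬ p ∣ N G m) :
    m.totient * N G p ≤ N G (p * m) := by
  have := Fact.mk hp
  have h := mul_le (G := G) 1 hm hN
  rwa [pow_one] at h

theorem cast_prime {p : ℕ} (hp : p.Prime) (h : p ∣ Nat.card G) : ((N G p : ℕ) : ZMod p) = -1 := by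
  have h1 := (ZMod.natCast_eq_zero_iff _ p).2 (prime_congr hp h)
  push_cast at h1
  linear_combination h1

theorem two_ne_zero {p : ℕ} (hp : p.Prime) (hp2 : p ≠ 2) : (2 : ZMod p) ≠ 0 := by
  intro h
  have h1 : ((2 : ℕ) : ZMod p) = 0 := by exact_mod_cast h
  rw [ZMod.natCast_eq_zero_iff, Nat.prime_dvd_prime_iff_eq hp Nat.prime_two] at h1
  exact hp2 h1

theorem neg_one_ne_zero {p : ℕ} (hp : p.Prime) : (-1 : ZMod p) ≠ 0 := by
  have := Fact.mk hp
  exact neg_ne_zero.2 one_ne_zero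

theorem not_dvd_iff {p n : ℕ} : ¬ p ∣ n ↔ ((n : ℕ) : ZMod p) ≠ 0 := by
  rw [Ne, ZMod.natCast_eq_zero_iff]

theorem three_le {p : ℕ} (hp : p.Prime) (hp2 : p ≠ 2) : 3 ≤ p := by
  have := hp.two_le; omega

theorem totient_three_le {p : ℕ} (hp : p.Prime) (hp2 : p ≠ 2) : 2 ≤ p.totient := by
  rw [Nat.totient_prime hp]
  have := three_le hp hp2; omega

variable {α β : ℕ} (hval : ∀ m, 3 ≤ m → N G m ≠ 0 → N G m = α ∨ N G m = β)

include hval in
/-- `O1` with `N p = α` -/
theorem no_square_aux {p q : ℕ} (hp : p.Prime) (hp2 : p ≠ 2) (hq : q.Prime) (hq2 : q ≠ 2)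
    (hpq : p ≠ q) (h1 : p ∣ Nat.card G) (h2 : q ∣ Nat.card G) (hNp : N G p = α)
    (hsq : N G (p ^ 2) ≠ 0) : False := by
  have := Fact.mk hp
  have := Fact.mk hq
  have hp3 := three_le hp hp2
  have hq3 := three_le hq hq2
  have hα : ((α : ℕ) : ZMod p) = -1 := by rw [← hNp]; exact cast_prime hp h1
  have hα0 : α ≠ 0 := by rw [← hNp]; exact prime_ne_zero hp h1
  have hdvd : p ∣ N G (p ^ 2) := by
    refine Dvd.dvd.trans ?_ (totient_dvd (G := G) (p ^ 2))
    rw [Nat.totient_prime_pow hp (by norm_num), show p ^ (2 - 1) = p by norm_num]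
    exact Dvd.intro _ rfl
  have hNsq : N G (p ^ 2) = β := by
    rcases hval (p ^ 2) (by nlinarith) hsq with h | h
    · exfalso
      rw [h] at hdvd
      rw [← ZMod.natCast_eq_zero_iff, hα] at hdvd
      exact neg_one_ne_zero hp hdvd
    · exact h
  have hβ0 : β ≠ 0 := by rw [← hNsq]; exact hsq
  have hβp : p ∣ β := by rw [← hNsq]; exact hdvd
  have hpq' : ¬ p ∣ q := by rw [Nat.prime_dvd_prime_iff_eq hp hq]; exact hpq
  have hqp' : ¬ q ∣ p := by rw [Nat.prime_dvd_prime_iff_eq hq hp]; exact hpq.symm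
  have htq := totient_three_le hq hq2
  rcases hval q hq3 (prime_ne_zero hq h2) with hNq | hNq
  · -- N q = α
    have hnd : ¬ p ∣ N G q := by
      rw [not_dvd_iff, hNq, hα]; exact neg_one_ne_zero hp
    have e1 := mul_le (G := G) 1 hpq' hnd
    have e2 := mul_le (G := G) 2 hpq' hnd
    rw [pow_one, hNp] at e1
    rw [hNsq] at e2
    have f1 : α < N G (p * q) := by
      have : 2 * α ≤ q.totient * α := Nat.mul_le_mul_right _ htq
      omega
    have f2 : β < N G (p ^ 2 * q) := by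
      have : 2 * β ≤ q.totient * β := Nat.mul_le_mul_right _ htq
      omega
    have g1 : N G (p * q) = β := by
      rcases hval (p * q) (by nlinarith) (by omega) with h | h
      · omega
      · exact h
    have g2 : N G (p ^ 2 * q) = α := by
      rcases hval (p ^ 2 * q) (by nlinarith [Nat.one_le_pow 2 p hp.pos]) (by omega) with h | h
      · exact h
      · omega
    omega
  · -- N q = β
    have hβq : ((β : ℕ) : ZMod q) = -1 := by rw [← hNq]; exact cast_prime hq h2
    have hnd : ¬ q ∣ N G (p ^ 2) := by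
      rw [not_dvd_iff, hNsq, hβq]; exact neg_one_ne_zero hq
    have e1 := mul_le (G := G) 1 (m := p ^ 2)
      (fun h => hqp' (hq.dvd_of_dvd_pow h)) hnd
    rw [pow_one, hNq] at e1
    have ht : 2 ≤ (p ^ 2).totient := by
      rw [Nat.totient_prime_pow hp (by norm_num)]
      have : 2 ≤ p - 1 := by omega
      have h3 : p ^ (2 - 1) = p := by norm_num
      rw [h3]
      nlinarith
    have f1 : β < N G (q * p ^ 2) := by
      have : 2 * β ≤ (p ^ 2).totient * β := Nat.mul_le_mul_right _ ht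
      omega
    have g1 : N G (q * p ^ 2) = α := by
      rcases hval (q * p ^ 2) (by nlinarith [Nat.one_le_pow 2 p hp.pos]) (by omega) with h | h
      · exact h
      · omega
    have h5 : p ∣ N G (q * p ^ 2) := by
      refine Dvd.dvd.trans ?_ (totient_dvd (G := G) (q * p ^ 2))
      rw [Nat.totient_mul (by
        exact Nat.Coprime.pow_right 2 ((Nat.coprime_primes hq hp).2 hpq.symm)),
        Nat.totient_prime_pow hp (by norm_num), show p ^ (2 - 1) = p by norm_num]
      exact Dvd.intro (q.totient * (p - 1)) (by ring)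
    rw [g1, ← ZMod.natCast_eq_zero_iff, hα] at h5
    exact neg_one_ne_zero hp h5

include hval in
/-- no elements of order `p ^ 2`, `p` odd, if there is a second odd prime -/
theorem no_square {p q : ℕ} (hp : p.Prime) (hp2 : p ≠ 2) (hq : q.Prime) (hq2 : q ≠ 2)
    (hpq : p ≠ q) (h1 : p ∣ Nat.card G) (h2 : q ∣ Nat.card G) : N G (p ^ 2) = 0 := by
  by_contra hsq
  rcases hval p (three_le hp hp2) (prime_ne_zero hp h1) with h | h
  · exact no_square_aux hval hp hp2 hq hq2 hpq h1 h2 h hsq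
  · exact no_square_aux (fun m hm h' => (hval m hm h').symm) hp hp2 hq hq2 hpq h1 h2 h hsq

include hval in
/-- `O2` -/
theorem same {p q : ℕ} (hp : p.Prime) (hp2 : p ≠ 2) (hq : q.Prime) (hq2 : q ≠ 2)
    (hpq : p ≠ q) (h1 : p ∣ Nat.card G) (h2 : q ∣ Nat.card G) (hNp : N G p = α) (hNq : N G q = α) :
    N G (p * q) = β ∧ ((β : ℕ) : ZMod p) = 1 := by
  have := Fact.mk hp
  have hp3 := three_le hp hp2
  have hq3 := three_le hq hq2
  have hα : ((α : ℕ) : ZMod p) = -1 := by rw [← hNp]; exact cast_prime hp h1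
  have hα0 : α ≠ 0 := by rw [← hNp]; exact prime_ne_zero hp h1
  have hpq' : ¬ p ∣ q := by rw [Nat.prime_dvd_prime_iff_eq hp hq]; exact hpq
  have hnd : ¬ p ∣ N G q := by
    rw [not_dvd_iff, hNq, hα]; exact neg_one_ne_zero hp
  have e1 := mul_le_one (G := G) hp hpq' hnd
  rw [hNp] at e1
  have f1 : α < N G (p * q) := by
    have : 2 * α ≤ q.totient * α := Nat.mul_le_mul_right _ (totient_three_le hq hq2)
    omega
  have g1 : N G (p * q) = β := by
    rcases hval (p * q) (by nlinarith) (by omega) with h | h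
    · omega
    · exact h
  refine ⟨g1, ?_⟩
  have h3 := (Dvd.intro _ rfl).trans (mul_congr (G := G) hp hq hpq h1 h2)
  have h4 := (ZMod.natCast_eq_zero_iff _ p).2 h3
  rw [g1, hNp, hNq] at h4
  push_cast at h4
  rw [hα] at h4
  linear_combination h4

include hval in
/-- `O3` -/
theorem not_same_diff {p q r : ℕ} (hp : p.Prime) (hp2 : p ≠ 2) (hq : q.Prime) (hq2 : q ≠ 2)
    (hr : r.Prime) (hr2 : r ≠ 2) (hpq : p ≠ q) (hpr : p ≠ r)
    (h1 : p ∣ Nat.card G) (h2 : q ∣ Nat.card G) (h3 : r ∣ Nat.card G)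
    (hNp : N G p = α) (hNq : N G q = α) (hNr : N G r = β) : False := by
  have := Fact.mk hp
  obtain ⟨-, hβ⟩ := same hval hp hp2 hq hq2 hpq h1 h2 hNp hNq
  have hα : ((α : ℕ) : ZMod p) = -1 := by rw [← hNp]; exact cast_prime hp h1
  have hα0 : α ≠ 0 := by rw [← hNp]; exact prime_ne_zero hp h1
  have hp3 := three_le hp hp2
  have hr3 := three_le hr hr2
  have hpr' : ¬ p ∣ r := by rw [Nat.prime_dvd_prime_iff_eq hp hr]; exact hpr
  have hnd : ¬ p ∣ N G r := by
    rw [not_dvd_iff, hNr, hβ]; exact one_ne_zero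
  have e1 := mul_le_one (G := G) hp hpr' hnd
  rw [hNp] at e1
  have f1 : α < N G (p * r) := by
    have : 2 * α ≤ r.totient * α := Nat.mul_le_mul_right _ (totient_three_le hr hr2)
    omega
  have g1 : N G (p * r) = β := by
    rcases hval (p * r) (by nlinarith) (by omega) with h | h
    · omega
    · exact h
  have h4 := (Dvd.intro _ rfl).trans (mul_congr (G := G) hp hr hpr h1 h3)
  have h5 := (ZMod.natCast_eq_zero_iff _ p).2 h4
  rw [g1, hNp, hNr] at h5
  push_cast at h5
  rw [hα, hβ] at h5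
  apply two_ne_zero hp hp2
  linear_combination h5

include hval in
/-- `O4` -/
theorem not_three_same {p q r : ℕ} (hp : p.Prime) (hp2 : p ≠ 2) (hq : q.Prime) (hq2 : q ≠ 2)
    (hr : r.Prime) (hr2 : r ≠ 2) (hpq : p ≠ q) (hpr : p ≠ r) (hqr : q ≠ r)
    (h1 : p ∣ Nat.card G) (h2 : q ∣ Nat.card G) (h3 : r ∣ Nat.card G)
    (hNp : N G p = α) (hNq : N G q = α) (hNr : N G r = α) : False := by
  have := Fact.mk hp
  obtain ⟨e1, hβ⟩ := same hval hp hp2 hq hq2 hpq h1 h2 hNp hNq
  obtain ⟨e2, -⟩ := same hval hp hp2 hr hr2 hpr h1 h3 hNp hNr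
  obtain ⟨e3, -⟩ := same hval hq hq2 hr hr2 hqr h2 h3 hNq hNr
  have hα : ((α : ℕ) : ZMod p) = -1 := by rw [← hNp]; exact cast_prime hp h1
  have hα0 : α ≠ 0 := by rw [← hNp]; exact prime_ne_zero hp h1
  have hp3 := three_le hp hp2
  have hq3 := three_le hq hq2
  have hr3 := three_le hr hr2
  have hpq' : ¬ p ∣ q := by rw [Nat.prime_dvd_prime_iff_eq hp hq]; exact hpq
  have hpr' : ¬ p ∣ r := by rw [Nat.prime_dvd_prime_iff_eq hp hr]; exact hpr
  have hqr' : ¬ q ∣ r := by rw [Nat.prime_dvd_prime_iff_eq hq hr]; exact hqr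
  have hpqr : ¬ p ∣ q * r := by rw [hp.dvd_mul]; push Not; exact ⟨hpq', hpr'⟩
  have hnd : ¬ p ∣ N G (q * r) := by
    rw [not_dvd_iff, e3, hβ]; exact one_ne_zero
  have e4 := mul_le_one (G := G) hp hpqr hnd
  rw [hNp] at e4
  have ht : 2 ≤ (q * r).totient := by
    rw [Nat.totient_mul ((Nat.coprime_primes hq hr).2 hqr)]
    have := totient_three_le hq hq2
    have := totient_three_le hr hr2
    nlinarith
  have f1 : α < N G (p * (q * r)) := by
    have : 2 * α ≤ (q * r).totient * α := Nat.mul_le_mul_right _ ht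
    omega
  have g1 : N G (p * (q * r)) = β := by
    rcases hval (p * (q * r)) (by nlinarith [Nat.mul_le_mul hq3 hr3]) (by omega) with h | h
    · omega
    · exact h
  have hdvd : p * (q * r) ∣ Nat.card G := by
    apply Nat.Coprime.mul_dvd_of_dvd_of_dvd _ h1
    · exact ((Nat.coprime_primes hq hr).2 hqr).mul_dvd_of_dvd_of_dvd h2 h3
    · exact (Nat.Prime.coprime_iff_not_dvd hp).2 hpqr
  have h4 := (Dvd.intro _ rfl).trans (dvd_sum (G := G) hdvd)
  have h5 := (ZMod.natCast_eq_zero_iff _ p).2 h4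
  rw [sum_divisors_prime_mul hp hpqr, sum_divisors_mul hq hr hqr, sum_divisors_mul hq hr hqr,
    mul_one, N_one, g1, e1, e2, e3, hNp, hNq, hNr] at h5
  push_cast at h5
  rw [hα, hβ] at h5
  apply two_ne_zero hp hp2
  linear_combination h5

include hval in
/-- `O5` -/
theorem diff {p q : ℕ} (hp : p.Prime) (hp2 : p ≠ 2) (hq : q.Prime) (hq2 : q ≠ 2)
    (hpq : p ≠ q) (h1 : p ∣ Nat.card G) (h2 : q ∣ Nat.card G) (hNp : N G p = α) (hNq : N G q = β) :
    N G (p * q) = 0 := by
  have := Fact.mk hp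
  have := Fact.mk hq
  have hp3 := three_le hp hp2
  have hq3 := three_le hq hq2
  have hα : ((α : ℕ) : ZMod p) = -1 := by rw [← hNp]; exact cast_prime hp h1
  have hα0 : α ≠ 0 := by rw [← hNp]; exact prime_ne_zero hp h1
  have hβ : ((β : ℕ) : ZMod q) = -1 := by rw [← hNq]; exact cast_prime hq h2
  have hβ0 : β ≠ 0 := by rw [← hNq]; exact prime_ne_zero hq h2
  have hpq' : ¬ p ∣ q := by rw [Nat.prime_dvd_prime_iff_eq hp hq]; exact hpq
  have hqp' : ¬ q ∣ p := by rw [Nat.prime_dvd_prime_iff_eq hq hp]; exact hpq.symm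
  have hc := mul_congr (G := G) hp hq hpq h1 h2
  by_contra hne
  rcases hval (p * q) (by nlinarith) hne with h | h
  · have h4 := (ZMod.natCast_eq_zero_iff _ p).2 ((Dvd.intro _ rfl).trans hc)
    rw [h, hNp, hNq] at h4
    push_cast at h4
    rw [hα] at h4
    have hβ1 : ((β : ℕ) : ZMod p) = 1 := by linear_combination h4
    have hnd : ¬ p ∣ N G q := by rw [not_dvd_iff, hNq, hβ1]; exact one_ne_zero
    have e1 := mul_le_one (G := G) hp hpq' hnd
    rw [hNp, h] at e1
    have : 2 * α ≤ q.totient * α := Nat.mul_le_mul_right _ (totient_three_le hq hq2)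
    omega
  · have h4 := (ZMod.natCast_eq_zero_iff _ q).2 ((Dvd.intro_left _ rfl).trans hc)
    rw [h, hNp, hNq] at h4
    push_cast at h4
    rw [hβ] at h4
    have hα1 : ((α : ℕ) : ZMod q) = 1 := by linear_combination h4
    have hnd : ¬ q ∣ N G p := by rw [not_dvd_iff, hNp, hα1]; exact one_ne_zero
    have e1 := mul_le_one (G := G) hq hqp' hnd
    rw [hNq, mul_comm q p, h] at e1
    have : 2 * β ≤ p.totient * β := Nat.mul_le_mul_right _ (totient_three_le hp hp2)
    omega

include hval in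
/-- at most two odd primes -/
theorem not_three {p q r : ℕ} (hp : p.Prime) (hp2 : p ≠ 2) (hq : q.Prime) (hq2 : q ≠ 2)
    (hr : r.Prime) (hr2 : r ≠ 2) (hpq : p ≠ q) (hpr : p ≠ r) (hqr : q ≠ r)
    (h1 : p ∣ Nat.card G) (h2 : q ∣ Nat.card G) (h3 : r ∣ Nat.card G) : False := by
  have hval' := fun m hm h' => (hval m hm h').symm
  rcases hval p (three_le hp hp2) (prime_ne_zero hp h1) with a | a <;>
  rcases hval q (three_le hq hq2) (prime_ne_zero hq h2) with b | b <;>
  rcases hval r (three_le hr hr2) (prime_ne_zero hr h3) with c | c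
  · exact not_three_same hval hp hp2 hq hq2 hr hr2 hpq hpr hqr h1 h2 h3 a b c
  · exact not_same_diff hval hp hp2 hq hq2 hr hr2 hpq hpr h1 h2 h3 a b c
  · exact not_same_diff hval hp hp2 hr hr2 hq hq2 hpr hpq h1 h3 h2 a c b
  · exact not_same_diff hval' hq hq2 hr hr2 hp hp2 hqr hpq.symm h2 h3 h1 b c a
  · exact not_same_diff hval hq hq2 hr hr2 hp hp2 hqr hpq.symm h2 h3 h1 b c a
  · exact not_same_diff hval' hp hp2 hr hr2 hq hq2 hpr hpq h1 h3 h2 a c b
  · exact not_same_diff hval' hp hp2 hq hq2 hr hr2 hpq hpr h1 h2 h3 a b c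
  · exact not_three_same hval' hp hp2 hq hq2 hr hr2 hpq hpr hqr h1 h2 h3 a b c

end H69.OrdClass
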