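import Mathlib
import Cfsg.Agent.Lib.H69.OrdCount
import Cfsg.Agent.Lib.H69.OrdClass

/-!
# Same-order classes in groups of even order with a unique involution
-/

set_option autoImplicit false

namespace H69.OrdEven

open H69.OrdCount H69.OrdClass

universe u

variable {G : Type u} [Group G] [Finite G]

/-- a unique involution and no elements of order 4: direct factor of order 2 -/
theorem exists_normal_odd (h2 : N G 2 = 1) (h4 : N G 4 = 0) :
    ∃ (M : Subgroup G) (z : G), M.Normal ∧ M.index = 2 ∧ ¬ 2 ∣ Nat.card M ∧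
      z ∈ Subgroup.center G ∧ orderOf z = 2 ∧ z ∉ M := by
  have hF : Fact (Nat.Prime 2) := ⟨Nat.prime_two⟩
  have h2' := h2
  unfold N at h2'
  rw [Nat.card_eq_one_iff_unique] at h2'
  obtain ⟨hsub, ⟨⟨z, hz⟩⟩⟩ := h2'
  have huniq : ∀ w : G, orderOf w = 2 → w = z := fun w hw =>
    congrArg Subtype.val (hsub.allEq ⟨w, hw⟩ ⟨z, hz⟩)
  have hzc : z ∈ Subgroup.center G := by
    rw [Subgroup.mem_center_iff]
    intro g
    have h := (MulAut.conj g).orderOf_eq z
    rw [MulAut.conj_apply, hz] at h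
    exact mul_inv_eq_iff_eq_mul.1 (huniq _ h)
  obtain ⟨P⟩ : Nonempty (Sylow 2 G) := inferInstance
  -- P has exponent 2
  have hP : ∀ x ∈ (P : Subgroup G), x = 1 ∨ x = z := by
    intro x hx
    obtain ⟨j, hj⟩ := (IsPGroup.iff_orderOf.1 P.isPGroup') ⟨x, hx⟩
    rw [Subgroup.orderOf_mk] at hj
    rcases j with _ | _ | j
    · left; rw [pow_zero, orderOf_eq_one_iff] at hj; exact hj
    · right; apply huniq; rw [hj]; norm_num
    · exfalso
      have h1 : N G (2 ^ (j + 1 + 1)) ≠ 0 := N_ne_zero_iff.2 ⟨x, hj⟩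
      exact ne_zero_of_dvd h1 (d := 4) (by rw [pow_succ, pow_succ, mul_assoc]; exact Dvd.intro_left _ rfl)
        (by positivity) h4
  have hPc : Subgroup.normalizer ((P : Subgroup G) : Set G) ≤ Subgroup.centralizer (P : Set G) := by
    intro g _
    rw [Subgroup.mem_centralizer_iff]
    intro x hx
    rcases hP x hx with rfl | rfl
    · simp
    · exact ((Subgroup.mem_center_iff.1 hzc) g).symm
  have hcompl := MonoidHom.ker_transferSylow_isComplement' P hPc
  have hcardP : Nat.card (P : Subgroup G) = 2 := by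
    have hle : Nat.card (P : Subgroup G) ≤ 2 := by
      have hsub : ((P : Subgroup G) : Set G) ⊆ {1, z} := by
        intro x hx
        rcases hP x hx with rfl | rfl
        · simp
        · simp
      have := Set.ncard_le_ncard hsub (Set.toFinite _)
      refine this.trans ?_
      exact (Set.ncard_insert_le _ _).trans (by rw [Set.ncard_singleton])
    have hdvd : 2 ∣ Nat.card (P : Subgroup G) := by
      have h1 : 2 ^ 1 ∣ Nat.card G := by
        rw [pow_one, ← hz]; exact orderOf_dvd_natCard z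
      have := P.pow_dvd_card_of_pow_dvd_card h1
      rwa [pow_one] at this
    have hpos : 0 < Nat.card (P : Subgroup G) := Nat.card_pos
    omega
  have hidx : (MonoidHom.transferSylow P hPc).ker.index = 2 := by
    rw [hcompl.symm.index_eq_card, hcardP]
  have hnd : ¬ 2 ∣ Nat.card (MonoidHom.transferSylow P hPc).ker :=
    MonoidHom.not_dvd_card_ker_transferSylow P hPc
  refine ⟨(MonoidHom.transferSylow P hPc).ker, z, inferInstance, hidx, hnd, hzc, hz, ?_⟩
  intro hmem
  apply hnd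
  have h3 := orderOf_dvd_natCard (⟨z, hmem⟩ : ↥(MonoidHom.transferSylow P hPc).ker)
  rwa [Subgroup.orderOf_mk, hz] at h3

variable {α β : ℕ} (hval : ∀ m, 3 ≤ m → N G m ≠ 0 → N G m = α ∨ N G m = β)

include hval in
/-- two odd primes with the same value and elements of order 4: impossible -/
theorem no_four_same (hN2 : N G 2 = 1) (hN4 : N G 4 ≠ 0) {p q : ℕ} (hp : p.Prime) (hp2 : p ≠ 2)
    (hq : q.Prime) (hq2 : q ≠ 2) (hpq : p ≠ q) (h1 : p ∣ Nat.card G) (h2 : q ∣ Nat.card G)
    (hNp : N G p = α) (hNq : N G q = α) : False := by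
  have := Fact.mk hp
  have := Fact.mk hq
  have hp3 := three_le hp hp2
  have hq3 := three_le hq hq2
  obtain ⟨e1, hβ⟩ := same hval hp hp2 hq hq2 hpq h1 h2 hNp hNq
  obtain ⟨e1', hβq⟩ := same hval hq hq2 hp hp2 hpq.symm h2 h1 hNq hNp
  have hα : ((α : ℕ) : ZMod p) = -1 := by rw [← hNp]; exact cast_prime hp h1
  have hα0 : α ≠ 0 := by rw [← hNp]; exact prime_ne_zero hp h1
  have h4G : 4 ∣ Nat.card G := dvd_card hN4
  have hpodd : ¬ 2 ∣ p := by rw [Nat.prime_dvd_prime_iff_eq Nat.prime_two hp]; exact hp2.symm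
  have hqodd : ¬ 2 ∣ q := by rw [Nat.prime_dvd_prime_iff_eq Nat.prime_two hq]; exact hq2.symm
  have hp4 : ¬ p ∣ 4 := by
    intro h
    have : p ∣ 2 ^ 2 := h
    have h3 := hp.dvd_of_dvd_pow this
    rw [Nat.prime_dvd_prime_iff_eq hp Nat.prime_two] at h3
    exact hp2 h3
  have hq4 : ¬ q ∣ 4 := by
    intro h
    have : q ∣ 2 ^ 2 := h
    have h3 := hq.dvd_of_dvd_pow this
    rw [Nat.prime_dvd_prime_iff_eq hq Nat.prime_two] at h3
    exact hq2 h3
  have ht4 : (4 : ℕ).totient = 2 := by decide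
  -- general step: `N (4 s) = β` for `s = p, q`
  have hstep : ∀ s : ℕ, s.Prime → s ≠ 2 → s ∣ Nat.card G → N G s = α → ((β : ℕ) : ZMod s) = 1 →
      ¬ s ∣ 4 → N G (s * 4) = β := by
    intro s hs hs2 hsG hNs hβs hs4
    have := Fact.mk hs
    have hαs : ((α : ℕ) : ZMod s) = -1 := by rw [← hNs]; exact cast_prime hs hsG
    have hnd : ¬ s ∣ N G 4 := by
      rw [not_dvd_iff]
      rcases hval 4 (by norm_num) hN4 with h | h
      · rw [h, hαs]; exact neg_one_ne_zero hs
      · rw [h, hβs]; exact one_ne_zero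
    have f := mul_le_one (G := G) hs hs4 hnd
    rw [ht4, hNs] at f
    rcases hval (s * 4) (by have := hs.two_le; omega) (by omega) with h | h
    · omega
    · exact h
  have e4p := hstep p hp hp2 h1 hNp hβ hp4
  have e4q := hstep q hq hq2 h2 hNq hβq hq4
  -- N 4 = α
  have hN2p : ∀ m, ¬ 2 ∣ m → N G (2 * m) = N G m := fun m hm => two_mul_eq hN2 hm
  have hdvd4p : p * 4 ∣ Nat.card G :=
    ((Nat.Prime.coprime_iff_not_dvd hp).2 hp4).mul_dvd_of_dvd_of_dvd h1 h4G
  have c1 := (ZMod.natCast_eq_zero_iff _ p).2 ((Dvd.intro _ rfl).trans (dvd_sum (G := G) hdvd4p))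
  rw [sum_divisors_prime_mul hp hp4, sum_divisors_four, sum_divisors_four, mul_one, mul_comm p 2,
    hN2p p hpodd, N_one, hN2, e4p, hNp] at c1
  push_cast at c1
  rw [hα, hβ] at c1
  have hN4α : N G 4 = α := by
    rcases hval 4 (by norm_num) hN4 with h | h
    · exact h
    · exfalso
      rw [h, hβ] at c1
      apply two_ne_zero hp hp2
      linear_combination c1
  -- now `4pq`
  have hpq4 : ¬ p ∣ q * 4 := by
    rw [hp.dvd_mul]; push Not
    exact ⟨by rw [Nat.prime_dvd_prime_iff_eq hp hq]; exact hpq, hp4⟩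
  have hnd : ¬ p ∣ N G (q * 4) := by rw [not_dvd_iff, e4q, hβ]; exact one_ne_zero
  have f := mul_le_one (G := G) hp hpq4 hnd
  have ht : 2 ≤ (q * 4).totient := by
    rw [Nat.totient_mul ((Nat.Prime.coprime_iff_not_dvd hq).2 hq4), ht4]
    have := totient_three_le hq hq2
    omega
  rw [hNp] at f
  have f2 : 2 * α ≤ (q * 4).totient * α := Nat.mul_le_mul_right _ ht
  have e4pq : N G (p * (q * 4)) = β := by
    rcases hval (p * (q * 4)) (by nlinarith) (by omega) with h | h
    · omega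
    · exact h
  have hdvd4pq : p * (q * 4) ∣ Nat.card G := by
    apply ((Nat.Prime.coprime_iff_not_dvd hp).2 hpq4).mul_dvd_of_dvd_of_dvd h1
    exact ((Nat.Prime.coprime_iff_not_dvd hq).2 hq4).mul_dvd_of_dvd_of_dvd h2 h4G
  have c2 := (ZMod.natCast_eq_zero_iff _ p).2 ((Dvd.intro _ rfl).trans (dvd_sum (G := G) hdvd4pq))
  have hpqodd : ¬ 2 ∣ p * q := by
    rw [Nat.prime_two.dvd_mul]; push Not; exact ⟨hpodd, hqodd⟩
  rw [sum_divisors_prime_mul hp hpq4, sum_divisors_prime_mul hq hq4, sum_divisors_prime_mul hq hq4,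
    sum_divisors_four, sum_divisors_four, sum_divisors_four, sum_divisors_four, mul_one, mul_one,
    mul_comm q 2, mul_comm p 2, show p * (2 * q) = 2 * (p * q) by ring, hN2p p hpodd, hN2p q hqodd,
    hN2p (p * q) hpqodd, e4pq, e1, e4p, e4q, hNp, hNq, N_one, hN2, hN4α] at c2
  push_cast at c2
  rw [hα, hβ] at c2
  apply two_ne_zero hp hp2
  linear_combination c2

include hval in
theorem no_four_diff_aux (hN2 : N G 2 = 1) (hN4 : N G 4 = α) {p q : ℕ} (hp : p.Prime) (hp2 : p ≠ 2)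
    (hq : q.Prime) (hq2 : q ≠ 2) (hpq : p ≠ q) (h1 : p ∣ Nat.card G) (h2 : q ∣ Nat.card G)
    (hNp : N G p = α) (hNq : N G q = β) : False := by
  have := Fact.mk hp
  have hp3 := three_le hp hp2
  have e1 := diff hval hp hp2 hq hq2 hpq h1 h2 hNp hNq
  have hα : ((α : ℕ) : ZMod p) = -1 := by rw [← hNp]; exact cast_prime hp h1
  have hα0 : α ≠ 0 := by rw [← hNp]; exact prime_ne_zero hp h1
  have c0 := (ZMod.natCast_eq_zero_iff _ p).2 ((Dvd.intro _ rfl).trans (mul_congr (G := G) hp hq hpq h1 h2))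
  rw [e1, hNp, hNq] at c0
  push_cast at c0
  rw [hα] at c0
  have hβ : ((β : ℕ) : ZMod p) = 0 := by linear_combination c0
  have h4G : 4 ∣ Nat.card G := dvd_card (by rw [hN4]; exact hα0)
  have hpodd : ¬ 2 ∣ p := by rw [Nat.prime_dvd_prime_iff_eq Nat.prime_two hp]; exact hp2.symm
  have hp4 : ¬ p ∣ 4 := by
    intro h
    have : p ∣ 2 ^ 2 := h
    have h3 := hp.dvd_of_dvd_pow this
    rw [Nat.prime_dvd_prime_iff_eq hp Nat.prime_two] at h3
    exact hp2 h3
  have ht4 : (4 : ℕ).totient = 2 := by decide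
  have hnd : ¬ p ∣ N G 4 := by rw [not_dvd_iff, hN4, hα]; exact neg_one_ne_zero hp
  have f := mul_le_one (G := G) hp hp4 hnd
  rw [ht4, hNp] at f
  have e4p : N G (p * 4) = β := by
    rcases hval (p * 4) (by omega) (by omega) with h | h
    · omega
    · exact h
  have hdvd4p : p * 4 ∣ Nat.card G :=
    ((Nat.Prime.coprime_iff_not_dvd hp).2 hp4).mul_dvd_of_dvd_of_dvd h1 h4G
  have c1 := (ZMod.natCast_eq_zero_iff _ p).2 ((Dvd.intro _ rfl).trans (dvd_sum (G := G) hdvd4p))
  rw [sum_divisors_prime_mul hp hp4, sum_divisors_four, sum_divisors_four, mul_one, mul_comm p 2,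
    two_mul_eq hN2 hpodd, N_one, hN2, e4p, hNp, hN4] at c1
  push_cast at c1
  rw [hα, hβ] at c1
  apply neg_one_ne_zero hp
  linear_combination c1

include hval in
theorem no_four_diff (hN2 : N G 2 = 1) (hN4 : N G 4 ≠ 0) {p q : ℕ} (hp : p.Prime) (hp2 : p ≠ 2)
    (hq : q.Prime) (hq2 : q ≠ 2) (hpq : p ≠ q) (h1 : p ∣ Nat.card G) (h2 : q ∣ Nat.card G)
    (hNp : N G p = α) (hNq : N G q = β) : False := by
  rcases hval 4 (by norm_num) hN4 with h | h
  · exact no_four_diff_aux hval hN2 h hp hp2 hq hq2 hpq h1 h2 hNp hNq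
  · exact no_four_diff_aux (fun m hm h' => (hval m hm h').symm) hN2 h hq hq2 hp hp2 hpq.symm h2 h1
      hNq hNp

include hval in
/-- two odd primes and a unique involution: no elements of order 4 -/
theorem four_eq_zero (hN2 : N G 2 = 1) {p q : ℕ} (hp : p.Prime) (hp2 : p ≠ 2)
    (hq : q.Prime) (hq2 : q ≠ 2) (hpq : p ≠ q) (h1 : p ∣ Nat.card G) (h2 : q ∣ Nat.card G) :
    N G 4 = 0 := by
  by_contra hN4
  have hval' := fun m hm h' => (hval m hm h').symm
  rcases hval p (three_le hp hp2) (prime_ne_zero hp h1) with a | a <;>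
  rcases hval q (three_le hq hq2) (prime_ne_zero hq h2) with b | b
  · exact no_four_same hval hN2 hN4 hp hp2 hq hq2 hpq h1 h2 a b
  · exact no_four_diff hval hN2 hN4 hp hp2 hq hq2 hpq h1 h2 a b
  · exact no_four_diff hval' hN2 hN4 hp hp2 hq hq2 hpq h1 h2 a b
  · exact no_four_same hval' hN2 hN4 hp hp2 hq hq2 hpq h1 h2 a b

end H69.OrdEven
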