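import Mathlib
import Cfsg.Agent.Lib.H69.OrdEven
import Cfsg.Agent.Lib.H71.FourOrbits

/-!
# Three same-order class sizes: solvability
-/

set_option autoImplicit false

namespace H69.OrdSolv

open H69.OrdCount H69.OrdClass H69.OrdEven

universe u

variable {G : Type u} [Group G] [Finite G]

theorem isSolvable_of_normal (M : Subgroup G) [M.Normal] (h1 : Group.IsSolvable ↥M)
    (h2 : Group.IsSolvable (G ⧸ M)) : Group.IsSolvable G := by
  apply Group.isSolvable_of_ker_le_range M.subtype (QuotientGroup.mk' M)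
  rw [QuotientGroup.ker_mk', Subgroup.range_subtype]

/-- solvable when there are at most two odd primes and, in case of two, a unique involution or odd
order -/
theorem solvable_of_two {p q : ℕ} (hp : p.Prime) (hq : q.Prime)
    (h : ∀ s : ℕ, s.Prime → s ∣ Nat.card G → s = 2 ∨ s = p ∨ s = q)
    (h2 : ¬ 2 ∣ Nat.card G ∨ (N G 2 = 1 ∧ N G 4 = 0)) : Group.IsSolvable G := by
  rcases h2 with h2 | ⟨h2, h4⟩
  · apply H71.FourOrbits.isSolvable_of_two hp hq
    intro s hs hsG
    rcases h s hs hsG with rfl | h' | h'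
    · exact absurd hsG h2
    · exact Or.inl h'
    · exact Or.inr h'
  · obtain ⟨M, z, hM, hidx, hnd, -, -, -⟩ := exists_normal_odd h2 h4
    apply isSolvable_of_normal M
    · apply H71.FourOrbits.isSolvable_of_two hp hq
      intro s hs hsM
      rcases h s hs (hsM.trans (Subgroup.card_subgroup_dvd_card M)) with rfl | h' | h'
      · exact absurd hsM hnd
      · exact Or.inl h'
      · exact Or.inr h'
    · apply H71.FourOrbits.isSolvable_of_two Nat.prime_two Nat.prime_two
      intro s hs hsM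
      rw [← Subgroup.index_eq_card, hidx, Nat.prime_dvd_prime_iff_eq hs Nat.prime_two] at hsM
      exact Or.inl hsM

/-- two values for orders at least 3, at most one involution -/
theorem solvable_of_val {α β : ℕ} (hval : ∀ m, 3 ≤ m → N G m ≠ 0 → N G m = α ∨ N G m = β)
    (h2 : ¬ 2 ∣ Nat.card G ∨ N G 2 = 1) : Group.IsSolvable G := by
  by_cases hex : ∃ p q : ℕ, p.Prime ∧ p ≠ 2 ∧ q.Prime ∧ q ≠ 2 ∧ p ≠ q ∧ p ∣ Nat.card G ∧ q ∣ Nat.card G
  · obtain ⟨p, q, hp, hp2, hq, hq2, hpq, h1, h3⟩ := hex
    apply solvable_of_two hp hq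
    · intro s hs hsG
      by_contra hcon
      push Not at hcon
      exact not_three hval hp hp2 hq hq2 hs hcon.1 hpq (Ne.symm hcon.2.1) (Ne.symm hcon.2.2) h1 h3 hsG
    · rcases h2 with h2 | h2
      · exact Or.inl h2
      · exact Or.inr ⟨h2, four_eq_zero hval h2 hp hp2 hq hq2 hpq h1 h3⟩
  · push Not at hex
    by_cases hex2 : ∃ p : ℕ, p.Prime ∧ p ≠ 2 ∧ p ∣ Nat.card G
    · obtain ⟨p, hp, hp2, hpG⟩ := hex2
      apply H71.FourOrbits.isSolvable_of_two Nat.prime_two hp
      intro s hs hsG
      by_cases hs2 : s = 2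
      · exact Or.inl hs2
      · right
        by_contra hsp
        exact hex p s hp hp2 hs hs2 (Ne.symm hsp) hpG hsG
    · push Not at hex2
      apply H71.FourOrbits.isSolvable_of_two Nat.prime_two Nat.prime_two
      intro s hs hsG
      by_contra hcon
      push Not at hcon
      exact hex2 s hs hcon.1 hsG

/-- a single value for orders at least 3 -/
theorem solvable_of_one {α : ℕ} (hval : ∀ m, 3 ≤ m → N G m ≠ 0 → N G m = α) :
    Group.IsSolvable G := by
  have hval' : ∀ m, 3 ≤ m → N G m ≠ 0 → N G m = α ∨ N G m = α := fun m h h' => Or.inl (hval m h h')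
  have hone : ∀ p q : ℕ, p.Prime → p ≠ 2 → q.Prime → q ≠ 2 → p ≠ q → p ∣ Nat.card G →
      q ∣ Nat.card G → False := by
    intro p q hp hp2 hq hq2 hpq h1 h3
    have := Fact.mk hp
    have hNp := hval p (three_le hp hp2) (prime_ne_zero hp h1)
    have hNq := hval q (three_le hq hq2) (prime_ne_zero hq h3)
    obtain ⟨-, hβ⟩ := same hval' hp hp2 hq hq2 hpq h1 h3 hNp hNq
    have hα : ((α : ℕ) : ZMod p) = -1 := by rw [← hNp]; exact cast_prime hp h1
    apply two_ne_zero hp hp2
    rw [hα] at hβ
    linear_combination -hβ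
  by_cases hex2 : ∃ p : ℕ, p.Prime ∧ p ≠ 2 ∧ p ∣ Nat.card G
  · obtain ⟨p, hp, hp2, hpG⟩ := hex2
    apply H71.FourOrbits.isSolvable_of_two Nat.prime_two hp
    intro s hs hsG
    by_cases hs2 : s = 2
    · exact Or.inl hs2
    · right
      by_contra hsp
      exact hone p s hp hp2 hs hs2 (Ne.symm hsp) hpG hsG
  · push Not at hex2
    apply H71.FourOrbits.isSolvable_of_two Nat.prime_two Nat.prime_two
    intro s hs hsG
    by_contra hcon
    push Not at hcon
    exact hex2 s hs hcon.1 hsG

/-- the parity of the number of involutions -/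
theorem odd_two (h : 2 ∣ Nat.card G) : ¬ 2 ∣ N G 2 := not_dvd_N Nat.prime_two h

/-- membership in the set of values -/
theorem mem_values {m : ℕ} : (∃ x, x ∈ Set.range (orderOf : G → ℕ) ∧ N G x = m) ↔
    ∃ x, N G x ≠ 0 ∧ N G x = m := by
  constructor
  · rintro ⟨x, ⟨g, hg⟩, hx⟩
    exact ⟨x, N_ne_zero_iff.2 ⟨g, hg⟩, hx⟩
  · rintro ⟨x, h, hx⟩
    obtain ⟨g, hg⟩ := N_ne_zero_iff.1 h
    exact ⟨x, ⟨g, hg⟩, hx⟩

theorem ncard_three {s : Set ℕ} (h : s.ncard = 3) {a : ℕ} (ha : a ∈ s) :
    ∃ x y, x ≠ y ∧ x ≠ a ∧ y ≠ a ∧ s = {a, x, y} := by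
  obtain ⟨x, y, z, hxy, hxz, hyz, rfl⟩ := Set.ncard_eq_three.1 h
  rcases ha with rfl | rfl | rfl
  · exact ⟨y, z, hyz, hxy.symm, hxz.symm, rfl⟩
  · exact ⟨x, z, hxz, hxy, hyz.symm, by ext w; simp; tauto⟩
  · exact ⟨x, y, hxy, hxz, hyz, by ext w; simp; tauto⟩

/-- main theorem -/
theorem solvable_three
    (h : (((fun m : ℕ => Nat.card {g : G // orderOf g = m}) '' Set.range (orderOf : G → ℕ))).ncard = 3) :
    Group.IsSolvable G := by
  set s := ((fun m : ℕ => Nat.card {g : G // orderOf g = m}) '' Set.range (orderOf : G → ℕ)) with hs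
  have hmem : ∀ m, N G m ≠ 0 → N G m ∈ s := by
    intro m hm
    obtain ⟨g, hg⟩ := N_ne_zero_iff.1 hm
    exact ⟨m, ⟨g, hg⟩, rfl⟩
  have h1 : (1 : ℕ) ∈ s := by
    have := hmem 1 (by rw [N_one]; exact one_ne_zero)
    rwa [N_one] at this
  obtain ⟨α, β, hαβ, hα1, hβ1, hs'⟩ := ncard_three h h1
  have hval0 : ∀ m, N G m ≠ 0 → N G m = 1 ∨ N G m = α ∨ N G m = β := by
    intro m hm
    have := hmem m hm
    rw [hs'] at this
    simpa using this
  have hval : ∀ m, 3 ≤ m → N G m ≠ 0 → N G m = α ∨ N G m = β := by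
    intro m hm hm0
    rcases hval0 m hm0 with h | h
    · exfalso
      have := even_of_three_le (G := G) hm
      rw [h] at this
      omega
    · exact h
  by_cases h2 : 2 ∣ Nat.card G
  · by_cases hN2 : N G 2 = 1
    · exact solvable_of_val hval (Or.inr hN2)
    · have hodd := odd_two h2
      have h3 := hval0 2 (prime_ne_zero Nat.prime_two h2)
      rcases h3 with h3 | h3 | h3
      · exact absurd h3 hN2
      · apply solvable_of_one (α := β)
        intro m hm hm0
        rcases hval m hm hm0 with h | h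
        · exfalso
          have := even_of_three_le (G := G) hm
          rw [h, ← h3] at this
          exact hodd this
        · exact h
      · apply solvable_of_one (α := α)
        intro m hm hm0
        rcases hval m hm hm0 with h | h
        · exact h
        · exfalso
          have := even_of_three_le (G := G) hm
          rw [h, ← h3] at this
          exact hodd this
  · exact solvable_of_val hval (Or.inl h2)

end H69.OrdSolv
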