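import Mathlib
import Cfsg.Agent.Lib.H69.OrdEven
import Cfsg.Agent.Lib.H69.OrdSolv
import Cfsg.Agent.Lib.H1.UniqueSub

/-!
# Two same-order class sizes
-/

set_option autoImplicit false

namespace H69.OrdTwo

open H69.OrdCount H69.OrdClass H69.OrdEven

universe u

variable {G : Type u} [Group G] [Finite G]

/-- a single value for orders at least 3: one odd prime -/
theorem unique_odd {α : ℕ} (hval : ∀ m, 3 ≤ m → N G m ≠ 0 → N G m = α) {p q : ℕ} (hp : p.Prime)
    (hp2 : p ≠ 2) (hq : q.Prime) (hq2 : q ≠ 2) (h1 : p ∣ Nat.card G) (h3 : q ∣ Nat.card G) :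
    p = q := by
  by_contra hpq
  have hval' : ∀ m, 3 ≤ m → N G m ≠ 0 → N G m = α ∨ N G m = α := fun m h h' => Or.inl (hval m h h')
  have := Fact.mk hp
  have hNp := hval p (three_le hp hp2) (prime_ne_zero hp h1)
  have hNq := hval q (three_le hq hq2) (prime_ne_zero hq h3)
  obtain ⟨-, hβ⟩ := same hval' hp hp2 hq hq2 hpq h1 h3 hNp hNq
  have hα : ((α : ℕ) : ZMod p) = -1 := by rw [← hNp]; exact cast_prime hp h1
  apply two_ne_zero hp hp2
  rw [hα] at hβ
  linear_combination -hβ

/-- a single value for orders at least 3: no squares of odd primes -/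
theorem square_eq_zero {α : ℕ} (hval : ∀ m, 3 ≤ m → N G m ≠ 0 → N G m = α) {p : ℕ} (hp : p.Prime)
    (hp2 : p ≠ 2) (h1 : p ∣ Nat.card G) : N G (p ^ 2) = 0 := by
  by_contra hne
  have := Fact.mk hp
  have hp3 := three_le hp hp2
  have hNp := hval p hp3 (prime_ne_zero hp h1)
  have hα : ((α : ℕ) : ZMod p) = -1 := by rw [← hNp]; exact cast_prime hp h1
  have hsq := hval (p ^ 2) (by nlinarith) hne
  have hdvd : p ∣ N G (p ^ 2) := by
    refine Dvd.dvd.trans ?_ (totient_dvd (G := G) (p ^ 2))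
    rw [Nat.totient_prime_pow hp (by norm_num), show p ^ (2 - 1) = p by norm_num]
    exact Dvd.intro _ rfl
  rw [hsq, ← ZMod.natCast_eq_zero_iff, hα] at hdvd
  exact neg_one_ne_zero hp hdvd

/-- a group all of whose prime divisors are `p`, without elements of order `p ^ 2` -/
theorem exponent_eq {p : ℕ} (hp : p.Prime) (hne : p ∣ Nat.card G)
    (hall : ∀ q : ℕ, q.Prime → q ∣ Nat.card G → q = p) (hsq : N G (p ^ 2) = 0) :
    IsPGroup p G ∧ Monoid.exponent G = p := by
  have := Fact.mk hp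
  have hpg : IsPGroup p G := by
    have h := Nat.eq_prime_pow_of_unique_prime_dvd Nat.card_pos.ne' (fun {q} hq hqG => hall q hq hqG)
    exact IsPGroup.of_card h
  refine ⟨hpg, ?_⟩
  have hord : ∀ g : G, g ^ p = 1 := by
    intro g
    obtain ⟨j, hj⟩ := (IsPGroup.iff_orderOf.1 hpg) g
    have hj1 : j ≤ 1 := by
      by_contra hcon
      have h1 : N G (p ^ j) ≠ 0 := N_ne_zero_iff.2 ⟨g, hj⟩
      exact ne_zero_of_dvd h1 (pow_dvd_pow p (by omega : 2 ≤ j)) (pow_ne_zero _ hp.ne_zero) hsq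
    rw [← orderOf_dvd_iff_pow_eq_one, hj]
    exact (pow_dvd_pow p hj1).trans (by rw [pow_one])
  have hdvd : Monoid.exponent G ∣ p := Monoid.exponent_dvd_of_forall_pow_eq_one hord
  rcases (Nat.dvd_prime hp).1 hdvd with h | h
  · exfalso
    obtain ⟨g, hg⟩ := exists_prime_orderOf_dvd_card' p hne
    have := Monoid.order_dvd_exponent g
    rw [h, hg] at this
    exact hp.one_lt.ne' (Nat.dvd_one.1 this)
  · exact h

/-- orders in a subgroup -/
theorem N_subgroup (M : Subgroup G) {m : ℕ} (h : N ↥M m ≠ 0) : N G m ≠ 0 := by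
  obtain ⟨g, hg⟩ := N_ne_zero_iff.1 h
  exact N_ne_zero_iff.2 ⟨g, by rw [Subgroup.orderOf_coe, hg]⟩

/-- the case of a single involution and elements of order 4 -/
theorem two_group {α : ℕ} (hval : ∀ m, 3 ≤ m → N G m ≠ 0 → N G m = α) (hN2 : N G 2 = 1)
    (hN4 : N G 4 ≠ 0) : Nonempty (G ≃* QuaternionGroup 2) ∨ (IsCyclic G ∧ Nat.card G = 4) := by
  have h4G : 4 ∣ Nat.card G := dvd_card hN4
  have hα4 : N G 4 = α := hval 4 (by norm_num) hN4
  have hmod : 4 ∣ 1 + 1 + α := by
    have := dvd_sum (G := G) h4G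
    rwa [sum_divisors_four, N_one, hN2, hα4] at this
  have h8 : N G 8 = 0 := by
    by_contra hne
    have h := hval 8 (by norm_num) hne
    have h2 := totient_dvd (G := G) 8
    rw [h, show (8 : ℕ).totient = 4 by decide] at h2
    omega
  -- no odd primes
  have hnoodd : ∀ p : ℕ, p.Prime → p ∣ Nat.card G → p = 2 := by
    intro p hp hpG
    by_contra hp2
    have := Fact.mk hp
    have hpodd : ¬ 2 ∣ p := by rw [Nat.prime_dvd_prime_iff_eq Nat.prime_two hp]; exact Ne.symm hp2
    have hp4 : ¬ p ∣ 4 := by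
      intro h
      have : p ∣ 2 ^ 2 := h
      have h3 := hp.dvd_of_dvd_pow this
      rw [Nat.prime_dvd_prime_iff_eq hp Nat.prime_two] at h3
      exact hp2 h3
    have hNp := hval p (three_le hp hp2) (prime_ne_zero hp hpG)
    have hα : ((α : ℕ) : ZMod p) = -1 := by rw [← hNp]; exact cast_prime hp hpG
    have hdvd4p : p * 4 ∣ Nat.card G :=
      ((Nat.Prime.coprime_iff_not_dvd hp).2 hp4).mul_dvd_of_dvd_of_dvd hpG h4G
    have c1 := (ZMod.natCast_eq_zero_iff _ p).2 ((Dvd.intro _ rfl).trans (dvd_sum (G := G) hdvd4p))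
    rw [sum_divisors_prime_mul hp hp4, sum_divisors_four, sum_divisors_four, mul_one, mul_comm p 2,
      two_mul_eq hN2 hpodd, N_one, hN2, hNp, hα4] at c1
    push_cast at c1
    rw [hα] at c1
    by_cases h : N G (p * 4) = 0
    · rw [h] at c1
      apply neg_one_ne_zero hp
      push_cast at c1
      linear_combination c1
    · have h5 := hval (p * 4) (by omega) h
      rw [h5, hα] at c1
      apply two_ne_zero hp hp2
      linear_combination -c1
  have hF : Fact (Nat.Prime 2) := ⟨Nat.prime_two⟩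
  have hpg : IsPGroup 2 G :=
    IsPGroup.of_card (Nat.eq_prime_pow_of_unique_prime_dvd Nat.card_pos.ne'
      (fun {q} hq hqG => hnoodd q hq hqG))
  have huniq : ∀ H K : Subgroup G, Nat.card H = 2 → Nat.card K = 2 → H = K := by
    have h2' := hN2
    unfold N at h2'
    rw [Nat.card_eq_one_iff_unique] at h2'
    obtain ⟨hsub, -⟩ := h2'
    have key : ∀ H : Subgroup G, Nat.card H = 2 → ∃ x : G, orderOf x = 2 ∧ H = Subgroup.zpowers x := by
      intro H hH
      obtain ⟨x, hx⟩ := exists_prime_orderOf_dvd_card' (G := ↥H) 2 (by rw [hH])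
      refine ⟨x, by rw [Subgroup.orderOf_coe, hx], ?_⟩
      symm
      apply Subgroup.eq_of_le_of_card_ge
      · rw [Subgroup.zpowers_le]; exact x.2
      · rw [Nat.card_zpowers, Subgroup.orderOf_coe, hx, hH]
    intro H K hH hK
    obtain ⟨x, hx, rfl⟩ := key H hH
    obtain ⟨y, hy, rfl⟩ := key K hK
    have := congrArg Subtype.val (hsub.allEq ⟨x, hx⟩ ⟨y, hy⟩)
    rw [show x = y from this]
  have hno8 : ∀ (g : G) (j : ℕ), orderOf g = 2 ^ j → j ≤ 2 := by
    intro g j hj
    by_contra hcon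
    have h1 : N G (2 ^ j) ≠ 0 := N_ne_zero_iff.2 ⟨g, hj⟩
    exact ne_zero_of_dvd h1 (d := 8) (pow_dvd_pow 2 (by omega : 3 ≤ j)) (pow_ne_zero _ (by norm_num)) h8
  obtain ⟨a, ha⟩ := hpg.exists_card_eq
  have hcyc4 : IsCyclic G → Nat.card G = 4 := by
    intro hc
    obtain ⟨g, hg⟩ := hc.exists_ofOrder_eq_natCard
    rw [ha] at hg
    have := hno8 g a hg
    rw [ha]
    interval_cases a
    · rw [ha] at h4G; norm_num at h4G
    · rw [ha] at h4G; norm_num at h4G
    · norm_num
  rcases H1.UniqueSub.cyclic_or_quaternion 2 hpg huniq with hc | ⟨-, n', ⟨e⟩⟩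
  · exact Or.inr ⟨hc, hcyc4 hc⟩
  · have h1 : orderOf (e.symm (QuaternionGroup.a 1)) = 2 ^ (n' + 1) := by
      rw [MulEquiv.orderOf_eq, QuaternionGroup.orderOf_a_one, pow_succ, mul_comm]
    have h2 := hno8 _ _ h1
    have hn' : n' = 0 ∨ n' = 1 := by omega
    rcases hn' with rfl | rfl
    · right
      have hcard : Nat.card G = 4 := by
        rw [Nat.card_congr e.toEquiv, Nat.card_eq_fintype_card, QuaternionGroup.card]; norm_num
      refine ⟨?_, hcard⟩
      obtain ⟨g, hg⟩ := N_ne_zero_iff.1 hN4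
      exact isCyclic_of_orderOf_eq_card g (by rw [hg, hcard])
    · left
      exact ⟨e.trans (by exact MulEquiv.refl _)⟩

end H69.OrdTwo
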