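import Cfsg.Agent.Lib.H3.QuadGen
import Cfsg.Agent.Lib.H51.SylowAmb

/-!
Two quadratic elements `a`, `b` (odd characteristic) not generating a `p`-group: a `p`-subgroup containing `a` with a
normalizer of even order.
-/

set_option autoImplicit false

namespace H69.QuadEven

open Subgroup Cfsg Polynomial
open scoped TensorProduct

/-- representation form, the homomorphism to `SL₂(K)` -/
theorem rep_hom {p : ℕ} [Fact p.Prime] {X : Type*} [Group X] [Finite X] {a b : X}
    (hgen : closure {a, b} = ⊤) {V : Type*} [AddCommGroup V] [Module (ZMod p) V] [Finite V]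
    (ρ : X →* Module.End (ZMod p) V) (ha : (ρ a - 1) * (ρ a - 1) = 0) (hb : (ρ b - 1) * (ρ b - 1) = 0) :
    (∀ x : X, ∃ m, (ρ x) ^ (p ^ m) = 1) ∨ ∃ (n : ℕ) (lam : GaloisField p n)
      (φ : X →* Matrix.SpecialLinearGroup (Fin 2) (GaloisField p n)),
      lam ≠ 0 ∧ φ a = H3.QuadLin.up lam ∧ φ b = H3.QuadLin.lo 1 := by
  classical
  have hp' : p.Prime := Fact.out
  obtain ⟨e, k, hk, hord⟩ := Nat.exists_eq_pow_mul_and_not_dvd (orderOf_pos (a * b)).ne' p hp'.ne_one
  have hcop : Nat.Coprime p k := (Nat.Prime.coprime_iff_not_dvd hp').mpr hk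
  have hk0 : k ≠ 0 := by
    rintro rfl
    exact hk (dvd_zero p)
  set n := k.totient with hn
  have hn0 : n ≠ 0 := (Nat.totient_pos.mpr (Nat.pos_of_ne_zero hk0)).ne'
  let K := GaloisField p n
  have : Fintype K := Fintype.ofFinite K
  have hcard : Fintype.card K = p ^ n := by
    rw [← Nat.card_eq_fintype_card]; exact GaloisField.card p n hn0
  have hkd : k ∣ Fintype.card K - 1 := by
    rw [hcard]
    have h1 := Nat.ModEq.pow_totient hcop
    exact (Nat.modEq_iff_dvd' (Nat.one_le_pow _ _ hp'.pos)).mp h1.symm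
  have : FiniteDimensional (ZMod p) V := Module.Finite.of_finite
  let W := K ⊗[ZMod p] V
  let ρK : X →* Module.End K W :=
    { toFun := fun x => (ρ x).baseChange K
      map_one' := by rw [map_one]; exact LinearMap.baseChange_one _ _
      map_mul' := fun x y => by rw [map_mul]; exact LinearMap.baseChange_mul _ _ }
  have hquad : ∀ x : X, (ρ x - 1) * (ρ x - 1) = 0 → (ρK x - 1) * (ρK x - 1) = 0 := by
    intro x hx
    have h1 : ρK x - 1 = (ρ x - 1).baseChange K := by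
      rw [LinearMap.baseChange_sub]
      congr 1
      exact (LinearMap.baseChange_one _ _).symm
    rw [h1, ← LinearMap.baseChange_mul, hx, LinearMap.baseChange_zero]
  have hn0' : p ^ e * k ≠ 0 := mul_ne_zero (pow_ne_zero _ hp'.ne_zero) hk0
  have hf0 : ((Polynomial.X : K[X]) ^ (p ^ e * k) - 1) ≠ 0 := by
    have := Polynomial.X_pow_sub_C_ne_zero (Nat.pos_of_ne_zero hn0') (1 : K)
    rwa [map_one] at this
  have hab : aeval (ρK (a * b)) ((Polynomial.X : K[X]) ^ (p ^ e * k) - 1) = 0 := by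
    rw [map_sub, map_pow, aeval_X, map_one, ← map_pow, ← hord, pow_orderOf_eq_one, map_one, sub_self]
  rcases H3.QuadLin.main (p := p) hgen _ hf0 (H3.QuadLin.splits_X_pow_sub_one (p := p) (e := e) hkd) W ρK
    (hquad a ha) (hquad b hb) hab with h | h
  · left
    intro x
    obtain ⟨m, hm⟩ := h x
    refine ⟨m, ?_⟩
    rw [← map_pow] at hm ⊢
    apply LinearMap.ext
    intro v
    have h1 : (1 : K) ⊗ₜ[ZMod p] (ρ (x ^ p ^ m) v) = (1 : K) ⊗ₜ[ZMod p] v := by
      have h2 := LinearMap.congr_fun hm ((1 : K) ⊗ₜ[ZMod p] v)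
      exact h2
    exact Module.FaithfullyFlat.tensorProduct_mk_injective (A := ZMod p) (B := K) V h1
  · obtain ⟨lam, φ, hlam, h1, h2⟩ := h
    exact Or.inr ⟨n, lam, φ, hlam, h1, h2⟩

/-- the central involution of `SL₂` lies in the image -/
theorem exists_neg {K : Type*} [Field K] [Finite K] {p : ℕ} [Fact p.Prime] [CharP K p] (hp : p ≠ 2)
    {X : Type*} [Group X] {a b : X} {lam : K} (hlam : lam ≠ 0)
    (φ : X →* Matrix.SpecialLinearGroup (Fin 2) K) (ha : φ a = H3.QuadLin.up lam) (hb : φ b = H3.QuadLin.lo 1) :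
    (φ a) ^ p = 1 ∧ ∃ z : X, φ z * φ z = 1 ∧ φ z ≠ 1 ∧ ∀ s, φ z * s = s * φ z := by
  have hup : (H3.QuadLin.up lam : Matrix.SpecialLinearGroup (Fin 2) K) ^ p = 1 := by
    rw [H3.QuadGen.up_eq, H85.SL2.up_pow, CharP.cast_eq_zero, zero_mul, H85.SL2.up_zero]
  have hlo : (H3.QuadLin.lo (1 : K) : Matrix.SpecialLinearGroup (Fin 2) K) ^ p = 1 := by
    rw [H3.QuadGen.lo_eq, H85.SL2.lo_pow, CharP.cast_eq_zero, zero_mul, H85.SL2.lo_zero]
  have hne : H3.QuadLin.up lam * H3.QuadLin.lo 1 ≠ H3.QuadLin.lo 1 * H3.QuadLin.up lam := by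
    intro h
    have h1 := congrArg (fun M : Matrix.SpecialLinearGroup (Fin 2) K => (M : Matrix (Fin 2) (Fin 2) K) 0 0) h
    simp only [Matrix.SpecialLinearGroup.coe_mul] at h1
    change (!![1, lam; 0, 1] * !![1, 0; 1, 1] : Matrix (Fin 2) (Fin 2) K) 0 0 =
      (!![1, 0; 1, 1] * !![1, lam; 0, 1] : Matrix (Fin 2) (Fin 2) K) 0 0 at h1
    rw [Matrix.mul_fin_two, Matrix.mul_fin_two] at h1
    simp at h1
    exact hlam h1
  have hgood := H51.SL2Pair.dickson (p := p) hp (H := φ.range) (x := H3.QuadLin.up lam) (y := H3.QuadLin.lo 1)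
    ⟨a, ha⟩ ⟨b, hb⟩ hup hlo hne
  obtain ⟨ψ, hψ, hr, g, hg⟩ := H51.SL2Pair2.exists_hom hgood
  obtain ⟨z, hz⟩ := hr ⟨-1, rfl⟩
  have hval : ((ψ (-1) : Matrix.SpecialLinearGroup (Fin 2) K) : Matrix (Fin 2) (Fin 2) K) = -1 := by
    rw [hg]
    show (g⁻¹ : GL (Fin 2) K).1 * (Matrix.SpecialLinearGroup.map (ZMod.castHom (dvd_refl p) K) (-1)).1 * g.1 = -1
    have h1 : (Matrix.SpecialLinearGroup.map (ZMod.castHom (dvd_refl p) K) (-1 : Matrix.SpecialLinearGroup (Fin 2) (ZMod p))).1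
        = (-1 : Matrix (Fin 2) (Fin 2) K) := by
      ext i j
      fin_cases i <;> fin_cases j <;> simp
    rw [h1]
    have : (g⁻¹ : GL (Fin 2) K).1 * g.1 = 1 := by rw [← Units.val_mul, inv_mul_cancel, Units.val_one]
    rw [Matrix.mul_neg, Matrix.mul_one, Matrix.neg_mul, this]
  refine ⟨by rw [ha]; exact hup, z, ?_, ?_, ?_⟩
  · rw [hz, ← map_mul]; simp
  · rw [hz]
    intro h
    have h2 : (-1 : Matrix.SpecialLinearGroup (Fin 2) (ZMod p)) = 1 := hψ (by rw [h, map_one])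
    have h3 := congrArg (fun M : Matrix.SpecialLinearGroup (Fin 2) (ZMod p) => (M : Matrix (Fin 2) (Fin 2) (ZMod p)) 0 0) h2
    simp at h3
    have hp2 : 2 < p := lt_of_le_of_ne (Fact.out : p.Prime).two_le (Ne.symm hp)
    have : Fact (2 < p) := ⟨hp2⟩
    exact (ZMod.neg_one_ne_one (n := p)) h3
  · intro s
    rw [hz]
    apply Subtype.ext
    show (ψ (-1)).1 * s.1 = s.1 * (ψ (-1)).1
    rw [hval]
    simp

theorem mem_normalizer_of_finite {G : Type*} [Group G] [Finite G] {B : Subgroup G} {z : G}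
    (h : ∀ b ∈ B, z * b * z⁻¹ ∈ B) : z ∈ normalizer (B : Set G) := by
  have h1 : B.map (MulAut.conj z).toMonoidHom = B := by
    apply Subgroup.eq_of_le_of_card_ge
    · rintro _ ⟨b, hb, rfl⟩
      exact h b hb
    · rw [Subgroup.card_map_of_injective (MulAut.conj z).injective]
  rw [mem_normalizer_iff]
  intro b
  constructor
  · exact h b
  · intro hb
    have hb' : z * b * z⁻¹ ∈ B.map (MulAut.conj z).toMonoidHom := by rw [h1]; exact hb
    obtain ⟨c, hc, hcb⟩ := hb'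
    have : z * c * z⁻¹ = z * b * z⁻¹ := hcb
    have h2 : c = b := mul_left_cancel (mul_right_cancel this)
    rwa [← h2]

/-- a `p`-subgroup through `a` whose normalizer has even order -/
theorem even_of_neg {X S : Type*} [Group X] [Finite X] [Group S] {p : ℕ} [hp : Fact p.Prime] (hp2 : p ≠ 2)
    (φ : X →* S) {a z : X} (haP : IsPGroup p (zpowers a)) (ha : φ a ^ p = 1) (hz : φ z * φ z = 1) (hz1 : φ z ≠ 1)
    (hc : ∀ s, φ z * s = s * φ z) :
    ∃ A : Subgroup X, IsPGroup p A ∧ a ∈ A ∧ 2 ∣ Nat.card (normalizer (A : Set X)) := by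
  set Y : Subgroup X := (zpowers (φ a)).comap φ with hY
  have haY : a ∈ Y := mem_zpowers (φ a)
  have hzY : z ∈ normalizer (Y : Set X) := by
    apply mem_normalizer_of_finite
    intro b hb
    show φ (z * b * z⁻¹) ∈ zpowers (φ a)
    rw [map_mul, map_mul, map_inv, hc, mul_inv_cancel_right]
    exact hb
  obtain ⟨A, haA, hAY, hA, hAi⟩ := H51.SylowAmb.exists_sylow_ge (p := p) (K := Y) (Q := zpowers a)
    (by rwa [zpowers_le]) haP
  obtain ⟨y, hy, hn⟩ := H51.SylowAmb.frattini hAY hA hAi hzY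
  refine ⟨A, hA, haA (mem_zpowers a), ?_⟩
  obtain ⟨k, hk⟩ : ∃ k : ℤ, φ a ^ k = φ y := mem_zpowers_iff.mp hy
  have hyp : φ y ^ p = 1 := by
    rw [← hk, ← zpow_natCast, ← zpow_mul, mul_comm, zpow_mul, zpow_natCast, ha, one_zpow]
  have hodd : Odd p := (Fact.out : p.Prime).odd_of_ne_two hp2
  have h1 : φ ((y * z) ^ p) = φ z := by
    rw [map_pow, map_mul, (show Commute (φ y) (φ z) from (hc _).symm).mul_pow, hyp, one_mul]
    obtain ⟨m, hm⟩ := hodd
    rw [hm, pow_add, pow_mul, pow_two, hz, one_pow, one_mul, pow_one]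
  have h2 : orderOf (φ z) = 2 := orderOf_eq_prime (by rw [pow_two]; exact hz) hz1
  have h3 : 2 ∣ orderOf (y * z) := by
    have h4 : orderOf (φ ((y * z) ^ p)) ∣ orderOf ((y * z) ^ p) := orderOf_map_dvd φ _
    rw [h1, h2] at h4
    exact h4.trans (orderOf_pow_dvd p)
  have h5 : orderOf (⟨y * z, hn⟩ : normalizer (A : Set X)) = orderOf (y * z) :=
    (orderOf_injective (normalizer (A : Set X)).subtype Subtype.val_injective ⟨y * z, hn⟩).symm
  rw [← h5] at h3
  exact h3.trans (orderOf_dvd_natCard _)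

end H69.QuadEven
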