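import Cfsg.Agent.Lib.H69.QuadEven1
import Cfsg.Agent.Lib.H14.ZJ

/-!
If a quadratic element lies outside of `O_p(H)` (`p` odd, faithful action on an elementary abelian `p`-group) then the
subgroup generated by the quadratic elements of a Sylow `p`-subgroup has a normalizer of even order.
-/

set_option autoImplicit false

namespace H69.QuadEven

open Subgroup Cfsg

section climb

variable {G : Type*} [Group G] [Finite G] {p : ℕ} [hp : Fact p.Prime]

theorem card_eq_of_relIndex {K S : Subgroup G} (hSK : S ≤ K) (hS : IsPGroup p S) (hi : ¬ p ∣ S.relIndex K) :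
    Nat.card S = p ^ (Nat.card K).factorization p := by
  have h1 := (S.subgroupOf K).card_mul_index
  have h2 : Nat.card (S.subgroupOf K) = Nat.card S := Nat.card_congr (subgroupOfEquivOfLe hSK).toEquiv
  obtain ⟨k, hk⟩ := IsPGroup.iff_card.mp hS
  have h3 : (S.subgroupOf K).index = S.relIndex K := rfl
  rw [h2, h3, hk] at h1
  have h4 : S.relIndex K ≠ 0 := by
    intro h; rw [h] at hi; exact hi (dvd_zero p)
  rw [hk, ← h1, Nat.factorization_mul (pow_ne_zero _ hp.out.ne_zero) h4, Finsupp.add_apply,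
    Nat.factorization_eq_zero_of_not_dvd hi, hp.out.factorization_pow, Finsupp.single_eq_same, add_zero]

theorem card_le_of_isPGroup {K R : Subgroup G} (hRK : R ≤ K) (hR : IsPGroup p R) :
    Nat.card R ≤ p ^ (Nat.card K).factorization p := by
  obtain ⟨k, hk⟩ := IsPGroup.iff_card.mp hR
  rw [hk]
  apply Nat.pow_le_pow_right hp.out.pos
  rw [← hp.out.pow_dvd_iff_le_factorization (Nat.card_pos).ne', ← hk]
  exact card_dvd_of_le hRK

/-- climbing through normalizers -/
theorem climb (F : Subgroup G → Subgroup G)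
    (hF : ∀ S : Subgroup G, IsPGroup p S → normalizer (S : Set G) ≤ normalizer (F S : Set G))
    (Good : Subgroup G → Prop) (hex : ∃ R, Good R)
    (hstep : ∀ R, Good R → normalizer (R : Set G) ≠ ⊤ → ∀ S : Subgroup G, S ≤ normalizer (R : Set G) → IsPGroup p S →
      ¬ p ∣ S.relIndex (normalizer (R : Set G)) → Good (F S)) :
    (∃ R, Good R ∧ normalizer (R : Set G) = ⊤) ∨ ∃ S : Sylow p G, Good (F S) := by
  obtain ⟨R, hR, hmax⟩ := Set.exists_max_image {R | Good R}
    (fun R : Subgroup G => (Nat.card (normalizer (R : Set G))).factorization p) (Set.toFinite _) hex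
  by_cases htop : normalizer (R : Set G) = ⊤
  · exact Or.inl ⟨R, hR, htop⟩
  right
  obtain ⟨S, hSN, hS, hSi⟩ := H51.SylowAmb.exists_sylow (p := p) (normalizer (R : Set G))
  have hFS := hstep R hR htop S hSN hS hSi
  have h1 := hmax _ hFS
  have h2 : ¬ p ∣ S.relIndex ⊤ := by
    apply H51.SylowAmb.not_dvd_of_forall le_top hS
    intro S' hS' hSS' _ hn
    apply (Subgroup.eq_of_le_of_card_ge hSS' _).symm
    calc Nat.card S' ≤ p ^ (Nat.card (normalizer (F S : Set G))).factorization p :=
          card_le_of_isPGroup (hn.trans (hF S hS)) hS'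
      _ ≤ p ^ (Nat.card (normalizer (R : Set G))).factorization p := Nat.pow_le_pow_right hp.out.pos h1
      _ = Nat.card S := (card_eq_of_relIndex hSN hS hSi).symm
  rw [relIndex_top_right] at h2
  exact ⟨hS.toSylow h2, hFS⟩

/-- a normal `p`-subgroup is in every Sylow subgroup, ambient form -/
theorem le_of_sylow_normalizer {R S : Subgroup G} (hR : IsPGroup p R)
    (hSN : S ≤ normalizer (R : Set G)) (hS : IsPGroup p S) (hSi : ¬ p ∣ S.relIndex (normalizer (R : Set G))) :
    R ≤ S := by
  obtain ⟨y, hy, h⟩ := H51.SylowAmb.exists_conj_le hSN hS hSi le_normalizer hR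
  have h2 : R.map (MulAut.conj y).toMonoidHom = R := mem_normalizer_iff_map_conj_eq.mp hy
  rwa [h2] at h

end climb

/-- quadratic action -/
def QA {H V : Type*} [Group H] [Group V] (ρ : H →* MulAut V) (x : H) : Prop :=
  ∀ v, ρ x (ρ x v * v⁻¹) = ρ x v * v⁻¹

section

variable {H V : Type*} [Group H] [Group V] {ρ : H →* MulAut V}

theorem QA.conj {x : H} (h : QA ρ x) (g : H) : QA ρ (g * x * g⁻¹) := by
  intro v
  have h1 : ρ (g * x * g⁻¹) v = ρ g (ρ x (ρ g⁻¹ v)) := by simp
  have h2 : ρ g (ρ g⁻¹ v) = v := by simp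
  have h3 : ρ (g * x * g⁻¹) v * v⁻¹ = ρ g (ρ x (ρ g⁻¹ v) * (ρ g⁻¹ v)⁻¹) := by
    rw [h1, map_mul (ρ g), map_inv (ρ g), h2]
  have h4 : ∀ w, ρ (g * x * g⁻¹) (ρ g w) = ρ g (ρ x w) := by intro w; simp
  rw [h3, h4, h]

/-- the subgroup generated by the quadratic elements of `S` -/
def QQ (ρ : H →* MulAut V) (S : Subgroup H) : Subgroup H := closure {x | x ∈ S ∧ QA ρ x}

theorem QQ_le (S : Subgroup H) : QQ ρ S ≤ S := by
  rw [QQ, closure_le]; exact fun x hx => hx.1

theorem mem_QQ {S : Subgroup H} {x : H} (h1 : x ∈ S) (h2 : QA ρ x) : x ∈ QQ ρ S := subset_closure ⟨h1, h2⟩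

theorem QQ_map {H' : Type*} [Group H'] (f : H' →* H) (S : Subgroup H') :
    QQ ρ (S.map f) = (QQ (ρ.comp f) S).map f := by
  rw [QQ, QQ, MonoidHom.map_closure]
  congr 1
  ext x
  constructor
  · rintro ⟨⟨y, hy, rfl⟩, hx⟩
    exact ⟨y, ⟨hy, hx⟩, rfl⟩
  · rintro ⟨y, ⟨hy, hx⟩, rfl⟩
    exact ⟨⟨y, hy, rfl⟩, hx⟩

theorem normalizer_le_QQ [Finite H] (S : Subgroup H) : normalizer (S : Set H) ≤ normalizer (QQ ρ S : Set H) := by
  intro n hn
  apply mem_normalizer_of_finite
  intro b hb
  have h1 : QQ ρ S ≤ (QQ ρ S).comap (MulAut.conj n).toMonoidHom := by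
    conv_lhs => rw [QQ]
    rw [closure_le]
    rintro x ⟨hx1, hx2⟩
    exact mem_QQ ((mem_normalizer_iff.mp hn x).mp hx1) (hx2.conj n)
  exact h1 hb

theorem QQ_conj (S : Subgroup H) (g : H) :
    QQ ρ (S.map (MulAut.conj g).toMonoidHom) = (QQ ρ S).map (MulAut.conj g).toMonoidHom := by
  rw [QQ_map]
  congr 1
  rw [QQ, QQ]
  congr 1
  ext x
  constructor
  · rintro ⟨h1, h2⟩
    refine ⟨h1, ?_⟩
    have h3 : QA ρ (g * x * g⁻¹) := h2
    have h4 := h3.conj g⁻¹
    have h5 : g⁻¹ * (g * x * g⁻¹) * g⁻¹⁻¹ = x := by group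
    rwa [h5] at h4
  · rintro ⟨h1, h2⟩
    exact ⟨h1, h2.conj g⟩

end

section base

variable {H V : Type*} [Group H] [Finite H] [Group V] [Finite V] {p : ℕ} [hp : Fact p.Prime]
  {ρ : H →* MulAut V}

/-- Two quadratic elements not generating a `p`-group: a `p`-subgroup containing the first one with a normalizer of
even order. -/
theorem even_of_pair (hp2 : p ≠ 2) (hinj : Function.Injective ρ) (hV : ∀ v w : V, v * w = w * v)
    (hVp : ∀ v : V, v ^ p = 1) {a b : H} (ha : QA ρ a) (hb : QA ρ b) (hn : ¬ IsPGroup p (closure {a, b})) :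
    ∃ A : Subgroup H, IsPGroup p A ∧ a ∈ A ∧ 2 ∣ Nat.card (normalizer (A : Set H)) := by
  classical
  let instV : CommGroup V := { (inferInstance : Group V) with mul_comm := hV }
  have hVp' : ∀ x : Additive V, p • x = 0 := fun x => congrArg Additive.ofMul (hVp x.toMul)
  haveI : Module (ZMod p) (Additive V) := AddCommGroup.zmodModule hVp'
  set X : Subgroup H := closure {a, b} with hX
  have haX : a ∈ X := subset_closure (by simp)
  have hbX : b ∈ X := subset_closure (by simp)
  have hgen : closure {(⟨a, haX⟩ : X), ⟨b, hbX⟩} = ⊤ := by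
    have := Subgroup.closure_closure_coe_preimage (k := ({a, b} : Set H))
    rw [← this]
    congr 1
    ext x
    simp [Subtype.ext_iff]
  let r : H → (Additive V →ₗ[ZMod p] Additive V) := fun x =>
    (MonoidHom.toAdditive (ρ x).toMonoidHom).toZModLinearMap p
  have hr : ∀ (x : H) (v : Additive V), Additive.toMul ((r x) v) = ρ x (Additive.toMul v) :=
    fun _ _ => rfl
  have hr1 : r 1 = 1 := by
    apply LinearMap.ext
    intro v
    apply Additive.toMul.injective
    rw [hr, map_one]; rfl
  have hrm : ∀ x y, r (x * y) = r x * r y := by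
    intro x y
    apply LinearMap.ext
    intro v
    apply Additive.toMul.injective
    rw [hr, map_mul]; rfl
  let σ : H →* Module.End (ZMod p) (Additive V) := { toFun := r, map_one' := hr1, map_mul' := hrm }
  have hσinj : Function.Injective σ := by
    intro x y hxy
    apply hinj
    ext v
    have h1 : (r x (Additive.ofMul v)).toMul = (r y (Additive.ofMul v)).toMul := by
      show ((σ x) (Additive.ofMul v)).toMul = ((σ y) (Additive.ofMul v)).toMul
      rw [hxy]
    exact h1
  have hquad : ∀ c : H, QA ρ c → (σ c - 1) * (σ c - 1) = 0 := by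
    intro c hc
    apply LinearMap.ext
    intro v
    have h1 : ((σ c - 1) * (σ c - 1)) v = σ c (σ c v - v) - (σ c v - v) := rfl
    rw [h1]
    have h2 : σ c (σ c v - v) = (σ c v - v) := by
      apply Additive.toMul.injective
      have h3 : ((σ c v - v).toMul : V) = ρ c v.toMul * (v.toMul)⁻¹ := by
        rw [toMul_sub, div_eq_mul_inv]; rfl
      show ρ c ((σ c v - v).toMul) = (σ c v - v).toMul
      rw [h3]
      exact hc _
    rw [h2, sub_self]; rfl
  have hpow : ∀ c : H, QA ρ c → c ^ p = 1 := by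
    intro c hc
    apply hσinj
    rw [map_pow, map_one]
    have h1 := H3.QuadLin.one_add_pow (hquad c hc) p
    rw [add_sub_cancel] at h1
    rw [h1, H3.QuadLin.nsmul_eq_zero (K := ZMod p) (p := p), add_zero]
  rcases rep_hom hgen (σ.comp X.subtype) (hquad _ ha) (hquad _ hb) with h | h
  · exfalso
    apply hn
    intro x
    obtain ⟨m, hm⟩ := h x
    refine ⟨m, Subtype.ext (hσinj ?_)⟩
    show σ ((x ^ p ^ m : X) : H) = σ ((1 : X) : H)
    rw [coe_pow, map_pow, coe_one, map_one]
    exact hm
  · obtain ⟨n, lam, φ, hlam, h1, h2⟩ := h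
    obtain ⟨h3, z, hz, hz1, hc⟩ := exists_neg hp2 hlam φ h1 h2
    have haP : IsPGroup p (zpowers (⟨a, haX⟩ : X)) := by
      apply IsPGroup.of_card_dvd_pow (n := 1)
      rw [Nat.card_zpowers, pow_one]
      exact orderOf_dvd_of_pow_eq_one (Subtype.ext (hpow a ha))
    obtain ⟨A, hA, haA, hA2⟩ := even_of_neg hp2 φ haP h3 hz hz1 hc
    refine ⟨A.map X.subtype, hA.map _, ⟨_, haA, rfl⟩, ?_⟩
    have h4 : (normalizer (A : Set X)).map X.subtype ≤ normalizer ((A.map X.subtype : Subgroup H) : Set H) := by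
      rintro _ ⟨n, hn, rfl⟩
      apply mem_normalizer_of_finite
      rintro _ ⟨c, hc, rfl⟩
      exact ⟨n * c * n⁻¹, (mem_normalizer_iff.mp hn c).mp hc, by simp⟩
    rw [← card_map_of_injective X.subtype_injective] at hA2
    exact hA2.trans (card_dvd_of_le h4)

/-- a quadratic element outside of `O_p(H)` -/
theorem exists_even (hp2 : p ≠ 2) (hinj : Function.Injective ρ) (hV : ∀ v w : V, v * w = w * v)
    (hVp : ∀ v : V, v ^ p = 1) {a : H} (ha : QA ρ a) (hna : a ∉ pCore p H) :
    ∃ A : Subgroup H, IsPGroup p A ∧ a ∈ A ∧ 2 ∣ Nat.card (normalizer (A : Set H)) := by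
  by_contra hcon
  apply hna
  obtain ⟨N, hN, hNp, haN⟩ := H55.BaerSuzuki.exists_normal (p := p) a (by
    intro g
    by_contra hg
    exact hcon (even_of_pair hp2 hinj hV hVp ha (ha.conj g) hg))
  exact H1.Cores.le_pCore hN hNp haN

end base

universe u v

/-- the main theorem on quadratic elements -/
theorem main {p : ℕ} [hp : Fact p.Prime] (hp2 : p ≠ 2) {V : Type v} [Group V] [Finite V]
    (hV : ∀ v w : V, v * w = w * v) (hVp : ∀ v : V, v ^ p = 1) : ∀ (n : ℕ) {H : Type u} [Group H] [Finite H]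
    (ρ : H →* MulAut V), Function.Injective ρ → Nat.card H ≤ n → ∀ a : H, QA ρ a → a ∉ pCore p H →
    ∀ T : Sylow p H, 2 ∣ Nat.card (normalizer (QQ ρ (T : Subgroup H) : Set H)) := by
  intro n
  induction n with
  | zero =>
    intro H _ _ ρ _ hn
    exact absurd hn (by have := Nat.card_pos (α := H); omega)
  | succ n ih =>
    intro H _ _ ρ hinj hn a ha hna
    have hmain : ∃ S : Sylow p H, 2 ∣ Nat.card (normalizer (QQ ρ (S : Subgroup H) : Set H)) := by
      rcases climb (p := p) (QQ ρ) (fun S _ => normalizer_le_QQ S)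
        (fun R => IsPGroup p R ∧ (∃ b ∈ R, QA ρ b ∧ b ∉ pCore p H) ∧ 2 ∣ Nat.card (normalizer (R : Set H))) (by
          obtain ⟨A, hA, haA, hA2⟩ := exists_even hp2 hinj hV hVp ha hna
          exact ⟨A, hA, ⟨a, haA, ha, hna⟩, hA2⟩) (by
          rintro R ⟨hR, ⟨b, hbR, hb, hnb⟩, hR2⟩ htop S hSN hS hSi
          have hRS := le_of_sylow_normalizer hR hSN hS hSi
          refine ⟨hS.to_le (QQ_le S), ⟨b, mem_QQ (hRS hbR) hb, hb, hnb⟩, ?_⟩
          set N := normalizer (R : Set H) with hN
          obtain ⟨SN, hSNe⟩ := H51.SylowAmb.exists_sylow_of hSN hS hSi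
          have hQQ : QQ ρ S = (QQ (ρ.comp N.subtype) (SN : Subgroup N)).map N.subtype := by
            rw [← QQ_map, hSNe]
          by_cases hall : ∀ c ∈ (SN : Subgroup N), QA (ρ.comp N.subtype) c → c ∈ pCore p N
          · have h1 : N ≤ normalizer (QQ ρ S : Set H) := by
              intro n hn
              apply mem_normalizer_of_finite
              intro b hb
              have h2 : QQ ρ S ≤ (QQ ρ S).comap (MulAut.conj n).toMonoidHom := by
                conv_lhs => rw [hQQ]
                rw [map_le_iff_le_comap, QQ, closure_le]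
                rintro c ⟨hc1, hc2⟩
                have h3 := hall c hc1 hc2
                have h4 : (⟨n, hn⟩ : N) * c * (⟨n, hn⟩ : N)⁻¹ ∈ pCore p N :=
                  (H1.Cores.pCore_normal (G := N) p).conj_mem c h3 _
                have h5 : (⟨n, hn⟩ : N) * c * (⟨n, hn⟩ : N)⁻¹ ∈ (SN : Subgroup N) := H1.Cores.pCore_le_sylow SN h4
                apply mem_QQ
                · rw [← hSNe]
                  exact ⟨_, h5, rfl⟩
                · exact QA.conj (ρ := ρ) hc2 n
              exact h2 hb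
            exact hR2.trans (card_dvd_of_le h1)
          · push Not at hall
            obtain ⟨c, hc1, hc2, hc3⟩ := hall
            have hcard : Nat.card N ≤ n := by
              have := H14.ZJ.card_lt_of_lt (lt_top_iff_ne_top.mpr htop)
              rw [card_top] at this
              omega
            have h1 := ih (H := N) (ρ.comp N.subtype) (hinj.comp N.subtype_injective) hcard c hc2 hc3 SN
            have h4 : (normalizer (QQ (ρ.comp N.subtype) (SN : Subgroup N) : Set N)).map N.subtype ≤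
                normalizer (QQ ρ S : Set H) := by
              rw [hQQ]
              rintro _ ⟨n, hn, rfl⟩
              apply mem_normalizer_of_finite
              rintro _ ⟨c, hc, rfl⟩
              exact ⟨n * c * n⁻¹, (mem_normalizer_iff.mp hn c).mp hc, by simp⟩
            rw [← card_map_of_injective N.subtype_injective] at h1
            exact h1.trans (card_dvd_of_le h4)) with ⟨R, ⟨hR, ⟨b, hbR, hb, hnb⟩, hR2⟩, htop⟩ | ⟨S, -, -, hS⟩
      · exfalso
        apply hnb
        exact H1.Cores.le_pCore (normalizer_eq_top_iff.mp htop) hR hbR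
      · exact ⟨S, hS⟩
    intro T
    obtain ⟨S, hS⟩ := hmain
    obtain ⟨g, hg⟩ := MulAction.exists_smul_eq H S T
    have h1 : (T : Subgroup H) = (S : Subgroup H).map (MulAut.conj g).toMonoidHom := by
      rw [← hg]; rfl
    have h2 : (normalizer (QQ ρ (S : Subgroup H) : Set H)).map (MulAut.conj g).toMonoidHom ≤
        normalizer (QQ ρ (T : Subgroup H) : Set H) := by
      rw [h1, QQ_conj]
      rintro _ ⟨n, hn, rfl⟩
      apply mem_normalizer_of_finite
      rintro _ ⟨c, hc, rfl⟩
      exact ⟨n * c * n⁻¹, (mem_normalizer_iff.mp hn c).mp hc, by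
        show g * (n * c * n⁻¹) * g⁻¹ = g * n * g⁻¹ * (g * c * g⁻¹) * (g * n * g⁻¹)⁻¹
        group⟩
    rw [← card_map_of_injective (f := (MulAut.conj g).toMonoidHom) (MulAut.conj g).injective] at hS
    exact hS.trans (card_dvd_of_le h2)

end H69.QuadEven
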