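import Mathlib
import Cfsg.Agent.Lib.H69.SchurBasic

/-!
Kernels of finite stem extensions of metacyclic groups.
-/

set_option autoImplicit false

namespace H69.SchurMetacyclic

universe u v

/-- Let `σ : Γ → Q` be a finite stem extension of `Q = ⟨α, β⟩` with `α ^ m = 1`, `β ^ n = α ^ t`,
`β α β⁻¹ = α ^ r`. Suppose `(α ^ (r - 1)) ^ i = 1` only when `o ∣ i`. Then there is `c` in `Γ`
with `ker σ ≤ ⟨c ^ o⟩` and `c ^ m = c ^ t = c ^ (1 + r + ... + r ^ (n - 1)) = 1`. -/
theorem exists_generator_ker {Γ : Type u} {Q : Type v} [Group Γ] [Finite Γ] [Group Q]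
    (σ : Γ →* Q) (hσ : Cfsg.IsStemExtension σ) (α β : Q)
    (hgen : Subgroup.closure ({α, β} : Set Q) = ⊤) (m n : ℕ) (r t : ℤ) (o : ℤ)
    (hm : α ^ m = 1) (hn : β ^ n = α ^ t) (hr : β * α * β⁻¹ = α ^ r)
    (ho : ∀ i : ℤ, (α ^ (r - 1)) ^ i = 1 → o ∣ i) :
    ∃ c : Γ, σ.ker ≤ Subgroup.zpowers (c ^ o) ∧ c ^ m = 1 ∧ c ^ t = 1 ∧
      c ^ (∑ i ∈ Finset.range n, r ^ i) = 1 := by
  obtain ⟨hs, hZ, hC⟩ := hσ
  obtain ⟨a, rfl⟩ := hs α
  obtain ⟨b, rfl⟩ := hs β
  have hgen' : Subgroup.closure ({a, b} : Set Γ) ⊔ σ.ker = ⊤ := by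
    rw [← Subgroup.comap_map_eq, MonoidHom.map_closure, Set.image_pair, hgen, Subgroup.comap_top]
  -- central elements
  have hcent : ∀ x : Γ, σ x = 1 → ∀ g : Γ, g * x = x * g := by
    intro x hx g
    exact Subgroup.mem_center_iff.1 (hZ (MonoidHom.mem_ker.2 hx)) g
  set k := a ^ (-r) * (b * a * b⁻¹) with hk
  have hσk : σ k = 1 := by
    rw [hk, map_mul, map_mul, map_mul, map_inv, hr, map_zpow, zpow_neg, inv_mul_cancel]
  have hkcen : k ∈ Subgroup.center Γ := hZ (MonoidHom.mem_ker.2 hσk)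
  have hab : b * a * b⁻¹ = a ^ r * k := by
    rw [hk, ← mul_assoc, ← zpow_add, add_neg_cancel, zpow_zero, one_mul]
  set c := b * a * b⁻¹ * a⁻¹ with hc
  have hbac : b * a * b⁻¹ = c * a := by rw [hc]; group
  have hcommab : Commute (b * a * b⁻¹) a := by
    rw [hab]
    exact ((Commute.refl a).zpow_left _).mul_left (hcent k hσk a).symm
  have hca : Commute c a := by
    rw [hc]
    exact hcommab.mul_left ((Commute.refl a).inv_left)
  -- the key computation
  have hpow : ∀ i : ℤ, c ^ i = b * a ^ i * b⁻¹ * a ^ (-i) := by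
    intro i
    rw [hc, (hcommab.inv_right).mul_zpow, conj_zpow, inv_zpow, zpow_neg]
  have hone : ∀ i : ℤ, b * a ^ i = a ^ i * b → c ^ i = 1 := by
    intro i hi
    rw [hpow, hi]
    group
  refine ⟨c, ?_, ?_, ?_, ?_⟩
  · intro x hx
    have h1 := H69.SchurBasic.commutator_le_zpowers σ.ker hZ a b hgen' r k hkcen hab (hC hx)
    rw [← hc] at h1
    obtain ⟨i, rfl⟩ := Subgroup.mem_zpowers_iff.1 h1
    have h2 : σ c = (σ a) ^ (r - 1) := by
      rw [hc, map_mul, map_mul, map_mul, map_inv, hr, map_inv, zpow_sub_one]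
    have h3 : ((σ a) ^ (r - 1)) ^ i = 1 := by
      rw [← h2, ← map_zpow]
      exact MonoidHom.mem_ker.1 hx
    obtain ⟨j, rfl⟩ := ho i h3
    rw [zpow_mul]
    exact ⟨j, rfl⟩
  · rw [← zpow_natCast]
    apply hone
    apply hcent
    rw [map_zpow, zpow_natCast, hm]
  · apply hone
    have h1 : σ (a ^ (-t) * b ^ n) = 1 := by
      rw [map_mul, map_zpow, map_pow, hn, zpow_neg, inv_mul_cancel]
    have h2 := hcent _ h1 b
    have h3 : b ^ n = a ^ t * (a ^ (-t) * b ^ n) := by group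
    have h4 : b * b ^ n = b ^ n * b := ((Commute.refl b).pow_right n).eq
    rw [h3] at h4
    have h5 : b * a ^ t * (a ^ (-t) * b ^ n) = a ^ t * b * (a ^ (-t) * b ^ n) := by
      rw [mul_assoc b, h4, mul_assoc (a ^ t) _ b, ← h2, ← mul_assoc]
    exact mul_right_cancel h5
  · -- b^j a b^-j = a c^(s_j)
    have hcb : b * c * b⁻¹ = c ^ r := by
      have h1 : c = a ^ (r - 1) * k := by
        rw [hc, hab, mul_assoc, ← hcent k hσk, ← mul_assoc, zpow_sub_one]
      have h2 : b * (a ^ (r - 1) * k) * b⁻¹ = (b * a * b⁻¹) ^ (r - 1) * k := by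
        rw [conj_zpow]
        rw [mul_assoc b, mul_assoc (a ^ (r - 1)), ← hcent k hσk b⁻¹]
        group
      rw [h1, h2, hab]
      have hck : ∀ g : Γ, Commute g k := hcent k hσk
      rw [(hck _).mul_zpow, (hck _).mul_zpow, ← zpow_mul, ← zpow_mul, mul_assoc, ← zpow_add_one,
        mul_comm r, sub_add_cancel]
    have hj : ∀ j : ℕ, b ^ j * a * (b ^ j)⁻¹ = a * c ^ (∑ i ∈ Finset.range j, r ^ i) := by
      intro j
      induction j with
      | zero => simp
      | succ j ih =>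
        have h1 : b ^ (j + 1) * a * (b ^ (j + 1))⁻¹ = b * (b ^ j * a * (b ^ j)⁻¹) * b⁻¹ := by
          rw [pow_succ']; group
        have h2 : b * (a * c ^ (∑ i ∈ Finset.range j, r ^ i)) * b⁻¹ =
            (b * a * b⁻¹) * (b * c * b⁻¹) ^ (∑ i ∈ Finset.range j, r ^ i) := by
          rw [conj_zpow]; group
        rw [h1, ih, h2, hcb, hbac, hca.eq, mul_assoc, ← zpow_mul, ← zpow_one_add, geom_sum_succ,
          add_comm]
    have h1 : σ (a ^ (-t) * b ^ n) = 1 := by
      rw [map_mul, map_zpow, map_pow, hn, zpow_neg, inv_mul_cancel]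
    have h2 := hcent _ h1 a
    have h3 : b ^ n = a ^ t * (a ^ (-t) * b ^ n) := by group
    have h4 : b ^ n * a = a * b ^ n := by
      rw [h3, mul_assoc, ← h2, ← mul_assoc, ← mul_assoc,
        ((Commute.refl a).zpow_left t).eq]
      simp only [mul_assoc]
    have h5 := hj n
    rw [h4, mul_inv_cancel_right] at h5
    exact (mul_eq_left.1 h5.symm)

end H69.SchurMetacyclic
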