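import Mathlib

/-!
The central extension `G ×_c T` of a group `G` by an additive abelian group `T` along a bilinear
cocycle `c : G → G → T`.
-/

set_option autoImplicit false

open scoped commutatorElement

namespace H69.TwistedProduct

universe u v

/-- A map which is additive in both variables. -/
structure Bilin (G : Type u) (T : Type v) [Group G] [AddCommGroup T] where
  /-- the map -/
  toFun : G → G → T
  mul_left : ∀ a b c, toFun (a * b) c = toFun a c + toFun b c
  mul_right : ∀ a b c, toFun a (b * c) = toFun a b + toFun a c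

variable {G : Type u} {T : Type v} [Group G] [AddCommGroup T]

theorem Bilin.one_left (c : Bilin G T) (a : G) : c.toFun 1 a = 0 := by
  have h := c.mul_left 1 1 a
  rw [one_mul] at h
  exact left_eq_add.1 h

theorem Bilin.one_right (c : Bilin G T) (a : G) : c.toFun a 1 = 0 := by
  have h := c.mul_right a 1 1
  rw [one_mul] at h
  exact left_eq_add.1 h

/-- the twisted product -/
@[ext]
structure TP (c : Bilin G T) : Type (max u v) where
  /-- first component -/
  fst : G
  /-- second component -/
  snd : T

instance (c : Bilin G T) : Mul (TP c) := ⟨fun x y => ⟨x.fst * y.fst, x.snd + y.snd + c.toFun x.fst y.fst⟩⟩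
instance (c : Bilin G T) : One (TP c) := ⟨⟨1, 0⟩⟩
instance (c : Bilin G T) : Inv (TP c) := ⟨fun x => ⟨x.fst⁻¹, -x.snd - c.toFun x.fst⁻¹ x.fst⟩⟩

@[simp] theorem fst_mul (c : Bilin G T) (x y : TP c) : (x * y).fst = x.fst * y.fst := rfl
@[simp] theorem snd_mul (c : Bilin G T) (x y : TP c) :
    (x * y).snd = x.snd + y.snd + c.toFun x.fst y.fst := rfl
@[simp] theorem fst_one (c : Bilin G T) : (1 : TP c).fst = 1 := rfl
@[simp] theorem snd_one (c : Bilin G T) : (1 : TP c).snd = 0 := rfl
@[simp] theorem fst_inv (c : Bilin G T) (x : TP c) : (x⁻¹).fst = x.fst⁻¹ := rfl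
@[simp] theorem snd_inv (c : Bilin G T) (x : TP c) : (x⁻¹).snd = -x.snd - c.toFun x.fst⁻¹ x.fst := rfl

instance group (c : Bilin G T) : Group (TP c) where
  mul_assoc x y z := by
    ext
    · simp [mul_assoc]
    · simp only [snd_mul, fst_mul, c.mul_left, c.mul_right]
      abel
  one_mul x := by
    ext
    · simp
    · simp [c.one_left]
  mul_one x := by
    ext
    · simp
    · simp [c.one_right]
  inv_mul_cancel x := by
    ext
    · simp
    · simp only [snd_mul, snd_inv, fst_inv, snd_one]
      abel

/-- the projection -/
def proj (c : Bilin G T) : TP c →* G where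
  toFun x := x.fst
  map_one' := rfl
  map_mul' _ _ := rfl

@[simp] theorem proj_apply (c : Bilin G T) (x : TP c) : proj c x = x.fst := rfl

theorem proj_surjective (c : Bilin G T) : Function.Surjective (proj c) := fun g => ⟨⟨g, 0⟩, rfl⟩

instance finite (c : Bilin G T) [Finite G] [Finite T] : Finite (TP c) :=
  Finite.of_injective (fun x : TP c => (x.fst, x.snd)) (by
    intro x y h
    have h1 := congrArg Prod.fst h
    have h2 := congrArg Prod.snd h
    exact TP.ext h1 h2)

end H69.TwistedProduct
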