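import Mathlib
import Cfsg.Prelude.Def_KGroupFacts
import Cfsg.Agent.Lib.H69.SchurCover
import Cfsg.Agent.Lib.H69.TwistedProduct

/-!
The Schur multiplier of a direct product.
-/

set_option autoImplicit false

open scoped commutatorElement TensorProduct

namespace H69.SchurProduct

open H69.SchurUniv H69.SchurCover H69.TwistedProduct

universe u v w x y

/-- `Q₁ᵃᵇ ⊗ Q₂ᵃᵇ` -/
abbrev Tens (Q₁ : Type u) (Q₂ : Type v) [Group Q₁] [Group Q₂] : Type (max u v) :=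
  TensorProduct ℤ (Additive (Abelianization Q₁)) (Additive (Abelianization Q₂))

/-- class in the abelianisation, additively -/
def cl {Q : Type u} [Group Q] (q : Q) : Additive (Abelianization Q) :=
  Additive.ofMul (Abelianization.of q)

theorem cl_mul {Q : Type u} [Group Q] (a b : Q) : cl (a * b) = cl a + cl b := by
  rw [cl, map_mul, ofMul_mul]; rfl

theorem cl_one {Q : Type u} [Group Q] : cl (1 : Q) = 0 := by
  rw [cl, map_one, ofMul_one]

theorem cl_surjective {Q : Type u} [Group Q] : Function.Surjective (cl : Q → _) := by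
  intro x
  obtain ⟨q, hq⟩ := QuotientGroup.mk_surjective (Additive.toMul x)
  exact ⟨q, congrArg Additive.ofMul hq⟩

section cover

variable {Γ₁ : Type u} {Γ₂ : Type v} {Q₁ : Type w} {Q₂ : Type x} [Group Γ₁] [Group Γ₂] [Group Q₁]
  [Group Q₂] (σ₁ : Γ₁ →* Q₁) (σ₂ : Γ₂ →* Q₂)

/-- the bilinear cocycle -/
noncomputable def bil : Bilin (Γ₁ × Γ₂) (Tens Q₁ Q₂) where
  toFun a b := cl (σ₁ a.1) ⊗ₜ[ℤ] cl (σ₂ b.2)
  mul_left a b c := by
    rw [Prod.fst_mul, map_mul, cl_mul, TensorProduct.add_tmul]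
  mul_right a b c := by
    rw [Prod.snd_mul, map_mul, cl_mul, TensorProduct.tmul_add]

theorem bil_left {a : Γ₁ × Γ₂} (ha : σ₁ a.1 = 1) (b : Γ₁ × Γ₂) : (bil σ₁ σ₂).toFun a b = 0 := by
  show cl (σ₁ a.1) ⊗ₜ[ℤ] cl (σ₂ b.2) = 0
  rw [ha, cl_one, TensorProduct.zero_tmul]

theorem bil_right {b : Γ₁ × Γ₂} (hb : σ₂ b.2 = 1) (a : Γ₁ × Γ₂) : (bil σ₁ σ₂).toFun a b = 0 := by
  show cl (σ₁ a.1) ⊗ₜ[ℤ] cl (σ₂ b.2) = 0
  rw [hb, cl_one, TensorProduct.tmul_zero]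

/-- the projection onto the product -/
noncomputable def prP : TP (bil σ₁ σ₂) →* Q₁ × Q₂ := (MonoidHom.prodMap σ₁ σ₂).comp (proj _)

theorem prP_apply (x : TP (bil σ₁ σ₂)) : prP σ₁ σ₂ x = (σ₁ x.fst.1, σ₂ x.fst.2) := rfl

theorem mem_ker_prP {x : TP (bil σ₁ σ₂)} :
    x ∈ (prP σ₁ σ₂).ker ↔ σ₁ x.fst.1 = 1 ∧ σ₂ x.fst.2 = 1 := by
  rw [MonoidHom.mem_ker, prP_apply, Prod.mk_eq_one]

/-- kernel of the projection -/
noncomputable def kerPrP : (prP σ₁ σ₂).ker ≃* σ₁.ker × σ₂.ker × Multiplicative (Tens Q₁ Q₂) where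
  toFun a := (⟨a.1.fst.1, ((mem_ker_prP σ₁ σ₂).1 a.2).1⟩, ⟨a.1.fst.2, ((mem_ker_prP σ₁ σ₂).1 a.2).2⟩,
    Multiplicative.ofAdd a.1.snd)
  invFun b := ⟨⟨(b.1, b.2.1), Multiplicative.toAdd b.2.2⟩,
    (mem_ker_prP σ₁ σ₂).2 ⟨b.1.2, b.2.1.2⟩⟩
  left_inv a := rfl
  right_inv b := rfl
  map_mul' a b := by
    refine Prod.ext rfl (Prod.ext rfl ?_)
    show Multiplicative.ofAdd (a.1.snd + b.1.snd + (bil σ₁ σ₂).toFun a.1.fst b.1.fst) = _
    rw [bil_left σ₁ σ₂ ((mem_ker_prP σ₁ σ₂).1 a.2).1, add_zero]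
    rfl

/-- embedding of the first factor -/
noncomputable def in₁ : Γ₁ →* TP (bil σ₁ σ₂) where
  toFun a := ⟨(a, 1), 0⟩
  map_one' := rfl
  map_mul' a b := by
    refine TP.ext ?_ ?_
    · simp
    · rw [snd_mul, bil_right σ₁ σ₂ (map_one σ₂)]
      simp

/-- embedding of the second factor -/
noncomputable def in₂ : Γ₂ →* TP (bil σ₁ σ₂) where
  toFun a := ⟨(1, a), 0⟩
  map_one' := rfl
  map_mul' a b := by
    refine TP.ext ?_ ?_
    · simp
    · rw [snd_mul, bil_left σ₁ σ₂ (map_one σ₁)]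
      simp

/-- embedding of the tensor product -/
noncomputable def in₃ : Multiplicative (Tens Q₁ Q₂) →* TP (bil σ₁ σ₂) where
  toFun t := ⟨1, Multiplicative.toAdd t⟩
  map_one' := rfl
  map_mul' a b := by
    refine TP.ext ?_ ?_
    · simp
    · rw [snd_mul, bil_left σ₁ σ₂ (map_one σ₁)]
      simp

theorem commutator_in (a : Γ₁) (b : Γ₂) : ⁅in₁ σ₁ σ₂ a, in₂ σ₁ σ₂ b⁆ =
    in₃ σ₁ σ₂ (Multiplicative.ofAdd (cl (σ₁ a) ⊗ₜ[ℤ] cl (σ₂ b))) := by
  have h1 : in₁ σ₁ σ₂ a * in₂ σ₁ σ₂ b =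
      in₃ σ₁ σ₂ (Multiplicative.ofAdd (cl (σ₁ a) ⊗ₜ[ℤ] cl (σ₂ b))) * (in₂ σ₁ σ₂ b * in₁ σ₁ σ₂ a) := by
    refine TP.ext ?_ ?_
    · simp [in₁, in₂, in₃]
    · simp only [snd_mul, fst_mul]
      rw [bil_left σ₁ σ₂ (a := (in₂ σ₁ σ₂ b).fst) (map_one σ₁),
        bil_left σ₁ σ₂ (a := (in₃ σ₁ σ₂ _).fst) (map_one σ₁)]
      show 0 + 0 + cl (σ₁ a) ⊗ₜ[ℤ] cl (σ₂ b) = cl (σ₁ a) ⊗ₜ[ℤ] cl (σ₂ b) + (0 + 0 + 0) + 0
      simp
  rw [commutatorElement_def, mul_assoc, mul_assoc, ← mul_assoc (in₁ σ₁ σ₂ a), h1]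
  group

theorem stem_prP (h₁ : Cfsg.IsStemExtension σ₁) (h₂ : Cfsg.IsStemExtension σ₂) :
    Cfsg.IsStemExtension (prP σ₁ σ₂) := by
  refine ⟨?_, ?_, ?_⟩
  · rintro ⟨a, b⟩
    obtain ⟨a, rfl⟩ := h₁.1 a
    obtain ⟨b, rfl⟩ := h₂.1 b
    exact ⟨⟨(a, b), 0⟩, rfl⟩
  · intro x hx
    rw [mem_ker_prP] at hx
    rw [Subgroup.mem_center_iff]
    intro g
    refine TP.ext ?_ ?_
    · rw [fst_mul, fst_mul]
      exact Prod.ext (Subgroup.mem_center_iff.1 (h₁.2.1 hx.1) g.fst.1)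
        (Subgroup.mem_center_iff.1 (h₂.2.1 hx.2) g.fst.2)
    · rw [snd_mul, snd_mul, bil_left σ₁ σ₂ hx.1, bil_right σ₁ σ₂ hx.2, add_zero, add_zero, add_comm]
  · intro x hx
    rw [mem_ker_prP] at hx
    have hmap : ∀ {H : Type (max u v w x)} [Group H] {G : Type (max u v w x)} [Group G]
        (φ : H →* G), (commutator H).map φ ≤ commutator G := by
      intro H _ G _ φ
      rw [commutator_def, Subgroup.map_commutator, commutator_def]
      exact Subgroup.commutator_mono le_top le_top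
    have h1 : in₁ σ₁ σ₂ x.fst.1 ∈ commutator (TP (bil σ₁ σ₂)) := by
      have : (commutator Γ₁).map (in₁ σ₁ σ₂) ≤ commutator (TP (bil σ₁ σ₂)) := by
        rw [commutator_def, Subgroup.map_commutator, commutator_def]
        exact Subgroup.commutator_mono le_top le_top
      exact this ⟨_, h₁.2.2 hx.1, rfl⟩
    have h2 : in₂ σ₁ σ₂ x.fst.2 ∈ commutator (TP (bil σ₁ σ₂)) := by
      have : (commutator Γ₂).map (in₂ σ₁ σ₂) ≤ commutator (TP (bil σ₁ σ₂)) := by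
        rw [commutator_def, Subgroup.map_commutator, commutator_def]
        exact Subgroup.commutator_mono le_top le_top
      exact this ⟨_, h₂.2.2 hx.2, rfl⟩
    have h3 : ∀ t : Tens Q₁ Q₂, in₃ σ₁ σ₂ (Multiplicative.ofAdd t) ∈ commutator (TP (bil σ₁ σ₂)) := by
      intro t
      induction t using TensorProduct.induction_on with
      | zero =>
        have : in₃ σ₁ σ₂ (Multiplicative.ofAdd 0) = 1 := map_one _
        rw [this]
        exact Subgroup.one_mem _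
      | tmul a b =>
        obtain ⟨q, rfl⟩ := cl_surjective a
        obtain ⟨q', rfl⟩ := cl_surjective b
        obtain ⟨g, rfl⟩ := h₁.1 q
        obtain ⟨g', rfl⟩ := h₂.1 q'
        rw [← commutator_in, commutator_def]
        exact Subgroup.commutator_mem_commutator (Subgroup.mem_top _) (Subgroup.mem_top _)
      | add a b ha hb =>
        rw [ofAdd_add, map_mul]
        exact Subgroup.mul_mem _ ha hb
    have h4 : x = in₁ σ₁ σ₂ x.fst.1 * in₂ σ₁ σ₂ x.fst.2 * in₃ σ₁ σ₂ (Multiplicative.ofAdd x.snd) := by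
      refine TP.ext ?_ ?_
      · simp [in₁, in₂, in₃]
      · simp only [snd_mul, fst_mul]
        rw [bil_right σ₁ σ₂ (b := (in₃ σ₁ σ₂ _).fst) (map_one σ₂),
          bil_left σ₁ σ₂ (a := (in₁ σ₁ σ₂ x.fst.1).fst) hx.1]
        show x.snd = 0 + 0 + 0 + x.snd + 0
        simp
    rw [h4]
    exact Subgroup.mul_mem _ (Subgroup.mul_mem _ h1 h2) (h3 _)

end cover

instance finite_tens (Q₁ : Type u) (Q₂ : Type v) [Group Q₁] [Group Q₂] [Finite Q₁] [Finite Q₂] :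
    Finite (Tens Q₁ Q₂) := by
  have : Finite (Abelianization Q₁) := inferInstance
  have : Module.Finite ℤ (Additive (Abelianization Q₁)) := inferInstance
  have : Module.Finite ℤ (Additive (Abelianization Q₂)) := inferInstance
  have : Module.Finite ℤ (Tens Q₁ Q₂) := Module.Finite.tensorProduct ℤ _ _
  apply Module.finite_of_fg_torsion
  intro t
  refine ⟨⟨(Nat.card (Abelianization Q₁) : ℤ), ?_⟩, ?_⟩
  · rw [mem_nonZeroDivisors_iff_ne_zero]
    exact_mod_cast Nat.card_pos.ne'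
  · show (Nat.card (Abelianization Q₁) : ℤ) • t = 0
    induction t using TensorProduct.induction_on with
    | zero => simp
    | tmul a b =>
      rw [TensorProduct.smul_tmul', natCast_zsmul]
      have : Nat.card (Abelianization Q₁) • a = 0 := by
        have := pow_card_eq_one' (x := Additive.toMul a)
        exact this
      rw [this, TensorProduct.zero_tmul]
    | add a b ha hb => rw [smul_add, ha, hb, add_zero]

section upper

variable {Γ : Type u} {Q₁ : Type v} {Q₂ : Type w} [Group Γ] [Group Q₁] [Group Q₂]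
  (σ : Γ →* Q₁ × Q₂)

/-- preimage of the first factor -/
abbrev sub₁ : Subgroup Γ := ((MonoidHom.snd Q₁ Q₂).comp σ).ker

/-- preimage of the second factor -/
abbrev sub₂ : Subgroup Γ := ((MonoidHom.fst Q₁ Q₂).comp σ).ker

/-- the restriction -/
def τ₁ : sub₁ σ →* Q₁ := ((MonoidHom.fst Q₁ Q₂).comp σ).comp (sub₁ σ).subtype

/-- the restriction -/
def τ₂ : sub₂ σ →* Q₂ := ((MonoidHom.snd Q₁ Q₂).comp σ).comp (sub₂ σ).subtype

theorem map_ker_τ₁ : (τ₁ σ).ker.map (sub₁ σ).subtype = σ.ker := by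
  ext x
  constructor
  · rintro ⟨y, hy, rfl⟩
    rw [MonoidHom.mem_ker]
    exact Prod.ext hy y.2
  · intro hx
    rw [MonoidHom.mem_ker] at hx
    exact ⟨⟨x, congrArg Prod.snd hx⟩, congrArg Prod.fst hx, rfl⟩

theorem map_ker_τ₂ : (τ₂ σ).ker.map (sub₂ σ).subtype = σ.ker := by
  ext x
  constructor
  · rintro ⟨y, hy, rfl⟩
    rw [MonoidHom.mem_ker]
    exact Prod.ext y.2 hy
  · intro hx
    rw [MonoidHom.mem_ker] at hx
    exact ⟨⟨x, congrArg Prod.fst hx⟩, congrArg Prod.snd hx, rfl⟩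

theorem ker_τ₁_le (hc : σ.ker ≤ Subgroup.center Γ) : (τ₁ σ).ker ≤ Subgroup.center (sub₁ σ) := by
  intro x hx
  rw [Subgroup.mem_center_iff]
  intro g
  have h1 : (x : Γ) ∈ σ.ker := by
    rw [← map_ker_τ₁]; exact ⟨x, hx, rfl⟩
  exact Subtype.ext (Subgroup.mem_center_iff.1 (hc h1) g)

theorem ker_τ₂_le (hc : σ.ker ≤ Subgroup.center Γ) : (τ₂ σ).ker ≤ Subgroup.center (sub₂ σ) := by
  intro x hx
  rw [Subgroup.mem_center_iff]
  intro g
  have h1 : (x : Γ) ∈ σ.ker := by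
    rw [← map_ker_τ₂]; exact ⟨x, hx, rfl⟩
  exact Subtype.ext (Subgroup.mem_center_iff.1 (hc h1) g)

theorem τ₁_surjective (hs : Function.Surjective σ) : Function.Surjective (τ₁ σ) := by
  intro q
  obtain ⟨x, hx⟩ := hs (q, 1)
  exact ⟨⟨x, congrArg Prod.snd hx⟩, congrArg Prod.fst hx⟩

theorem τ₂_surjective (hs : Function.Surjective σ) : Function.Surjective (τ₂ σ) := by
  intro q
  obtain ⟨x, hx⟩ := hs (1, q)
  exact ⟨⟨x, congrArg Prod.fst hx⟩, congrArg Prod.snd hx⟩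

/-- the commutator pairing: existence of a homomorphism from the tensor product -/
theorem exists_pairing (hs : Function.Surjective σ) (hc : σ.ker ≤ Subgroup.center Γ) :
    ∃ θ : Multiplicative (Tens Q₁ Q₂) →* Γ, (∀ t, θ t ∈ σ.ker) ∧
      ∀ a ∈ sub₁ σ, ∀ b ∈ sub₂ σ, ∃ t, θ t = ⁅a, b⁆ := by
  have hcomm : ∀ a b : σ.ker, a * b = b * a := fun a b =>
    Subtype.ext (Subgroup.mem_center_iff.1 (hc b.2) a)
  let _ : CommGroup σ.ker := { (inferInstance : Group σ.ker) with mul_comm := hcomm }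
  choose s hs' using hs
  have hmem : ∀ (a : Q₁) (b : Q₂), ⁅s (a, 1), s (1, b)⁆ ∈ σ.ker := by
    intro a b
    rw [MonoidHom.mem_ker, map_commutatorElement, hs', hs',
      commutatorElement_eq_one_iff_mul_comm]
    simp
  -- bimultiplicativity
  have hmul₁ : ∀ (a a' : Q₁) (b : Q₂), ⁅s (a * a', 1), s (1, b)⁆ =
      ⁅s (a, 1), s (1, b)⁆ * ⁅s (a', 1), s (1, b)⁆ := by
    intro a a' b
    have h1 : ⁅s (a * a', 1), s (1, b)⁆ = ⁅s (a, 1) * s (a', 1), s (1, b)⁆ := by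
      apply commutator_eq_of_map_eq σ hc
      · rw [map_mul, hs', hs', hs']; simp
      · rfl
    have h2 := Subgroup.mem_center_iff.1 (hc (hmem a' b)) (s (a, 1))
    rw [h1]
    calc ⁅s (a, 1) * s (a', 1), s (1, b)⁆
        = (s (a, 1) * ⁅s (a', 1), s (1, b)⁆) * (s (a, 1))⁻¹ * ⁅s (a, 1), s (1, b)⁆ := by
          simp only [commutatorElement_def]; group
      _ = (⁅s (a', 1), s (1, b)⁆ * s (a, 1)) * (s (a, 1))⁻¹ * ⁅s (a, 1), s (1, b)⁆ := by rw [h2]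
      _ = ⁅s (a', 1), s (1, b)⁆ * ⁅s (a, 1), s (1, b)⁆ := by group
      _ = _ := (Subgroup.mem_center_iff.1 (hc (hmem a' b)) _).symm
  have hmul₂ : ∀ (a : Q₁) (b b' : Q₂), ⁅s (a, 1), s (1, b * b')⁆ =
      ⁅s (a, 1), s (1, b)⁆ * ⁅s (a, 1), s (1, b')⁆ := by
    intro a b b'
    have h1 : ⁅s (a, 1), s (1, b * b')⁆ = ⁅s (a, 1), s (1, b) * s (1, b')⁆ := by
      apply commutator_eq_of_map_eq σ hc
      · rfl
      · rw [map_mul, hs', hs', hs']; simp
    have h2 := Subgroup.mem_center_iff.1 (hc (hmem a b')) (s (1, b))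
    rw [h1]
    calc ⁅s (a, 1), s (1, b) * s (1, b')⁆
        = ⁅s (a, 1), s (1, b)⁆ * (s (1, b) * ⁅s (a, 1), s (1, b')⁆) * (s (1, b))⁻¹ := by
          simp only [commutatorElement_def]; group
      _ = ⁅s (a, 1), s (1, b)⁆ * (⁅s (a, 1), s (1, b')⁆ * s (1, b)) * (s (1, b))⁻¹ := by rw [h2]
      _ = _ := by group
  let β₂ : Q₁ → Q₂ →* σ.ker := fun a => MonoidHom.mk' (fun b => ⟨_, hmem a b⟩)
    (fun b b' => Subtype.ext (hmul₂ a b b'))
  let β₁ : Q₁ →* (Abelianization Q₂ →* σ.ker) := MonoidHom.mk' (fun a => Abelianization.lift (β₂ a))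
    (by
      intro a a'
      apply Abelianization.hom_ext
      ext b
      show ((β₂ (a * a')) b : Γ) = ((β₂ a b * β₂ a' b : σ.ker) : Γ)
      exact hmul₁ a a' b)
  let β : Abelianization Q₁ →* (Abelianization Q₂ →* σ.ker) := Abelianization.lift β₁
  let B : Additive (Abelianization Q₁) →+ Additive (Abelianization Q₂) →+ Additive σ.ker :=
    AddMonoidHom.mk' (fun x => MonoidHom.toAdditive (β (Additive.toMul x))) (by
      intro x y
      refine AddMonoidHom.ext fun z => ?_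
      show Additive.ofMul (β (Additive.toMul x * Additive.toMul y) (Additive.toMul z)) = _
      rw [map_mul]
      rfl)
  let θ : Tens Q₁ Q₂ →+ Additive σ.ker := TensorProduct.liftAddHom B (by
    intro r m n
    rw [map_zsmul, map_zsmul]
    rfl)
  refine ⟨σ.ker.subtype.comp (AddMonoidHom.toMultiplicativeLeft θ), fun t => Subtype.prop _, ?_⟩
  intro a ha b hb
  refine ⟨Multiplicative.ofAdd (cl (τ₁ σ ⟨a, ha⟩) ⊗ₜ[ℤ] cl (τ₂ σ ⟨b, hb⟩)), ?_⟩
  show ((Additive.toMul (θ (cl (τ₁ σ ⟨a, ha⟩) ⊗ₜ[ℤ] cl (τ₂ σ ⟨b, hb⟩))) : σ.ker) : Γ) = _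
  rw [TensorProduct.liftAddHom_tmul]
  show ⁅s (τ₁ σ ⟨a, ha⟩, 1), s (1, τ₂ σ ⟨b, hb⟩)⁆ = ⁅a, b⁆
  apply commutator_eq_of_map_eq σ hc
  · rw [hs']
    exact Prod.ext rfl ha.symm
  · rw [hs']
    exact Prod.ext hb.symm rfl

theorem commutator_le (hs : Function.Surjective σ) :
    commutator Γ ≤ (⁅sub₁ σ, sub₁ σ⁆ ⊔ ⁅sub₂ σ, sub₂ σ⁆) ⊔ ⁅sub₁ σ, sub₂ σ⁆ := by
  rw [← Subgroup.Normal.quotient_commutative_iff_commutator_le]
  set W := (⁅sub₁ σ, sub₁ σ⁆ ⊔ ⁅sub₂ σ, sub₂ σ⁆) ⊔ ⁅sub₁ σ, sub₂ σ⁆ with hW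
  -- in the quotient the images of the generators commute
  have h1 : ∀ a b : Γ, ⁅a, b⁆ ∈ W → (QuotientGroup.mk a : Γ ⧸ W) * QuotientGroup.mk b =
      QuotientGroup.mk b * QuotientGroup.mk a := by
    intro a b hab
    rw [← commutatorElement_eq_one_iff_mul_comm]
    exact (QuotientGroup.eq_one_iff ⁅a, b⁆).2 hab
  have h11 : ∀ a ∈ sub₁ σ, ∀ b ∈ sub₁ σ, (QuotientGroup.mk a : Γ ⧸ W) * QuotientGroup.mk b =
      QuotientGroup.mk b * QuotientGroup.mk a := fun a ha b hb => h1 a b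
    (Subgroup.mem_sup_left (Subgroup.mem_sup_left (Subgroup.commutator_mem_commutator ha hb)))
  have h22 : ∀ a ∈ sub₂ σ, ∀ b ∈ sub₂ σ, (QuotientGroup.mk a : Γ ⧸ W) * QuotientGroup.mk b =
      QuotientGroup.mk b * QuotientGroup.mk a := fun a ha b hb => h1 a b
    (Subgroup.mem_sup_left (Subgroup.mem_sup_right (Subgroup.commutator_mem_commutator ha hb)))
  have h12 : ∀ a ∈ sub₁ σ, ∀ b ∈ sub₂ σ, (QuotientGroup.mk a : Γ ⧸ W) * QuotientGroup.mk b =
      QuotientGroup.mk b * QuotientGroup.mk a := fun a ha b hb => h1 a b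
    (Subgroup.mem_sup_right (Subgroup.commutator_mem_commutator ha hb))
  have hdec : ∀ x : Γ, ∃ a ∈ sub₁ σ, ∃ b ∈ sub₂ σ, x = a * b := by
    intro x
    obtain ⟨a, ha⟩ := hs ((σ x).1, 1)
    refine ⟨a, congrArg Prod.snd ha, a⁻¹ * x, ?_, by group⟩
    show (σ (a⁻¹ * x)).1 = 1
    rw [map_mul, map_inv, ha]
    simp
  constructor
  constructor
  intro x y
  obtain ⟨x, rfl⟩ := QuotientGroup.mk_surjective x
  obtain ⟨y, rfl⟩ := QuotientGroup.mk_surjective y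
  obtain ⟨a, ha, b, hb, rfl⟩ := hdec x
  obtain ⟨c, hc, d, hd, rfl⟩ := hdec y
  rw [QuotientGroup.mk_mul, QuotientGroup.mk_mul]
  have e1 := h11 a ha c hc
  have e2 := h12 a ha d hd
  have e3 := h12 c hc b hb
  have e4 := h22 b hb d hd
  calc (QuotientGroup.mk a * QuotientGroup.mk b * (QuotientGroup.mk c * QuotientGroup.mk d) : Γ ⧸ W)
      = QuotientGroup.mk a * (QuotientGroup.mk b * QuotientGroup.mk c) * QuotientGroup.mk d := by
        group
    _ = (QuotientGroup.mk a * QuotientGroup.mk c) * (QuotientGroup.mk b * QuotientGroup.mk d) := by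
        rw [← e3]; group
    _ = QuotientGroup.mk c * (QuotientGroup.mk a * QuotientGroup.mk d) * QuotientGroup.mk b := by
        rw [e1, e4]; group
    _ = QuotientGroup.mk c * (QuotientGroup.mk d * QuotientGroup.mk a) * QuotientGroup.mk b := by
        rw [e2]
    _ = _ := by simp only [mul_assoc]; rfl

end upper

/-- **Schur**: the multiplier of a direct product. -/
theorem hasSchurMultiplier_prod {Q₁ : Type u} {Q₂ : Type v} [Group Q₁] [Group Q₂] [Finite Q₁]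
    [Finite Q₂] {A : Type w} {B : Type x} [CommGroup A] [CommGroup B]
    (hA : Cfsg.HasSchurMultiplier Q₁ A) (hB : Cfsg.HasSchurMultiplier Q₂ B) :
    Cfsg.HasSchurMultiplier (Q₁ × Q₂) (A × B × Multiplicative (Tens Q₁ Q₂)) := by
  constructor
  · obtain ⟨⟨Γ₁, _, _, σ₁, hσ₁, ⟨e₁⟩⟩, -⟩ := hA
    obtain ⟨⟨Γ₂, _, _, σ₂, hσ₂, ⟨e₂⟩⟩, -⟩ := hB
    exact ⟨TP (bil σ₁ σ₂), inferInstance, inferInstance, prP σ₁ σ₂, stem_prP σ₁ σ₂ hσ₁ hσ₂,
      ⟨(kerPrP σ₁ σ₂).trans (e₁.prodCongr (e₂.prodCongr (MulEquiv.refl _)))⟩⟩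
  · intro Γ _ _ σ hσ
    obtain ⟨hs, hc, hC⟩ := hσ
    obtain ⟨π₁, hπ₁⟩ := exists_surj_ker_inf_commutator hA (τ₁ σ) (τ₁_surjective σ hs)
      (ker_τ₁_le σ hc)
    obtain ⟨π₂, hπ₂⟩ := exists_surj_ker_inf_commutator hB (τ₂ σ) (τ₂_surjective σ hs)
      (ker_τ₂_le σ hc)
    obtain ⟨θ, hθ1, hθ2⟩ := exists_pairing σ hs hc
    have hm₁ : ∀ a, ((π₁ a : sub₁ σ) : Γ) ∈ σ.ker := by
      intro a
      rw [← map_ker_τ₁]
      have h1 : π₁ a ∈ π₁.range := ⟨a, rfl⟩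
      rw [hπ₁] at h1
      exact ⟨_, h1.1, rfl⟩
    have hm₂ : ∀ a, ((π₂ a : sub₂ σ) : Γ) ∈ σ.ker := by
      intro a
      rw [← map_ker_τ₂]
      have h1 : π₂ a ∈ π₂.range := ⟨a, rfl⟩
      rw [hπ₂] at h1
      exact ⟨_, h1.1, rfl⟩
    have hcomm : ∀ x ∈ σ.ker, ∀ y, y * x = x * y := fun x hx y =>
      Subgroup.mem_center_iff.1 (hc hx) y
    refine ⟨MonoidHom.mk' (fun z => ⟨(π₁ z.1 : Γ) * (π₂ z.2.1 : Γ) * θ z.2.2,
      Subgroup.mul_mem _ (Subgroup.mul_mem _ (hm₁ _) (hm₂ _)) (hθ1 _)⟩) ?_, ?_⟩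
    · rintro ⟨a, b, t⟩ ⟨a', b', t'⟩
      apply Subtype.ext
      show ((π₁ (a * a') : sub₁ σ) : Γ) * ((π₂ (b * b') : sub₂ σ) : Γ) * θ (t * t') =
        ((π₁ a : Γ) * (π₂ b : Γ) * θ t) * ((π₁ a' : Γ) * (π₂ b' : Γ) * θ t')
      rw [map_mul, map_mul, map_mul, Subgroup.coe_mul, Subgroup.coe_mul]
      have e1 := hcomm _ (hm₁ a')
      have e2 := hcomm _ (hm₂ b')
      calc (π₁ a : Γ) * (π₁ a' : Γ) * ((π₂ b : Γ) * (π₂ b' : Γ)) * (θ t * θ t')
          = (π₁ a : Γ) * ((π₁ a' : Γ) * (π₂ b : Γ)) * ((π₂ b' : Γ) * θ t) * θ t' := by group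
        _ = (π₁ a : Γ) * ((π₂ b : Γ) * (π₁ a' : Γ)) * (θ t * (π₂ b' : Γ)) * θ t' := by
            rw [e1, e2 (θ t)]
        _ = (π₁ a : Γ) * (π₂ b : Γ) * ((π₁ a' : Γ) * θ t) * (π₂ b' : Γ) * θ t' := by group
        _ = (π₁ a : Γ) * (π₂ b : Γ) * (θ t * (π₁ a' : Γ)) * (π₂ b' : Γ) * θ t' := by
            rw [e1 (θ t)]
        _ = _ := by group
    · rintro ⟨k, hk⟩
      have h1 := commutator_le σ hs (hC hk)
      rw [Subgroup.mem_sup_of_normal_right] at h1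
      obtain ⟨z, hz, c, hc', rfl⟩ := h1
      rw [Subgroup.mem_sup_of_normal_right] at hz
      obtain ⟨x, hx, y, hy, rfl⟩ := hz
      -- c ∈ range θ
      have hcθ : ⁅sub₁ σ, sub₂ σ⁆ ≤ θ.range := by
        rw [Subgroup.commutator_le]
        intro a ha b hb
        obtain ⟨t, ht⟩ := hθ2 a ha b hb
        exact ⟨t, ht⟩
      obtain ⟨t, rfl⟩ := hcθ hc'
      have hkt : x * y ∈ σ.ker := by
        have h2 : x * y = x * y * θ t * (θ t)⁻¹ := by group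
        rw [h2]
        exact Subgroup.mul_mem _ hk (Subgroup.inv_mem _ (hθ1 t))
      have hx1 : x ∈ sub₁ σ := Subgroup.commutator_le_self _ hx
      have hy2 : y ∈ sub₂ σ := Subgroup.commutator_le_self _ hy
      have hx1' : (σ x).2 = 1 := hx1
      have hy2' : (σ y).1 = 1 := hy2
      rw [MonoidHom.mem_ker, map_mul] at hkt
      have hx2 : (σ x).1 = 1 := by
        have := congrArg Prod.fst hkt
        rw [Prod.fst_mul, hy2', mul_one] at this
        exact this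
      have hy1 : (σ y).2 = 1 := by
        have := congrArg Prod.snd hkt
        rw [Prod.snd_mul, hx1', one_mul] at this
        exact this
      have hx3 : (⟨x, hx1⟩ : sub₁ σ) ∈ π₁.range := by
        rw [hπ₁]
        refine ⟨hx2, ?_⟩
        rw [← Subgroup.map_subtype_commutator] at hx
        obtain ⟨x', hx', hxx⟩ := hx
        have : (⟨x, hx1⟩ : sub₁ σ) = x' := Subtype.ext hxx.symm
        rw [this]
        exact hx'
      have hy3 : (⟨y, hy2⟩ : sub₂ σ) ∈ π₂.range := by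
        rw [hπ₂]
        refine ⟨hy1, ?_⟩
        rw [← Subgroup.map_subtype_commutator] at hy
        obtain ⟨y', hy', hyy⟩ := hy
        have : (⟨y, hy2⟩ : sub₂ σ) = y' := Subtype.ext hyy.symm
        rw [this]
        exact hy'
      obtain ⟨a, ha⟩ := hx3
      obtain ⟨b, hb⟩ := hy3
      refine ⟨(a, b, t), Subtype.ext ?_⟩
      show ((π₁ a : sub₁ σ) : Γ) * ((π₂ b : sub₂ σ) : Γ) * θ t = x * y * θ t
      rw [ha, hb]

end H69.SchurProduct
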