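import Mathlib
import Cfsg.Prelude.Def_KGroupFacts
import Cfsg.Agent.Lib.H69.SchurCover

/-!
The image `N` of `ker (Ext f → Q)` in `ℤ^ι`: it has full rank, and `ℤ^ι ⧸ N` is the abelianisation
of `Q`.
-/

set_option autoImplicit false

open scoped commutatorElement

namespace H69.SchurRank

open H69.SchurUniv H69.SchurCover

universe u v w x

variable {ι : Type u} {Q : Type v} [Group Q]

noncomputable instance commGroupKer (f : FreeGroup ι →* Q) : CommGroup (pr f).ker :=
  { (inferInstance : Group (pr f).ker) with
    mul_comm := fun a b => Subtype.ext (ker_pr_comm f b.2 a) }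

/-- the abelianisation map restricted to the kernel, as a `ℤ`-linear map -/
noncomputable def alpha (f : FreeGroup ι →* Q) : Additive (pr f).ker →ₗ[ℤ] (ι →₀ ℤ) :=
  AddMonoidHom.toIntLinearMap
    (AddMonoidHom.mk' (fun k => Multiplicative.toAdd (ab f ((Additive.toMul k : (pr f).ker) : Ext f)))
      (by
        intro a b
        show Multiplicative.toAdd (ab f (((Additive.toMul a * Additive.toMul b : (pr f).ker)) : Ext f)) = _
        rw [Subgroup.coe_mul, map_mul, toAdd_mul]))

theorem alpha_apply (f : FreeGroup ι →* Q) (k : (pr f).ker) :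
    alpha f (Additive.ofMul k) = Multiplicative.toAdd (ab f (k : Ext f)) := rfl

theorem alpha_eq_zero_iff (f : FreeGroup ι →* Q) (k : (pr f).ker) :
    alpha f (Additive.ofMul k) = 0 ↔ (k : Ext f) ∈ M f := by
  rw [mem_M_iff]
  constructor
  · intro h
    exact ⟨k.2, h⟩
  · intro h
    exact h.2

theorem ab_surjective (f : FreeGroup ι →* Q) : Function.Surjective (ab f) := by
  have key : ∀ y : ι →₀ ℤ, ∃ x, ab f x = Multiplicative.ofAdd y := by
    intro y
    induction y using Finsupp.induction_linear with
    | zero => exact ⟨1, map_one _⟩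
    | add a b ha hb =>
      obtain ⟨x, hx⟩ := ha
      obtain ⟨y, hy⟩ := hb
      exact ⟨x * y, by rw [map_mul, hx, hy]; rfl⟩
    | single i n =>
      refine ⟨(QuotientGroup.mk (FreeGroup.of i) : Ext f) ^ n, ?_⟩
      rw [map_zpow]
      show (abF ι (FreeGroup.of i)) ^ n = _
      rw [abF, FreeGroup.lift_apply_of, ← ofAdd_zsmul, Finsupp.smul_single, smul_eq_mul, mul_one]
  intro y
  exact key (Multiplicative.toAdd y)

/-- the image of the kernel in `ℤ^ι` -/
noncomputable abbrev N (f : FreeGroup ι →* Q) : Submodule ℤ (ι →₀ ℤ) := LinearMap.range (alpha f)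

theorem mem_N_of_mem_ker (f : FreeGroup ι →* Q) {x : Ext f} (hx : x ∈ (pr f).ker) :
    Multiplicative.toAdd (ab f x) ∈ N f := ⟨Additive.ofMul ⟨x, hx⟩, rfl⟩

theorem finite_quotient (f : FreeGroup ι →* Q) (hf : Function.Surjective f) [Finite Q] :
    Finite ((ι →₀ ℤ) ⧸ N f) := by
  choose s hs using pr_surjective hf
  apply Finite.of_surjective (fun q => Submodule.Quotient.mk (Multiplicative.toAdd (ab f (s q))) :
    Q → (ι →₀ ℤ) ⧸ N f)
  intro y
  obtain ⟨y, rfl⟩ := Submodule.Quotient.mk_surjective _ y
  obtain ⟨x, hx⟩ := ab_surjective f (Multiplicative.ofAdd y)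
  refine ⟨pr f x, ?_⟩
  rw [Submodule.Quotient.eq]
  have h1 : (s (pr f x)) * x⁻¹ ∈ (pr f).ker := by
    rw [MonoidHom.mem_ker, map_mul, hs, map_inv, mul_inv_cancel]
  have h2 := mem_N_of_mem_ker f h1
  rw [map_mul, map_inv, hx, toAdd_mul, toAdd_inv, toAdd_ofAdd, ← sub_eq_add_neg] at h2
  exact h2

theorem finrank_N (f : FreeGroup ι →* Q) (hf : Function.Surjective f) [Finite Q] [Finite ι] :
    Module.finrank ℤ (N f) = Module.finrank ℤ (ι →₀ ℤ) :=
  (Submodule.finiteQuotient_iff (N f)).1 (finite_quotient f hf)

/-- `Qᵃᵇ ≃ ℤ^ι ⧸ N`, as a statement on cardinalities. -/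
theorem card_quotient (f : FreeGroup ι →* Q) (hf : Function.Surjective f) :
    Nat.card ((ι →₀ ℤ) ⧸ N f) = Nat.card (Abelianization Q) := by
  -- the map `Ext f → ℤ^ι ⧸ N`
  let γ : Ext f →* Multiplicative ((ι →₀ ℤ) ⧸ N f) :=
    (AddMonoidHom.toMultiplicative (N f).mkQ.toAddMonoidHom).comp (ab f)
  have hγs : Function.Surjective γ := by
    intro y
    obtain ⟨y', hy'⟩ := Submodule.Quotient.mk_surjective _ (Multiplicative.toAdd y)
    obtain ⟨x, hx⟩ := ab_surjective f (Multiplicative.ofAdd y')
    refine ⟨x, ?_⟩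
    show Multiplicative.ofAdd (Submodule.Quotient.mk (Multiplicative.toAdd (ab f x))) = y
    rw [hx, toAdd_ofAdd, hy']
    rfl
  let δ : Ext f →* Abelianization Q := Abelianization.of.comp (pr f)
  have hδs : Function.Surjective δ :=
    (QuotientGroup.mk_surjective).comp (pr_surjective hf)
  have hker : γ.ker = δ.ker := by
    ext x
    rw [MonoidHom.mem_ker, MonoidHom.mem_ker]
    have h1 : γ x = 1 ↔ Multiplicative.toAdd (ab f x) ∈ N f :=
      Submodule.Quotient.mk_eq_zero (N f)
    have h2 : δ x = 1 ↔ pr f x ∈ commutator Q := by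
      rw [← Abelianization.ker_of, MonoidHom.mem_ker]; rfl
    rw [h1, h2]
    constructor
    · rintro ⟨k, hk⟩
      have h3 : ((Additive.toMul k : (pr f).ker) : Ext f)⁻¹ * x ∈ (ab f).ker := by
        rw [MonoidHom.mem_ker, map_mul, map_inv]
        have h4 : ab f ((Additive.toMul k : (pr f).ker) : Ext f) = ab f x := hk
        rw [h4, inv_mul_cancel]
      rw [ker_ab] at h3
      have h5 : pr f (((Additive.toMul k : (pr f).ker) : Ext f)⁻¹ * x) ∈ commutator Q := by
        have h6 : (commutator (Ext f)).map (pr f) ≤ commutator Q := by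
          rw [commutator_def, Subgroup.map_commutator, commutator_def]
          exact Subgroup.commutator_mono le_top le_top
        exact h6 ⟨_, h3, rfl⟩
      rw [map_mul, map_inv] at h5
      have h7 : pr f ((Additive.toMul k : (pr f).ker) : Ext f) = 1 := (Additive.toMul k).2
      rwa [h7, inv_one, one_mul] at h5
    · intro h
      have h6 : (commutator (Ext f)).map (pr f) = commutator Q := by
        rw [commutator_def, Subgroup.map_commutator, commutator_def,
          Subgroup.map_top_of_surjective _ (pr_surjective hf)]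
      rw [← h6] at h
      obtain ⟨c, hc, hcx⟩ := h
      have h7 : x * c⁻¹ ∈ (pr f).ker := by
        rw [MonoidHom.mem_ker, map_mul, map_inv, hcx, mul_inv_cancel]
      have h8 := mem_N_of_mem_ker f h7
      have h9 : ab f c = 1 := by
        have : c ∈ (ab f).ker := by rw [ker_ab]; exact hc
        exact this
      rwa [map_mul, map_inv, h9, inv_one, mul_one] at h8
  have e1 := QuotientGroup.quotientKerEquivOfSurjective γ hγs
  have e2 := QuotientGroup.quotientKerEquivOfSurjective δ hδs
  have c1 : Nat.card (Multiplicative ((ι →₀ ℤ) ⧸ N f)) = Nat.card (Ext f ⧸ γ.ker) :=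
    (Nat.card_congr e1.toEquiv).symm
  have c2 : Nat.card (Abelianization Q) = Nat.card (Ext f ⧸ δ.ker) :=
    (Nat.card_congr e2.toEquiv).symm
  rw [c2, ← hker, ← c1]
  rfl

/-- A group which is an image of a free `ℤ`-module of rank `k` has rank at most `k`. -/
theorem rank_le_finrank {V : Type u} [AddCommGroup V] [Module.Free ℤ V] [Module.Finite ℤ V]
    {G : Type v} [Group G] [Group.FG G] (φ : Multiplicative V →* G) (hφ : Function.Surjective φ) :
    Group.rank G ≤ Module.finrank ℤ V := by
  classical
  let b := Module.finBasis ℤ V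
  let S : Finset G := Finset.univ.image (fun i => φ (Multiplicative.ofAdd (b i)))
  have hS : Subgroup.closure (S : Set G) = ⊤ := by
    rw [eq_top_iff]
    intro g _
    obtain ⟨v, rfl⟩ := hφ g
    have key : ∀ w : V, φ (Multiplicative.ofAdd w) ∈ Subgroup.closure (S : Set G) := by
      intro w
      have hw : w ∈ Submodule.span ℤ (Set.range b) := by
        rw [b.span_eq]; exact Submodule.mem_top
      induction hw using Submodule.span_induction with
      | mem x hx =>
        obtain ⟨i, rfl⟩ := hx
        apply Subgroup.subset_closure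
        simp [S]
      | zero =>
        rw [ofAdd_zero, map_one]
        exact Subgroup.one_mem _
      | add x y _ _ hx hy =>
        rw [ofAdd_add, map_mul]
        exact Subgroup.mul_mem _ hx hy
      | smul a x _ hx =>
        rw [ofAdd_zsmul, map_zpow]
        exact Subgroup.zpow_mem _ hx _
    exact key (Multiplicative.toAdd v)
  refine (Group.rank_le hS).trans ?_
  refine Finset.card_image_le.trans ?_
  simp

end H69.SchurRank
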