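import Mathlib
import Cfsg.Prelude.Def_KGroupFacts
import Cfsg.Agent.Lib.H69.SchurRank
import Cfsg.Agent.S3974

/-!
Lifting of projective representations to Schur covers and its converse.
-/

set_option autoImplicit false

open scoped commutatorElement

namespace H69.SchurProj

open H69.SchurUniv H69.SchurCover H69.SchurRank

universe u v w x

/-- Homs from a free central extension: a hom on a complement with values in a divisible central
subgroup extends to the whole group. -/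
theorem exists_extension {ι : Type u} {Q : Type v} [Group Q] (f : FreeGroup ι →* Q)
    (S : Subgroup (Ext f)) (hS : S ≤ (pr f).ker) (h1 : S ⊓ M f = ⊥) (h2 : S ⊔ M f = (pr f).ker)
    (D : Type w) [CommGroup D] (hD : ∀ (n : ℕ), n ≠ 0 → ∀ d : D, ∃ e : D, e ^ n = d)
    (ψ : S →* D) : ∃ t : Ext f →* D, ∀ s : S, t (s : Ext f) = ψ s := by
  obtain ⟨π, hπ, hπ'⟩ := Cfsg.Agent.S3974.exists_proj f S hS h1 h2
  let ρ : (pr f).ker →* S := MonoidHom.mk' (fun k => ⟨(k : Ext f) * ((π k : M f) : Ext f)⁻¹, hπ k⟩) (by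
    intro a b
    apply Subtype.ext
    show ((a * b : (pr f).ker) : Ext f) * ((π (a * b) : M f) : Ext f)⁻¹ =
      ((a : Ext f) * ((π a : M f) : Ext f)⁻¹) * ((b : Ext f) * ((π b : M f) : Ext f)⁻¹)
    rw [map_mul, Subgroup.coe_mul, Subgroup.coe_mul, mul_inv_rev]
    have h4 := ker_pr_comm f (Subgroup.inv_mem _ (π a).2.1) ((b : Ext f) * (π b : Ext f)⁻¹)
    calc (a : Ext f) * b * ((π b : Ext f)⁻¹ * (π a : Ext f)⁻¹)
        = (a : Ext f) * ((b : Ext f) * (π b : Ext f)⁻¹ * (π a : Ext f)⁻¹) := by group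
      _ = (a : Ext f) * ((π a : Ext f)⁻¹ * ((b : Ext f) * (π b : Ext f)⁻¹)) := by rw [h4]
      _ = _ := by group)
  let δ : Additive (pr f).ker →+ Additive D := MonoidHom.toAdditive (ψ.comp ρ)
  obtain ⟨g, hg⟩ := Cfsg.Agent.S3974.exists_factor f (Additive D) δ (by
    rintro ⟨k, hk⟩ hkM
    show Additive.ofMul (ψ (ρ ⟨k, hk⟩)) = 0
    have h3 : ρ ⟨k, hk⟩ = 1 := by
      apply Subtype.ext
      show k * ((π ⟨k, hk⟩ : M f) : Ext f)⁻¹ = 1
      have h4 := hπ' k hkM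
      rw [h4, mul_inv_cancel]
    rw [h3, map_one]
    rfl)
  have hdiv : ∀ {n : ℤ}, n ≠ 0 → Function.Surjective (fun a : Additive D => n • a) := by
    intro n hn a
    have hn' : n.natAbs ≠ 0 := Int.natAbs_ne_zero.2 hn
    obtain ⟨e, he⟩ := hD n.natAbs hn' (Additive.toMul a)
    rcases Int.natAbs_eq n with h | h
    · refine ⟨Additive.ofMul e, ?_⟩
      show n • Additive.ofMul e = a
      rw [h, natCast_zsmul]
      exact congrArg Additive.ofMul he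
    · refine ⟨-Additive.ofMul e, ?_⟩
      show n • (-Additive.ofMul e) = a
      rw [h, neg_smul_neg, natCast_zsmul]
      exact congrArg Additive.ofMul he
  let _ : DivisibleBy (Additive D) ℤ := divisibleByOfSMulRightSurj _ _ hdiv
  obtain ⟨h, hh⟩ := (Module.Baer.of_divisible (Additive D)).extension_property (N f).subtype
    (Submodule.injective_subtype _) g
  refine ⟨(AddMonoidHom.toMultiplicativeLeft h.toAddMonoidHom).comp (ab f), ?_⟩
  rintro ⟨s, hs⟩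
  have h5 := LinearMap.congr_fun hh ⟨alpha f (Additive.ofMul ⟨s, hS hs⟩), ⟨_, rfl⟩⟩
  rw [hg ⟨s, hS hs⟩] at h5
  have h6 : ρ ⟨s, hS hs⟩ = ⟨s, hs⟩ := by
    apply Subtype.ext
    show s * ((π ⟨s, hS hs⟩ : M f) : Ext f)⁻¹ = s
    have h7 : ((π ⟨s, hS hs⟩ : M f) : Ext f) ∈ S ⊓ M f := by
      refine ⟨?_, Subtype.prop _⟩
      have h8 : ((π ⟨s, hS hs⟩ : M f) : Ext f) = (s * ((π ⟨s, hS hs⟩ : M f) : Ext f)⁻¹)⁻¹ * s := by
        group
      rw [h8]
      exact Subgroup.mul_mem _ (Subgroup.inv_mem _ (hπ ⟨s, hS hs⟩)) hs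
    rw [h1, Subgroup.mem_bot] at h7
    rw [h7, inv_one, mul_one]
  have h9 : δ (Additive.ofMul ⟨s, hS hs⟩) = Additive.ofMul (ψ ⟨s, hs⟩) := by
    show Additive.ofMul (ψ (ρ ⟨s, hS hs⟩)) = _
    rw [h6]
  rw [h9] at h5
  exact h5

/-- **Lifting**: homs from `Q` to `Y` lift along a Schur cover of `Q` to any central extension of `Y`
with divisible kernel. -/
theorem exists_lift_cover {Q : Type u} [Group Q] [Finite Q] {A : Type v} [CommGroup A]
    (hA : Cfsg.HasSchurMultiplier Q A) {Γ : Type w} [Group Γ] (σ : Γ →* Q)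
    (hσ : Cfsg.IsStemExtension σ) (hk : Nonempty (σ.ker ≃* A)) {X : Type x} {Y : Type*} [Group X]
    [Group Y] (τ : X →* Y) (hτ : Function.Surjective τ) (hc : τ.ker ≤ Subgroup.center X)
    (hD : ∀ (n : ℕ), n ≠ 0 → ∀ d ∈ τ.ker, ∃ e ∈ τ.ker, e ^ n = d) (γ : Q →* Y) :
    ∃ ρ : Γ →* X, τ.comp ρ = γ.comp σ := by
  let f := canon Q
  have hf : Function.Surjective f := canon_surjective Q
  obtain ⟨eA⟩ := nonempty_equiv_M hA f hf
  obtain ⟨e₁⟩ := hk
  obtain ⟨φ₁, hφ₁⟩ := exists_lift f σ hσ.1 hσ.2.1 (MonoidHom.id Q)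
  have hc1 : Nat.card (M f) ≤ Nat.card σ.ker :=
    (Nat.card_congr (e₁.trans eA).toEquiv).ge
  obtain ⟨a1, a2, a3⟩ := ker_lift_complement f hf σ hσ hc1 φ₁ hφ₁
  obtain ⟨φ, hφ⟩ := exists_lift f τ hτ hc γ
  have hφ' : ∀ e, τ (φ e) = γ (pr f e) := fun e => DFunLike.congr_fun hφ e
  have hφ₁' : ∀ e, σ (φ₁ e) = pr f e := fun e => DFunLike.congr_fun hφ₁ e
  have hcomm : ∀ a b : τ.ker, a * b = b * a := fun a b =>
    Subtype.ext (Subgroup.mem_center_iff.1 (hc b.2) a)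
  let _ : CommGroup τ.ker := { (inferInstance : Group τ.ker) with mul_comm := hcomm }
  let ψ : φ₁.ker →* τ.ker := (φ.comp φ₁.ker.subtype).codRestrict τ.ker (by
    intro s
    rw [MonoidHom.mem_ker]
    show τ (φ s) = 1
    rw [hφ', MonoidHom.mem_ker.1 (a1 s.2), map_one])
  obtain ⟨t, ht⟩ := exists_extension f φ₁.ker a1 a2 a3 τ.ker (by
    intro n hn d
    obtain ⟨e, he, hed⟩ := hD n hn d d.2
    exact ⟨⟨e, he⟩, Subtype.ext hed⟩) ψ
  let θ : Ext f →* X := MonoidHom.mk' (fun x => φ x * ((t x : τ.ker) : X)⁻¹) (by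
    intro x y
    rw [map_mul, map_mul, Subgroup.coe_mul, mul_inv_rev]
    have h1 : φ y * ((t x : τ.ker) : X)⁻¹ = ((t x : τ.ker) : X)⁻¹ * φ y :=
      Subgroup.mem_center_iff.1 (Subgroup.inv_mem _ (hc (t x).2)) (φ y)
    have h2 : ((t y : τ.ker) : X)⁻¹ * ((t x : τ.ker) : X)⁻¹ = ((t x : τ.ker) : X)⁻¹ * ((t y : τ.ker) : X)⁻¹ :=
      Subgroup.mem_center_iff.1 (Subgroup.inv_mem _ (hc (t x).2)) _
    rw [h2]
    calc φ x * φ y * (((t x : τ.ker) : X)⁻¹ * ((t y : τ.ker) : X)⁻¹)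
        = φ x * (φ y * ((t x : τ.ker) : X)⁻¹) * ((t y : τ.ker) : X)⁻¹ := by group
      _ = φ x * (((t x : τ.ker) : X)⁻¹ * φ y) * ((t y : τ.ker) : X)⁻¹ := by rw [h1]
      _ = _ := by group)
  have hθ : φ₁.ker ≤ θ.ker := by
    intro s hs
    rw [MonoidHom.mem_ker]
    show φ s * ((t s : τ.ker) : X)⁻¹ = 1
    have h1 : t s = ψ ⟨s, hs⟩ := ht ⟨s, hs⟩
    rw [h1]
    exact mul_inv_cancel (φ s)
  have hφ₁s := surjective_of_stem (pr f) (pr_surjective hf) σ hσ φ₁ hφ₁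
  refine ⟨φ₁.liftOfSurjective hφ₁s ⟨θ, hθ⟩, ?_⟩
  ext g
  obtain ⟨x, rfl⟩ := hφ₁s g
  rw [MonoidHom.comp_apply, MonoidHom.comp_apply, hφ₁']
  have h1 : (φ₁.liftOfSurjective hφ₁s ⟨θ, hθ⟩) (φ₁ x) = θ x :=
    MonoidHom.liftOfRightInverse_comp_apply φ₁ _ _ ⟨θ, hθ⟩ x
  rw [h1]
  show τ (φ x * ((t x : τ.ker) : X)⁻¹) = _
  rw [map_mul, map_inv, hφ', MonoidHom.mem_ker.1 (t x).2, inv_one, mul_one]

/-- `GL n ℂ` has divisible centre. -/
theorem center_GL_divisible (n : ℕ) (m : ℕ) (hm : m ≠ 0) (d : GL (Fin n) ℂ)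
    (hd : d ∈ Subgroup.center (GL (Fin n) ℂ)) :
    ∃ e ∈ Subgroup.center (GL (Fin n) ℂ), e ^ m = d := by
  rw [Matrix.GeneralLinearGroup.center_eq_range_scalar] at hd ⊢
  obtain ⟨a, rfl⟩ := hd
  obtain ⟨z, hz⟩ := IsAlgClosed.exists_pow_nat_eq (a : ℂ) (Nat.pos_of_ne_zero hm)
  have hz0 : z ≠ 0 := by
    rintro rfl
    rw [zero_pow hm] at hz
    exact a.ne_zero hz.symm
  refine ⟨Matrix.GeneralLinearGroup.scalar (Fin n) (Units.mk0 z hz0), ⟨_, rfl⟩, ?_⟩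
  rw [← map_pow]
  congr 1
  apply Units.ext
  simpa using hz

/-- **S3955**: projective representations lift to Schur covers. -/
theorem projective_lift {Q : Type*} [Group Q] [Finite Q] {A : Type*} [CommGroup A]
    (hA : Cfsg.HasSchurMultiplier Q A) {Γ : Type*} [Group Γ] (σ : Γ →* Q)
    (hσ : Cfsg.IsStemExtension σ) (hk : Nonempty (σ.ker ≃* A)) (n : ℕ)
    (γ : Q →* (GL (Fin n) ℂ ⧸ Subgroup.center (GL (Fin n) ℂ))) :
    ∃ ρ : Γ →* GL (Fin n) ℂ,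
      (QuotientGroup.mk' (Subgroup.center (GL (Fin n) ℂ))).comp ρ = γ.comp σ := by
  apply exists_lift_cover hA σ hσ hk _ (QuotientGroup.mk'_surjective _)
  · rw [QuotientGroup.ker_mk']
  · rw [QuotientGroup.ker_mk']
    exact fun m hm d hd => center_GL_divisible n m hm d hd

end H69.SchurProj
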