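import Mathlib
import Cfsg.Prelude.Def_KGroupFacts
import Cfsg.Agent.Lib.H69.SchurCover

/-!
A stem extension along which all projective representations lift is a Schur cover.
-/

set_option autoImplicit false

open scoped commutatorElement

namespace H69.SchurProjConv

open H69.SchurUniv H69.SchurCover

universe u v w x

/-- Monomial representation induced from a linear character of a central kernel. -/
theorem exists_monomial {Γ : Type u} {Q : Type v} [Group Γ] [Group Q] [Finite Q] (p : Γ →* Q)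
    (hp : Function.Surjective p) (hc : p.ker ≤ Subgroup.center Γ) (lam : p.ker →* ℂˣ) :
    ∃ (n : ℕ) (_ : 0 < n) (ρ : Γ →* GL (Fin n) ℂ),
      ∀ z : p.ker, ρ (z : Γ) = Matrix.GeneralLinearGroup.scalar (Fin n) (lam z) := by
  classical
  have : Fintype Q := Fintype.ofFinite Q
  choose s hs using hp
  have hm : ∀ (g : Γ) (q : Q), (s (p g * q))⁻¹ * g * s q ∈ p.ker := by
    intro g q
    rw [MonoidHom.mem_ker, map_mul, map_mul, map_inv, hs, hs]
    group
  let m : Γ → Q → p.ker := fun g q => ⟨_, hm g q⟩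
  have hm' : ∀ g q, g * s q = s (p g * q) * (m g q : Γ) := by
    intro g q
    show g * s q = s (p g * q) * ((s (p g * q))⁻¹ * g * s q)
    group
  have hmul : ∀ g h q, m (g * h) q = m g (p h * q) * m h q := by
    intro g h q
    apply Subtype.ext
    show (s (p (g * h) * q))⁻¹ * (g * h) * s q =
      ((s (p g * (p h * q)))⁻¹ * g * s (p h * q)) * ((s (p h * q))⁻¹ * h * s q)
    rw [map_mul, mul_assoc (p g)]
    group
  let R : Γ →* Matrix Q Q ℂ :=
    { toFun := fun g => Matrix.of (fun q' q => if q' = p g * q then ((lam (m g q) : ℂˣ) : ℂ) else 0)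
      map_one' := by
        ext q' q
        rw [Matrix.of_apply, map_one, one_mul, Matrix.one_apply]
        have h1 : m 1 q = 1 := by
          apply Subtype.ext
          show (s (p 1 * q))⁻¹ * 1 * s q = 1
          rw [map_one, one_mul]
          group
        rw [h1, map_one]
        simp
      map_mul' := by
        intro g h
        ext q'' q
        rw [Matrix.mul_apply, Matrix.of_apply, Finset.sum_eq_single (p h * q)]
        · rw [Matrix.of_apply, Matrix.of_apply, if_pos rfl, hmul, map_mul, map_mul, mul_assoc]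
          by_cases h1 : q'' = p g * (p h * q)
          · rw [if_pos h1, if_pos h1, Units.val_mul]
          · rw [if_neg h1, if_neg h1, zero_mul]
        · intro q' _ hq'
          rw [Matrix.of_apply, Matrix.of_apply, if_neg hq', mul_zero]
        · intro h1
          exact absurd (Finset.mem_univ _) h1 }
  have hR : ∀ z : p.ker, R (z : Γ) = Matrix.scalar Q ((lam z : ℂˣ) : ℂ) := by
    intro z
    ext q' q
    show (if q' = p z * q then ((lam (m z q) : ℂˣ) : ℂ) else 0) = _
    rw [MonoidHom.mem_ker.1 z.2, one_mul]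
    have h1 : m z q = z := by
      apply Subtype.ext
      show (s (p z * q))⁻¹ * z * s q = z
      rw [MonoidHom.mem_ker.1 z.2, one_mul, mul_assoc, ← Subgroup.mem_center_iff.1 (hc z.2) (s q)]
      group
    rw [h1, Matrix.scalar_apply, Matrix.diagonal_apply]
  let e := Fintype.equivFin Q
  refine ⟨Fintype.card Q, Fintype.card_pos, MonoidHom.toHomUnits
    (((Matrix.reindexRingEquiv ℂ e).toMonoidHom).comp R), ?_⟩
  intro z
  apply Units.ext
  show Matrix.reindex e e (R z) = Matrix.scalar (Fin (Fintype.card Q)) ((lam z : ℂˣ) : ℂ)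
  rw [hR]
  ext i j
  simp [Matrix.scalar_apply, Matrix.diagonal_apply]

/-- **S3956**: if all projective representations lift along the finite stem extension `σ`, then `σ` is a
Schur cover. -/
theorem cover_of_lift {Q : Type u} [Group Q] [Finite Q] {Γ : Type v} [Group Γ]
    (σ : Γ →* Q) (hσ : Cfsg.IsStemExtension σ)
    (hlift : ∀ (n : ℕ) (γ : Q →* (GL (Fin n) ℂ ⧸ Subgroup.center (GL (Fin n) ℂ))),
      ∃ ρ : Γ →* GL (Fin n) ℂ,
        (QuotientGroup.mk' (Subgroup.center (GL (Fin n) ℂ))).comp ρ = γ.comp σ)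
    (Δ : Type u) [Group Δ] [Finite Δ] (τ : Δ →* Q) (hτ : Cfsg.IsStemExtension τ) :
    ∃ π : σ.ker →* τ.ker, Function.Surjective π := by
  have hf := canon_surjective Q
  obtain ⟨φ, S, hφ, hφs, hS1, hS2, hS3, hS4⟩ := exists_complement_lift (canon Q) hf σ hσ
  have := normal_of_le_ker (canon Q) hS2
  let β : Ext (canon Q) ⧸ S →* Γ := QuotientGroup.lift S φ (fun _ hx => hS1 hx)
  have hβs : Function.Surjective β := by
    intro d
    obtain ⟨x, rfl⟩ := hφs d
    exact ⟨QuotientGroup.mk x, rfl⟩
  have hβ : σ.comp β = prS (canon Q) S hS2 := by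
    apply QuotientGroup.monoidHom_ext
    rw [MonoidHom.comp_assoc]
    exact hφ
  have hβ' : ∀ x, σ (β x) = prS (canon Q) S hS2 x := fun x => DFunLike.congr_fun hβ x
  have hst := prS_stem (canon Q) hf S hS2 hS4
  have hker : β.ker ≤ (prS (canon Q) S hS2).ker := by
    intro x hx
    rw [MonoidHom.mem_ker, ← hβ, MonoidHom.comp_apply, MonoidHom.mem_ker.1 hx, map_one]
  have hβker : β.ker = ⊥ := by
    rw [Subgroup.eq_bot_iff_forall]
    intro x hx
    by_contra hx1
    set p := prS (canon Q) S hS2 with hp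
    have hcomm : ∀ a b : p.ker, a * b = b * a := fun a b =>
      Subtype.ext (Subgroup.mem_center_iff.1 (hst.2.1 b.2) a)
    let _ : CommGroup p.ker := { (inferInstance : Group p.ker) with mul_comm := hcomm }
    have hfin : Finite (Ext (canon Q) ⧸ S) := finite_quot (canon Q) S hS2 hS4
    have hne : (⟨x, hker hx⟩ : p.ker) ≠ 1 := fun h => hx1 (congrArg Subtype.val h)
    obtain ⟨lam, hlam⟩ := CommGroup.exists_apply_ne_one_of_hasEnoughRootsOfUnity p.ker ℂ hne
    obtain ⟨n, hn, ρ, hρ⟩ := exists_monomial p hst.1 hst.2.1 lam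
    have hkle : p.ker ≤ ((QuotientGroup.mk' (Subgroup.center (GL (Fin n) ℂ))).comp ρ).ker := by
      intro z hz
      rw [MonoidHom.mem_ker, MonoidHom.comp_apply]
      show (QuotientGroup.mk (ρ z) : GL (Fin n) ℂ ⧸ _) = 1
      rw [QuotientGroup.eq_one_iff, hρ ⟨z, hz⟩, Matrix.GeneralLinearGroup.center_eq_range_scalar]
      exact ⟨_, rfl⟩
    let γ := p.liftOfSurjective hst.1 ⟨_, hkle⟩
    have hγ : ∀ z, γ (p z) = QuotientGroup.mk' (Subgroup.center (GL (Fin n) ℂ)) (ρ z) := by
      intro z
      exact MonoidHom.liftOfRightInverse_comp_apply p _ _ ⟨_, hkle⟩ z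
    obtain ⟨ρ₁, hρ₁⟩ := hlift n γ
    have hρ₁' : ∀ z, QuotientGroup.mk' (Subgroup.center (GL (Fin n) ℂ)) (ρ₁ z) = γ (σ z) :=
      fun z => DFunLike.congr_fun hρ₁ z
    have heq : commutator (Ext (canon Q) ⧸ S) ≤ ρ.eqLocus (ρ₁.comp β) := by
      rw [commutator_def, Subgroup.commutator_le]
      intro a _ b _
      show ρ ⁅a, b⁆ = (ρ₁.comp β) ⁅a, b⁆
      rw [map_commutatorElement, map_commutatorElement]
      have hab : ∀ a, QuotientGroup.mk' (Subgroup.center (GL (Fin n) ℂ)) (ρ a) =
          QuotientGroup.mk' (Subgroup.center (GL (Fin n) ℂ)) ((ρ₁.comp β) a) := by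
        intro a
        rw [MonoidHom.comp_apply, hρ₁', hβ', ← hγ]
      exact commutator_eq_of_map_eq (QuotientGroup.mk' (Subgroup.center (GL (Fin n) ℂ)))
        (by rw [QuotientGroup.ker_mk']) (hab a) (hab b)
    have h1 : ρ x = (ρ₁.comp β) x := heq (hst.2.2 (hker hx))
    rw [MonoidHom.comp_apply, MonoidHom.mem_ker.1 hx, map_one, hρ ⟨x, hker hx⟩] at h1
    apply hlam
    have h2 := congrArg (fun M : GL (Fin n) ℂ => (M : Matrix (Fin n) (Fin n) ℂ) ⟨0, hn⟩ ⟨0, hn⟩) h1
    apply Units.ext
    simpa using h2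
  have hβi : Function.Injective β := (MonoidHom.ker_eq_bot_iff β).1 hβker
  have hφ' : ∀ e, σ (φ e) = pr (canon Q) e := fun e => DFunLike.congr_fun hφ e
  let ψ : M (canon Q) →* σ.ker := (φ.comp (M (canon Q)).subtype).codRestrict σ.ker (by
    intro m
    rw [MonoidHom.mem_ker]
    show σ (φ m) = 1
    rw [hφ']
    exact m.2.1)
  have h1 := map_ker_inf_commutator (pr (canon Q)) (pr_surjective hf) σ hσ.2.1 φ hφ
  rw [inf_eq_left.2 hσ.2.2] at h1
  have hψ : Function.Bijective ψ := by
    constructor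
    · rw [injective_iff_map_eq_one]
      intro m hm
      have h2 : φ m = 1 := congrArg Subtype.val hm
      have h3 : β (QuotientGroup.mk (m : Ext (canon Q))) = β 1 := by
        rw [map_one]; exact h2
      have h4 := hβi h3
      rw [QuotientGroup.eq_one_iff] at h4
      have h5 : (m : Ext (canon Q)) ∈ S ⊓ M (canon Q) := ⟨h4, m.2⟩
      rw [hS3, Subgroup.mem_bot] at h5
      exact Subtype.ext h5
    · rintro ⟨y, hy⟩
      rw [← h1] at hy
      obtain ⟨m, hm, rfl⟩ := hy
      exact ⟨⟨m, hm⟩, rfl⟩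
  let e := MulEquiv.ofBijective ψ hψ
  obtain ⟨π', hπ'⟩ := (exists_hasSchurMultiplier Q).2 Δ τ hτ
  exact ⟨π'.comp e.symm.toMonoidHom, hπ'.comp e.symm.surjective⟩

end H69.SchurProjConv
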