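import Mathlib
import Cfsg.Agent.Lib.H4.Burnside
import Cfsg.Agent.Lib.H11.MinNormal
import Cfsg.Agent.Lib.H1.FrobSyl
import Cfsg.Agent.Lib.H1.Cores
import Cfsg.Agent.Lib.H73.SolvSmall
import Cfsg.Prelude.Def_Transfer

/-!
Finite groups all of whose elements satisfy `g ^ 4 = 1` or `g ^ 3 = 1`.
-/

set_option autoImplicit false

open Cfsg

namespace H69.Spec23

universe u

variable {G : Type u} [Group G]

/-- the hypothesis. -/
def S (G : Type u) [Group G] : Prop := ∀ g : G, g ^ 4 = 1 ∨ g ^ 3 = 1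

theorem eq_one_of {g : G} (h4 : g ^ 4 = 1) (h3 : g ^ 3 = 1) : g = 1 := by
  have : g ^ 4 = g ^ 3 * g := by rw [pow_succ]
  rw [h4, h3, one_mul] at this
  exact this.symm

theorem S.eq_one (hS : S G) {g h : G} (hc : g * h = h * g) (hg : g ^ 4 = 1) (hh : h ^ 3 = 1) :
    g = 1 ∨ h = 1 := by
  have hcomm : Commute g h := hc
  rcases hS (g * h) with h1 | h1
  · rw [hcomm.mul_pow, hg, one_mul] at h1
    exact Or.inr (eq_one_of h1 hh)
  · rw [hcomm.mul_pow, hh, mul_one] at h1
    exact Or.inl (eq_one_of hg h1)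

theorem S.quotient (hS : S G) (N : Subgroup G) [N.Normal] : S (G ⧸ N) := by
  intro g
  obtain ⟨g, rfl⟩ := QuotientGroup.mk_surjective g
  rcases hS g with h | h
  · left
    rw [← QuotientGroup.mk_pow, h, QuotientGroup.mk_one]
  · right
    rw [← QuotientGroup.mk_pow, h, QuotientGroup.mk_one]

theorem S.subgroup (hS : S G) (H : Subgroup G) : S H := by
  intro g
  rcases hS g with h | h
  · left; exact Subtype.ext (by simpa using h)
  · right; exact Subtype.ext (by simpa using h)

theorem S.card (hS : S G) [Finite G] : ∃ a b : ℕ, Nat.card G = 2 ^ a * 3 ^ b := by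
  have h0 : Nat.card G ≠ 0 := Nat.card_pos.ne'
  refine ⟨(Nat.card G).factorization 2, (Nat.card G).factorization 3, ?_⟩
  apply Nat.eq_of_factorization_eq h0 (by positivity)
  intro q
  rw [Nat.factorization_mul (by positivity) (by positivity), Nat.Prime.factorization_pow Nat.prime_two,
    Nat.Prime.factorization_pow Nat.prime_three, Finsupp.add_apply, Finsupp.single_apply, Finsupp.single_apply]
  by_cases h2 : q = 2
  · subst h2; simp
  by_cases h3 : q = 3
  · subst h3; simp
  rw [if_neg (Ne.symm h2), if_neg (Ne.symm h3)]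
  by_cases hq : q.Prime
  · have hqf : Fact q.Prime := ⟨hq⟩
    rw [add_zero]
    apply Nat.factorization_eq_zero_of_not_dvd
    intro hdvd
    obtain ⟨g, hg⟩ := exists_prime_orderOf_dvd_card' q hdvd
    rcases hS g with h | h
    · have h1 := orderOf_dvd_of_pow_eq_one h
      rw [hg, show (4 : ℕ) = 2 ^ 2 by norm_num] at h1
      exact h2 ((Nat.prime_dvd_prime_iff_eq hq Nat.prime_two).1 (hq.dvd_of_dvd_pow h1))
    · have h1 := orderOf_dvd_of_pow_eq_one h
      rw [hg] at h1
      exact h3 ((Nat.prime_dvd_prime_iff_eq hq Nat.prime_three).1 h1)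
  · rw [add_zero]
    exact Nat.factorization_eq_zero_of_not_prime _ hq

theorem S.isSolvable (hS : S G) [Finite G] : Group.IsSolvable G :=
  H4.Burnside.isSolvable_of_card_eq 2 3 Nat.prime_two Nat.prime_three _ G rfl hS.card

theorem pow_four_of_isPGroup (hS : S G) (H : Subgroup G) (hH : IsPGroup 2 H) (x : G) (hx : x ∈ H) :
    x ^ 4 = 1 := by
  rcases hS x with h | h
  · exact h
  · obtain ⟨k, hk⟩ := hH ⟨x, hx⟩
    have hk' : x ^ 2 ^ k = 1 := congrArg Subtype.val hk
    have h1 : x = 1 := by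
      rw [← orderOf_eq_one_iff]
      have h2 := Nat.dvd_gcd (orderOf_dvd_of_pow_eq_one h) (orderOf_dvd_of_pow_eq_one hk')
      have h3 : Nat.gcd 3 (2 ^ k) = 1 := Nat.Coprime.pow_right _ (by norm_num)
      rw [h3] at h2
      exact Nat.dvd_one.1 h2
    rw [h1, one_pow]

theorem pow_three_of_isPGroup (hS : S G) (H : Subgroup G) (hH : IsPGroup 3 H) (x : G) (hx : x ∈ H) :
    x ^ 3 = 1 := by
  rcases hS x with h | h
  · obtain ⟨k, hk⟩ := hH ⟨x, hx⟩
    have hk' : x ^ 3 ^ k = 1 := congrArg Subtype.val hk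
    have h1 : x = 1 := by
      rw [← orderOf_eq_one_iff]
      have h2 := Nat.dvd_gcd (orderOf_dvd_of_pow_eq_one h) (orderOf_dvd_of_pow_eq_one hk')
      have h3 : Nat.gcd 4 (3 ^ k) = 1 := Nat.Coprime.pow_right _ (by norm_num)
      rw [h3] at h2
      exact Nat.dvd_one.1 h2
    rw [h1, one_pow]
  · exact h

theorem isPGroup_two_of (H : Subgroup G) (h : ∀ x ∈ H, x ^ 4 = 1) : IsPGroup 2 H := by
  intro x
  refine ⟨2, Subtype.ext ?_⟩
  simpa using h x x.2

theorem isPGroup_three_of (H : Subgroup G) (h : ∀ x ∈ H, x ^ 3 = 1) : IsPGroup 3 H := by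
  intro x
  refine ⟨1, Subtype.ext ?_⟩
  simpa using h x x.2

theorem centralizer_normal (N : Subgroup G) [hN : N.Normal] :
    (Subgroup.centralizer (N : Set G)).Normal := by
  infer_instance

section three

variable [Finite G] (hS : S G) (hN1 : pCore 3 G ≠ ⊥)

include hS hN1 in
theorem centralizer_pCore_three : Subgroup.centralizer (pCore 3 G : Set G) ≤ pCore 3 G := by
  obtain ⟨n, hn, hn1⟩ : ∃ n ∈ pCore 3 G, n ≠ 1 := by
    by_contra h
    push Not at h
    exact hN1 ((Subgroup.eq_bot_iff_forall _).2 h)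
  apply H1.Cores.le_pCore inferInstance
  apply isPGroup_three_of
  intro x hx
  rcases hS x with h | h
  · have h1 := Subgroup.mem_centralizer_iff.1 hx n hn
    rcases hS.eq_one h1.symm h (pow_three_of_isPGroup hS _ (H1.Cores.isPGroup_pCore 3) n hn) with h2 | h2
    · rw [h2, one_pow]
    · exact absurd h2 hn1
  · exact h

variable (t : G) (ht : orderOf t = 2)

include hS ht in
theorem inverts : ∀ n ∈ pCore 3 G, t * n * t⁻¹ = n⁻¹ := by
  have hyy : t * t = 1 := by
    have := pow_orderOf_eq_one t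
    rwa [ht, pow_two] at this
  have hyinv : t⁻¹ = t := inv_eq_of_mul_eq_one_right hyy
  have ht1 : t ≠ 1 := by
    rintro rfl
    rw [orderOf_one] at ht
    norm_num at ht
  have ht4 : t ^ 4 = 1 := by
    rw [show (4 : ℕ) = 2 * 2 by norm_num, pow_mul, pow_two t, hyy, one_pow]
  have hyR : ∀ r ∈ pCore 3 G, t * r * t⁻¹ ∈ pCore 3 G := fun r hr =>
    (inferInstance : (pCore 3 G).Normal).conj_mem r hr t
  let φ : pCore 3 G →* pCore 3 G :=
    { toFun := fun r => ⟨t * r * t⁻¹, hyR r r.2⟩
      map_one' := by ext; simp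
      map_mul' := fun a b => by ext; simp }
  have hφfpf : MonoidHom.FixedPointFree φ := by
    intro r hr
    apply Subtype.ext
    have h1 : t * r * t⁻¹ = r := congrArg Subtype.val hr
    have h2 : t * r = r * t := mul_inv_eq_iff_eq_mul.1 h1
    rcases hS.eq_one h2 ht4 (pow_three_of_isPGroup hS _ (H1.Cores.isPGroup_pCore 3) r r.2) with h3 | h3
    · exact absurd h3 ht1
    · exact h3
  have hφinv : Function.Involutive φ := by
    intro r
    apply Subtype.ext
    change t * (t * r * t⁻¹) * t⁻¹ = r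
    rw [hyinv]
    calc t * (t * (r : G) * t) * t = (t * t) * r * (t * t) := by group
      _ = r := by rw [hyy]; group
  intro r hr
  have h1 := congrFun (hφfpf.coe_eq_inv_of_involutive hφinv) ⟨r, hr⟩
  exact congrArg Subtype.val h1

include hS ht in
theorem comm_pCore_three : ∀ m ∈ pCore 3 G, ∀ n ∈ pCore 3 G, m * n = n * m := by
  intro m hm n hn
  have h1 := inverts hS t ht m hm
  have h2 := inverts hS t ht n hn
  have h3 := inverts hS t ht (m * n) (mul_mem hm hn)
  have h4 : t * (m * n) * t⁻¹ = (t * m * t⁻¹) * (t * n * t⁻¹) := by group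
  rw [h4, h1, h2, ← mul_inv_rev, inv_inj] at h3
  exact h3.symm

include hS hN1 ht in
theorem centralizer_pow_four : ∀ g ∈ Subgroup.centralizer ({t} : Set G), g ^ 4 = 1 := by
  intro g hg
  rw [Subgroup.mem_centralizer_singleton_iff] at hg
  rcases hS g with h | h
  · exact h
  · have hyy : t * t = 1 := by
      have := pow_orderOf_eq_one t
      rwa [ht, pow_two] at this
    have ht4 : t ^ 4 = 1 := by
      rw [show (4 : ℕ) = 2 * 2 by norm_num, pow_mul, pow_two t, hyy, one_pow]
    rcases hS.eq_one hg.symm ht4 h with h1 | h1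
    · rw [h1, orderOf_one] at ht
      norm_num at ht
    · rw [h1, one_pow]

include hS hN1 ht in
theorem inf_centralizer : pCore 3 G ⊓ Subgroup.centralizer ({t} : Set G) = ⊥ := by
  rw [Subgroup.eq_bot_iff_forall]
  intro x hx
  exact eq_one_of (centralizer_pow_four hS hN1 t ht x hx.2)
    (pow_three_of_isPGroup hS _ (H1.Cores.isPGroup_pCore 3) x hx.1)

include hS hN1 ht in
theorem sup_centralizer : pCore 3 G ⊔ Subgroup.centralizer ({t} : Set G) = ⊤ := by
  rw [Subgroup.eq_top_iff']
  intro g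
  have hyy : t * t = 1 := by
    have := pow_orderOf_eq_one t
    rwa [ht, pow_two] at this
  have hyinv : t⁻¹ = t := inv_eq_of_mul_eq_one_right hyy
  have hinv := inverts hS t ht
  have hNn : (pCore 3 G).Normal := inferInstance
  -- t⁻¹ g t g⁻¹ centralizes N
  have h1 : t⁻¹ * (g * t * g⁻¹) ∈ pCore 3 G := by
    apply centralizer_pCore_three hS hN1
    rw [Subgroup.mem_centralizer_iff]
    intro n hn
    have h3 : g⁻¹ * n * g ∈ pCore 3 G := by
      have := hNn.conj_mem n hn g⁻¹
      rwa [inv_inv] at this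
    have h4 : ∀ m ∈ pCore 3 G, m * t = t * m⁻¹ := by
      intro m hm
      have := hinv m hm
      rw [hyinv] at this
      calc m * t = (t * t) * m * t := by rw [hyy, one_mul]
        _ = t * (t * m * t) := by group
        _ = t * m⁻¹ := by rw [this]
    rw [hyinv]
    calc n * (t * (g * t * g⁻¹)) = (n * t) * g * t * g⁻¹ := by group
      _ = t * n⁻¹ * g * t * g⁻¹ := by rw [h4 n hn]
      _ = t * g * ((g⁻¹ * n * g)⁻¹ * t) * g⁻¹ := by group
      _ = t * g * (t * (g⁻¹ * n * g)⁻¹⁻¹) * g⁻¹ := by rw [h4 _ (inv_mem h3)]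
      _ = t * (g * t * g⁻¹) * n := by group
  -- m := square root of the inverse
  set n := t⁻¹ * (g * t * g⁻¹) with hn
  have hn3 : n ^ 3 = 1 := pow_three_of_isPGroup hS _ (H1.Cores.isPGroup_pCore 3) n h1
  have h5 : g * t * g⁻¹ = t * n := by rw [hn]; group
  -- with m = n: n t n⁻¹ = t n⁻² = t n
  have h6 : n * t = t * n⁻¹ := by
    have := hinv n h1
    rw [hyinv] at this
    calc n * t = (t * t) * n * t := by rw [hyy, one_mul]
      _ = t * (t * n * t) := by group
      _ = t * n⁻¹ := by rw [this]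
  have h7 : n * t * n⁻¹ = t * n := by
    rw [h6, mul_assoc]
    congr 1
    have : n⁻¹ * n⁻¹ = n := by
      calc n⁻¹ * n⁻¹ = n ^ 3 * n⁻¹ * n⁻¹ := by rw [hn3, one_mul]
        _ = n := by group
    exact this
  have h8 : n⁻¹ * g ∈ Subgroup.centralizer ({t} : Set G) := by
    rw [Subgroup.mem_centralizer_singleton_iff]
    have h9 : g * t = n * t * n⁻¹ * g := by
      rw [h7, ← h5]; group
    calc n⁻¹ * g * t = n⁻¹ * (g * t) := by group
      _ = n⁻¹ * (n * t * n⁻¹ * g) := by rw [h9]
      _ = t * (n⁻¹ * g) := by group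
  have h10 : g = n * (n⁻¹ * g) := by group
  rw [h10]
  exact mul_mem (Subgroup.mem_sup_left h1) (Subgroup.mem_sup_right h8)

include hS hN1 ht in
theorem isComplement : Subgroup.IsComplement' (pCore 3 G) (Subgroup.centralizer ({t} : Set G)) := by
  apply Subgroup.isComplement'_of_disjoint_and_mul_eq_univ
  · rw [disjoint_iff]; exact inf_centralizer hS hN1 t ht
  · rw [← Subgroup.normal_mul, sup_centralizer hS hN1 t ht]
    rfl

include hS hN1 ht in
/-- `t` is the only involution commuting with `t`. -/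
theorem eq_of_involution (s : G) (hs : s ∈ Subgroup.centralizer ({t} : Set G)) (hs2 : orderOf s = 2) :
    s = t := by
  have hyy : t * t = 1 := by
    have := pow_orderOf_eq_one t
    rwa [ht, pow_two] at this
  have hyinv : t⁻¹ = t := inv_eq_of_mul_eq_one_right hyy
  have hst : s * t ∈ pCore 3 G := by
    apply centralizer_pCore_three hS hN1
    rw [Subgroup.mem_centralizer_iff]
    intro n hn
    have h1 := inverts hS t ht n hn
    have h2 := inverts hS s hs2 (n⁻¹) (inv_mem hn)
    have h3 : s * t * n * (s * t)⁻¹ = n := by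
      calc s * t * n * (s * t)⁻¹ = s * (t * n * t⁻¹) * s⁻¹ := by group
        _ = n := by rw [h1, h2, inv_inv]
    exact (mul_inv_eq_iff_eq_mul.1 h3).symm
  have h1 : s * t ∈ pCore 3 G ⊓ Subgroup.centralizer ({t} : Set G) :=
    Subgroup.mem_inf.2 ⟨hst, mul_mem hs (by rw [Subgroup.mem_centralizer_singleton_iff])⟩
  rw [inf_centralizer hS hN1 t ht, Subgroup.mem_bot] at h1
  rw [← hyinv]
  exact eq_inv_of_mul_eq_one_left h1

include hS hN1 ht in
theorem isPGroup_centralizer : IsPGroup 2 (Subgroup.centralizer ({t} : Set G)) :=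
  isPGroup_two_of _ (centralizer_pow_four hS hN1 t ht)

include hS hN1 ht in
theorem fpf : ∀ a ∈ Subgroup.centralizer ({t} : Set G), a ≠ 1 →
    pCore 3 G ⊓ Subgroup.centralizer {a} = ⊥ := by
  intro a ha ha1
  rw [Subgroup.eq_bot_iff_forall]
  intro x hx
  obtain ⟨hx1, hx2⟩ := Subgroup.mem_inf.1 hx
  rw [Subgroup.mem_centralizer_singleton_iff] at hx2
  rcases hS.eq_one hx2.symm (centralizer_pow_four hS hN1 t ht a ha)
    (pow_three_of_isPGroup hS _ (H1.Cores.isPGroup_pCore 3) x hx1) with h | h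
  · exact absurd h ha1
  · exact h

include hS ht in
theorem isElementaryAbelian : IsElementaryAbelian 3 (pCore 3 G) := by
  refine ⟨⟨⟨fun a b => Subtype.ext (comm_pCore_three hS t ht a a.2 b b.2)⟩⟩, ?_⟩
  intro a ha
  exact pow_three_of_isPGroup hS _ (H1.Cores.isPGroup_pCore 3) a ha

end three

section two

variable [Finite G] (hS : S G)

include hS in
theorem pCore_ne_bot [Nontrivial G] (h3 : pCore 3 G = ⊥) : pCore 2 G ≠ ⊥ := by
  have htop : (⊤ : Subgroup G) ≠ ⊥ := top_ne_bot
  obtain ⟨M, -, hMn, hM1, hmin⟩ := H73.SolvSmall.exists_minimal_normal (N := (⊤ : Subgroup G)) inferInstance htop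
  obtain ⟨-, p, hp, hMp, hMe⟩ := H11.MinNormal.minimal_normal_abelian hS.isSolvable M hM1 hmin
  have hpf : Fact p.Prime := ⟨hp⟩
  obtain ⟨m, hm, hm1⟩ : ∃ m ∈ M, m ≠ 1 := by
    by_contra h
    push Not at h
    exact hM1 ((Subgroup.eq_bot_iff_forall _).2 h)
  have hord : orderOf m = p := orderOf_eq_prime (hMe m hm) hm1
  have hpc : p = 2 ∨ p = 3 := by
    rcases hS m with h | h
    · left
      have h1 := orderOf_dvd_of_pow_eq_one h
      rw [hord, show (4 : ℕ) = 2 ^ 2 by norm_num] at h1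
      exact (Nat.prime_dvd_prime_iff_eq hp Nat.prime_two).1 (hp.dvd_of_dvd_pow h1)
    · right
      have h1 := orderOf_dvd_of_pow_eq_one h
      rw [hord] at h1
      exact (Nat.prime_dvd_prime_iff_eq hp Nat.prime_three).1 h1
  rcases hpc with rfl | rfl
  · intro h
    apply hM1
    rw [← le_bot_iff, ← h]
    exact H1.Cores.le_pCore hMn hMp
  · exfalso
    apply hM1
    rw [← le_bot_iff, ← h3]
    exact H1.Cores.le_pCore hMn hMp

variable (hN1 : pCore 2 G ≠ ⊥)

include hS hN1 in
theorem centralizer_pCore_two : Subgroup.centralizer (pCore 2 G : Set G) ≤ pCore 2 G := by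
  obtain ⟨n, hn, hn1⟩ : ∃ n ∈ pCore 2 G, n ≠ 1 := by
    by_contra h
    push Not at h
    exact hN1 ((Subgroup.eq_bot_iff_forall _).2 h)
  apply H1.Cores.le_pCore inferInstance
  apply isPGroup_two_of
  intro x hx
  rcases hS x with h | h
  · exact h
  · have h1 := Subgroup.mem_centralizer_iff.1 hx n hn
    rcases hS.eq_one h1 (pow_four_of_isPGroup hS _ (H1.Cores.isPGroup_pCore 2) n hn) h with h2 | h2
    · exact absurd h2 hn1
    · rw [h2, one_pow]

include hS hN1 in
theorem fpf_two (Q : Subgroup G) (hQ : IsPGroup 3 Q) : ∀ a ∈ Q, a ≠ 1 →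
    pCore 2 G ⊓ Subgroup.centralizer {a} = ⊥ := by
  intro a ha ha1
  rw [Subgroup.eq_bot_iff_forall]
  intro x hx
  obtain ⟨hx1, hx2⟩ := Subgroup.mem_inf.1 hx
  rw [Subgroup.mem_centralizer_singleton_iff] at hx2
  rcases hS.eq_one hx2 (pow_four_of_isPGroup hS _ (H1.Cores.isPGroup_pCore 2) x hx1)
    (pow_three_of_isPGroup hS _ hQ a ha) with h | h
  · exact h
  · exact absurd h ha1

include hS hN1 in
theorem card_sylow_three (Q : Sylow 3 G) (h3 : 3 ∣ Nat.card G) : Nat.card (Q : Subgroup G) = 3 := by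
  have h1 := H1.FrobSyl.cyclic_or_quaternion (Q : Subgroup G) (pCore 2 G) hN1 (by
    rw [Subgroup.normalizer_eq_top_iff.2 inferInstance]; exact le_top)
    (fpf_two hS hN1 _ Q.isPGroup') 3 Q.isPGroup'
  rcases h1 with h1 | ⟨h1, -⟩
  · obtain ⟨a, ha⟩ := h1.exists_generator
    have h2 : orderOf a = Nat.card (Q : Subgroup G) := orderOf_eq_card_of_forall_mem_zpowers ha
    have h4 : orderOf a ∣ 3 := by
      apply orderOf_dvd_of_pow_eq_one
      exact Subtype.ext (by simpa using pow_three_of_isPGroup hS _ Q.isPGroup' a a.2)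
    rw [h2] at h4
    rcases (Nat.dvd_prime Nat.prime_three).1 h4 with h5 | h5
    · exfalso
      have h6 : 3 ^ 1 ∣ Nat.card (Q : Subgroup G) := Q.pow_dvd_card_of_pow_dvd_card (by simpa using h3)
      rw [h5] at h6
      norm_num at h6
    · exact h5
  · norm_num at h1

include hS in
/-- the quotient by `O_2(G)` has order `3` or `6`. -/
theorem card_quotient (h3 : 3 ∣ Nat.card G) (hc3 : pCore 3 G = ⊥) :
    (pCore 2 G).index = 3 ∨ ((pCore 2 G).index = 6 ∧ pCore 3 (G ⧸ pCore 2 G) ≠ ⊥ ∧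
      Nat.card (pCore 3 (G ⧸ pCore 2 G)) = 3 ∧ ∃ t : G ⧸ pCore 2 G, orderOf t = 2) := by
  have hnt : Nontrivial G := by
    by_contra h
    rw [not_nontrivial_iff_subsingleton] at h
    rw [Nat.card_of_subsingleton (1 : G)] at h3
    norm_num at h3
  have hN1 := pCore_ne_bot hS hc3
  set N := pCore 2 G with hN
  have hSq : S (G ⧸ N) := hS.quotient N
  obtain ⟨a, ha⟩ := (IsPGroup.iff_card).1 (H1.Cores.isPGroup_pCore (G := G) 2)
  have hdvd : 3 ∣ N.index := by
    have h1 := N.card_mul_index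
    rw [ha] at h1
    rw [← h1] at h3
    exact Nat.Coprime.dvd_of_dvd_mul_left (Nat.Coprime.pow_right _ (by norm_num)) h3
  have hntq : Nontrivial (G ⧸ N) := by
    by_contra h
    rw [not_nontrivial_iff_subsingleton] at h
    rw [Subgroup.index, Nat.card_of_subsingleton (1 : G ⧸ N)] at hdvd
    norm_num at hdvd
  have h2q : pCore 2 (G ⧸ N) = ⊥ := H1.Cores.pCore_quotient_pCore 2
  have h3q : pCore 3 (G ⧸ N) ≠ ⊥ := fun h => pCore_ne_bot hSq h h2q
  -- 9 does not divide the order
  obtain ⟨Q⟩ : Nonempty (Sylow 3 G) := inferInstance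
  have hQ := card_sylow_three hS hN1 Q h3
  have h9 : ¬ 3 ^ 2 ∣ Nat.card G := by
    intro h
    have := Q.pow_dvd_card_of_pow_dvd_card h
    rw [hQ] at this
    norm_num at this
  have hcardc : Nat.card (pCore 3 (G ⧸ N)) = 3 := by
    obtain ⟨b, hb⟩ := (IsPGroup.iff_card).1 (H1.Cores.isPGroup_pCore (G := G ⧸ N) 3)
    have h1 : 3 ^ b ∣ Nat.card G := by
      rw [← hb]
      exact (Subgroup.card_subgroup_dvd_card _).trans (by
        rw [← N.card_mul_index]
        exact dvd_mul_left _ _)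
    have h4 : b ≤ 1 := by
      by_contra h
      push Not at h
      exact h9 ((pow_dvd_pow 3 h).trans h1)
    interval_cases b
    · exfalso
      apply h3q
      rw [← Subgroup.card_eq_one, hb]
      norm_num
    · rw [hb]; norm_num
  by_cases ht : ∃ t : G ⧸ N, orderOf t = 2
  · right
    refine ⟨?_, h3q, hcardc, ht⟩
    obtain ⟨t, ht⟩ := ht
    have hcomp := isComplement hSq h3q t ht
    have h1 := hcomp.card_mul_card
    have h5 := H1.FrobSyl.card_dvd_sub_one (Subgroup.centralizer ({t} : Set (G ⧸ N))) (pCore 3 (G ⧸ N)) (by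
      rw [Subgroup.normalizer_eq_top_iff.2 inferInstance]; exact le_top) (fpf hSq h3q t ht)
    rw [hcardc] at h5 h1
    have h6 : 2 ∣ Nat.card (Subgroup.centralizer ({t} : Set (G ⧸ N))) := by
      have h7 : t ∈ Subgroup.centralizer ({t} : Set (G ⧸ N)) := by
        rw [Subgroup.mem_centralizer_singleton_iff]
      have h8 : orderOf (⟨t, h7⟩ : Subgroup.centralizer ({t} : Set (G ⧸ N))) = 2 := by
        rw [Subgroup.orderOf_mk]; exact ht
      have h9 := orderOf_dvd_natCard (⟨t, h7⟩ : Subgroup.centralizer ({t} : Set (G ⧸ N)))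
      rwa [h8] at h9
    have h7 : Nat.card (Subgroup.centralizer ({t} : Set (G ⧸ N))) = 2 := Nat.dvd_antisymm h5 h6
    rw [h7] at h1
    rw [Subgroup.index, ← h1]
  · left
    -- G/N is a 3-group
    have h1 : ¬ 2 ∣ Nat.card (G ⧸ N) := by
      intro h
      have h2f : Fact (Nat.Prime 2) := ⟨Nat.prime_two⟩
      obtain ⟨t, ht'⟩ := exists_prime_orderOf_dvd_card' 2 h
      exact ht ⟨t, ht'⟩
    obtain ⟨c, d, hcd⟩ := hSq.card
    have hc0 : c = 0 := by
      by_contra h
      apply h1
      rw [hcd]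
      exact (dvd_pow_self 2 h).trans (dvd_mul_right _ _)
    rw [hc0, pow_zero, one_mul] at hcd
    have hd : 3 ^ d ∣ Nat.card G := by
      rw [← hcd, ← N.card_mul_index]
      exact dvd_mul_left _ _
    have h4 : d ≤ 1 := by
      by_contra h
      push Not at h
      exact h9 ((pow_dvd_pow 3 h).trans hd)
    rw [Subgroup.index] at hdvd ⊢
    rw [hcd] at hdvd ⊢
    interval_cases d
    · norm_num at hdvd
    · norm_num

end two

end H69.Spec23
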