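import Mathlib
import Cfsg.Agent.Lib.H69.FrobData
import Cfsg.Agent.Lib.H3.CardSup
import Cfsg.Agent.Lib.H69.TISub

/-!
# 2-Frobenius groups
-/

set_option autoImplicit false

namespace H69.TwoFrob

open Cfsg Subgroup H69.FrobData
open scoped Pointwise

/-- lifting an element order -/
theorem exists_of_map {A B : Type*} [Group A] [Group B] [Finite A] (f : A →* B)
    (hf : Function.Surjective f) {m : ℕ} {b : B} (hb : orderOf b = m) :
    ∃ a : A, orderOf a = m := by
  obtain ⟨a, rfl⟩ := hf b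
  obtain ⟨k, hk⟩ := orderOf_map_dvd f a
  rw [hb] at hk
  have hk0 : k ≠ 0 := by
    rintro rfl
    rw [mul_zero] at hk
    exact (orderOf_pos a).ne' hk
  refine ⟨a ^ k, ?_⟩
  rw [orderOf_pow_of_dvd hk0 ⟨m, by rw [hk, mul_comm]⟩, hk,
    Nat.mul_div_cancel _ (Nat.pos_of_ne_zero hk0)]

/-- elements of order `p q` in a cyclic group -/
theorem exists_of_cyclic {B : Type*} [Group B] [Finite B] [hB : IsCyclic B] {p q : ℕ} (hp : p.Prime)
    (hq : q.Prime) (hpq : p ≠ q) (h1 : p ∣ Nat.card B) (h2 : q ∣ Nat.card B) :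
    ∃ b : B, orderOf b = p * q := by
  obtain ⟨g, hg⟩ := hB.exists_ofOrder_eq_natCard
  have h3 : p * q ∣ Nat.card B :=
    ((Nat.coprime_primes hp hq).2 hpq).mul_dvd_of_dvd_of_dvd h1 h2
  obtain ⟨k, hk⟩ := h3
  have hk0 : k ≠ 0 := by
    rintro rfl
    rw [mul_zero] at hk
    exact Nat.card_pos.ne' hk
  refine ⟨g ^ k, ?_⟩
  rw [orderOf_pow_of_dvd hk0 ⟨p * q, by rw [hg, hk, mul_comm]⟩, hg, hk,
    Nat.mul_div_cancel _ (Nat.pos_of_ne_zero hk0)]

variable {G : Type*} [Group G] [Finite G]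

omit [Finite G] in
theorem mem_map_iff (H K : Subgroup G) [H.Normal] (hle : H ≤ K) (x : G) :
    (x : G ⧸ H) ∈ K.map (QuotientGroup.mk' H) ↔ x ∈ K := by
  constructor
  · rintro ⟨y, hy, hyx⟩
    have h1 : (y : G ⧸ H) = (x : G ⧸ H) := hyx
    have h2 := QuotientGroup.eq.1 h1
    have h3 : x = y * (y⁻¹ * x) := by group
    rw [h3]
    exact mul_mem hy (hle h2)
  · intro hx
    exact ⟨x, hx, rfl⟩

omit [Finite G] in
theorem exists_iso (H K : Subgroup G) [H.Normal] (hle : H ≤ K) (C : Subgroup ↥K)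
    (hc : (H.subgroupOf K).IsComplement' C) :
    Nonempty (↥C ≃* ↥(K.map (QuotientGroup.mk' H))) := by
  let f : ↥C →* ↥(K.map (QuotientGroup.mk' H)) :=
    { toFun := fun c => ⟨((c : ↥K) : G), (mem_map_iff H K hle _).2 (c : ↥K).2⟩
      map_one' := by apply Subtype.ext; simp
      map_mul' := fun a b => by apply Subtype.ext; simp }
  have hfinj : Function.Injective f := by
    rw [injective_iff_map_eq_one]
    intro c hc1
    have h1 : (((c : ↥K) : G) : G ⧸ H) = 1 := congrArg Subtype.val hc1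
    rw [QuotientGroup.eq_one_iff] at h1
    have h2 : (c : ↥K) ∈ H.subgroupOf K ⊓ C :=
      Subgroup.mem_inf.2 ⟨Subgroup.mem_subgroupOf.2 h1, c.2⟩
    rw [hc.disjoint.eq_bot, Subgroup.mem_bot] at h2
    exact Subtype.ext h2
  have hfsurj : Function.Surjective f := by
    rintro ⟨y, hy⟩
    obtain ⟨x, hx, rfl⟩ := hy
    obtain ⟨⟨h, c⟩, hhc⟩ := hc.2 (⟨x, hx⟩ : ↥K)
    refine ⟨c, ?_⟩
    apply Subtype.ext
    change (((c : ↥K) : G) : G ⧸ H) = (x : G ⧸ H)
    rw [QuotientGroup.eq]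
    have h2 : ((h : ↥K) : G) * ((c : ↥K) : G) = x := congrArg Subtype.val hhc
    rw [← h2]
    have h3 := ‹H.Normal›.conj_mem ((h : ↥K) : G) (Subgroup.mem_subgroupOf.1 h.2) ((c : ↥K) : G)⁻¹
    rw [inv_inv] at h3
    rw [← mul_assoc]; exact h3
  exact ⟨MulEquiv.ofBijective f ⟨hfinj, hfsurj⟩⟩

omit [Finite G] in
theorem exists_surj (H K : Subgroup G) [H.Normal] [K.Normal] (hle : H ≤ K) (D : Subgroup (G ⧸ H))
    (hc : (K.map (QuotientGroup.mk' H)).IsComplement' D) :
    ∃ f : ↥D →* G ⧸ K, Function.Surjective f := by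
  let π : G ⧸ H →* G ⧸ K := QuotientGroup.map H K (MonoidHom.id G) hle
  have hπ : ∀ x : G, π (x : G ⧸ H) = (x : G ⧸ K) := fun x => rfl
  refine ⟨π.comp D.subtype, ?_⟩
  intro y
  obtain ⟨x, rfl⟩ := QuotientGroup.mk_surjective y
  obtain ⟨⟨l, d⟩, hld⟩ := hc.2 (x : G ⧸ H)
  refine ⟨d, ?_⟩
  change π (d : G ⧸ H) = (x : G ⧸ K)
  change (l : G ⧸ H) * (d : G ⧸ H) = (x : G ⧸ H) at hld
  rw [← hπ x, ← hld, map_mul]
  obtain ⟨k, hk, hkl⟩ := l.2
  have h2 : π (l : G ⧸ H) = 1 := by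
    rw [← hkl]
    change ((k : G) : G ⧸ K) = 1
    rwa [QuotientGroup.eq_one_iff]
  rw [h2, one_mul]

omit [Finite G] in
theorem solvable (H K : Subgroup G) [H.Normal] [K.Normal] (h1 : Group.IsSolvable ↥H)
    (h2 : Group.IsSolvable ↥(K.map (QuotientGroup.mk' H))) (h3 : Group.IsSolvable (G ⧸ K)) :
    Group.IsSolvable G := by
  have h4 : Group.IsSolvable ↥K := by
    let f : ↥K →* ↥(K.map (QuotientGroup.mk' H)) := (QuotientGroup.mk' H).subgroupMap K
    have h6 : Group.IsSolvable ↥(H.subgroupOf K) :=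
      Group.isSolvable_of_isSolvable_injective (f := ((K.subtype.comp (H.subgroupOf K).subtype).codRestrict H
        (fun x => Subgroup.mem_subgroupOf.1 x.2)))
        (fun a b hab => Subtype.ext (Subtype.ext (by
          have h7 := congrArg (fun z : ↥H => (z : G)) hab
          exact h7)))
    apply Group.isSolvable_of_ker_le_range ((Subgroup.subtype (H.subgroupOf K))) f
    · intro x hx
      rw [MonoidHom.mem_ker] at hx
      have h5 : ((x : G) : G ⧸ H) = 1 := congrArg Subtype.val hx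
      rw [QuotientGroup.eq_one_iff] at h5
      exact ⟨⟨x, Subgroup.mem_subgroupOf.2 h5⟩, rfl⟩
  apply Group.isSolvable_of_ker_le_range K.subtype (QuotientGroup.mk' K)
  rw [QuotientGroup.ker_mk', Subgroup.range_subtype]

/-- an element `d` of order `q` outside `K` fixes a nontrivial element of the normal `p`-subgroup `P`,
when it acts nontrivially on a subgroup `L` of prime order `r` acting freely on `P` -/
theorem exists_fixed {p q r : ℕ} (hp : p.Prime) (hq : q.Prime) (hr : r.Prime) (hqr : q ≠ r)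
    (P L : Subgroup G) [hP : P.Normal] (hPp : IsPGroup p ↥P) (hP1 : P ≠ ⊥) (hL : Nat.card ↥L = r) (d : G)
    (hd : orderOf d = q) (hdL : d ∈ normalizer (L : Set G)) (hnc : ∀ x ∈ L, x ≠ 1 → d * x ≠ x * d)
    (hfpf : ∀ a : G, orderOf a = r → P ⊓ centralizer {a} = ⊥) :
    ∃ a v : G, orderOf a = q ∧ v ∈ P ∧ orderOf v = p ∧ a * v = v * a := by
  have := Fact.mk hp
  set A := L ⊔ zpowers d with hA
  have hdL' : zpowers d ≤ normalizer (L : Set G) := by
    rw [Subgroup.zpowers_le]; exact hdL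
  have hcardz : Nat.card ↥(zpowers d) = q := by rw [Nat.card_zpowers, hd]
  have hcop : (Nat.card ↥L).Coprime (Nat.card ↥(zpowers d)) := by
    rw [hL, hcardz]; exact ((Nat.coprime_primes hq hr).2 hqr).symm
  have hcardA : Nat.card ↥A = r * q := by
    have h1 := H3.CardSup.card_sup_mul_card_inf (zpowers d) L hdL'
    rw [inf_comm, H1.Coprime.inf_eq_bot_of_coprime_card hcop, Subgroup.card_bot, mul_one, hL, hcardz,
      sup_comm, mul_comm q r] at h1
    exact h1
  have hAP : A ≤ normalizer (P : Set G) := by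
    rw [Subgroup.normalizer_eq_top_iff.mpr hP]; exact le_top
  have hAsol : Group.IsSolvable ↥A := by
    exact H4.Burnside.isSolvable_of_card_eq r q hr hq _ ↥A hcardA ⟨1, 1, by rw [pow_one, pow_one]⟩
  have hnot : ¬ ∀ a ∈ A, a ≠ 1 → P ⊓ centralizer {a} = ⊥ := by
    intro hall
    have hcyc := H2.FrobComp.isCyclic_of_card_eq_mul A P hP1 hAP hall hAsol hr hq hcardA
    obtain ⟨x, hx, hx1⟩ := (Subgroup.ne_bot_iff_exists_ne_one).mp
      (show L ≠ ⊥ by
        intro h
        rw [h, Subgroup.card_bot] at hL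
        exact hr.one_lt.ne hL) |> fun ⟨x, hx⟩ =>
      (⟨x, x.2, fun h => hx (Subtype.ext h)⟩ : ∃ y : G, y ∈ L ∧ y ≠ 1)
    exact hnc x hx hx1 (H2.FrobComp.commute_of_isCyclic hcyc
      ((le_sup_right : zpowers d ≤ A) (mem_zpowers d)) ((le_sup_left : L ≤ A) hx))
  push Not at hnot
  obtain ⟨a, haA, ha1, hafix⟩ := hnot
  have hda : orderOf a ∣ r * q := by
    rw [← hcardA, ← Subgroup.orderOf_mk a haA]
    exact orderOf_dvd_natCard _
  have hqa : q ∣ orderOf a := by
    by_contra hqa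
    have h1 : orderOf a ∣ r := by
      apply Nat.Coprime.dvd_of_dvd_mul_right _ hda
      exact ((Nat.Prime.coprime_iff_not_dvd hq).2 hqa).symm
    rcases (Nat.dvd_prime hr).1 h1 with h2 | h2
    · exact ha1 (orderOf_eq_one_iff.1 h2)
    · exact hafix (hfpf a h2)
  obtain ⟨v, hv, hv1⟩ := (Subgroup.ne_bot_iff_exists_ne_one).mp hafix |> fun ⟨x, hx⟩ =>
      (⟨x, x.2, fun h => hx (Subtype.ext h)⟩ : ∃ y : G, y ∈ P ⊓ centralizer {a} ∧ y ≠ 1)
  rw [Subgroup.mem_inf, Subgroup.mem_centralizer_singleton_iff] at hv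
  obtain ⟨k, hk⟩ := hqa
  have hk0 : k ≠ 0 := by
    rintro rfl
    rw [mul_zero] at hk
    exact (orderOf_pos a).ne' hk
  obtain ⟨m, hm⟩ := (IsPGroup.iff_orderOf.1 hPp) ⟨v, hv.1⟩
  rw [Subgroup.orderOf_mk] at hm
  have hm0 : m ≠ 0 := by
    rintro rfl
    rw [pow_zero, orderOf_eq_one_iff] at hm
    exact hv1 hm
  refine ⟨a ^ k, v ^ (p ^ (m - 1)), ?_, pow_mem hv.1 _, ?_, ?_⟩
  · rw [orderOf_pow_of_dvd hk0 ⟨q, by rw [hk, mul_comm]⟩, hk,
      Nat.mul_div_cancel _ (Nat.pos_of_ne_zero hk0)]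
  · rw [orderOf_pow_of_dvd (pow_ne_zero _ hp.ne_zero) (by rw [hm]; exact pow_dvd_pow _ (Nat.sub_le _ _)),
      hm, Nat.pow_div (Nat.sub_le _ _) hp.pos]
    rw [Nat.sub_sub_self (Nat.pos_of_ne_zero hm0), pow_one]
  · have h1 : Commute a v := hv.2.symm
    exact (h1.pow_pow k (p ^ (m - 1))).eq

/-- elements of order prime to the index are in the subgroup -/
theorem mem_of_coprime (K : Subgroup G) [K.Normal] {a : G}
    (h : (orderOf a).Coprime (Nat.card (G ⧸ K))) : a ∈ K := by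
  rw [← QuotientGroup.eq_one_iff, ← orderOf_eq_one_iff]
  exact Nat.eq_one_of_dvd_coprimes h (orderOf_map_dvd (QuotientGroup.mk' K) a)
    (orderOf_dvd_natCard _)

/-- the mixed case of the prime graph: `p ∣ |H|`, `q ∤ |K|`, `q ∣ |G|` -/
theorem exists_cross {p q : ℕ} (hp : p.Prime) (hq : q.Prime) (H K : Subgroup G) [hH : H.Normal]
    [hK : K.Normal] (hle : H ≤ K) (hcyc : IsCyclic ↥(K.map (QuotientGroup.mk' H)))
    (hnil : Group.IsNilpotent ↥H)
    (hcop : (Nat.card ↥H).Coprime (Nat.card ↥(K.map (QuotientGroup.mk' H))))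
    (hcop2 : (Nat.card ↥(K.map (QuotientGroup.mk' H))).Coprime (Nat.card (G ⧸ K)))
    (hb : Nat.card ↥(K.map (QuotientGroup.mk' H)) ≠ 1)
    (hfpf : ∀ a ∈ K, a ∉ H → H ⊓ centralizer {a} = ⊥)
    (hcent : ∀ x ∈ K, x ∉ H → ∀ y : G, x * y = y * x → y ∈ K)
    (hpH : p ∣ Nat.card ↥H) (hqK : ¬ q ∣ Nat.card ↥K) (hqG : q ∣ Nat.card G) :
    ∃ g : G, orderOf g = p * q := by
  have := Fact.mk hp
  have := Fact.mk hq
  obtain ⟨r, hr, hrb⟩ := Nat.exists_prime_and_dvd hb
  have := Fact.mk hr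
  have hrH : ¬ r ∣ Nat.card ↥H := by
    intro h
    exact hr.one_lt.ne' (Nat.eq_one_of_dvd_coprimes hcop h hrb)
  have hcardK : Nat.card ↥K = Nat.card ↥H * Nat.card ↥(K.map (QuotientGroup.mk' H)) := by
    rw [H1.Cores.card_map_mk' H K hle]
  have hrK : r ∣ Nat.card ↥K := by
    rw [hcardK]; exact Dvd.dvd.mul_left hrb _
  obtain ⟨d, hd⟩ := exists_prime_orderOf_dvd_card' q hqG
  have hqr : q ≠ r := by
    rintro rfl
    exact hqK hrK
  have hpq : p ≠ q := by
    rintro rfl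
    exact hqK (hcardK ▸ Dvd.dvd.mul_right hpH _)
  have hdK : zpowers d ≤ normalizer (K : Set G) := by
    rw [Subgroup.normalizer_eq_top_iff.mpr hK]; exact le_top
  obtain ⟨R, hR, hRd⟩ := H1.Coprime2.exists_invariant_sylow (zpowers d) K hdK
    (by rw [Nat.card_zpowers, hd]; exact (Nat.Prime.coprime_iff_not_dvd hq).2 hqK)
    (Or.inl inferInstance) r
  have hRH : ∀ x ∈ R, x ∈ H → x = 1 := by
    intro x hx hxH
    have h1 : (Nat.card ↥R).Coprime (Nat.card ↥H) := by
      rw [hR.2]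
      exact Nat.Coprime.pow_left _ ((Nat.Prime.coprime_iff_not_dvd hr).2 hrH)
    have h2 := H1.Coprime.inf_eq_bot_of_coprime_card h1
    have h3 : x ∈ R ⊓ H := Subgroup.mem_inf.2 ⟨hx, hxH⟩
    rwa [h2, Subgroup.mem_bot] at h3
  have hRcyc : IsCyclic ↥R := by
    let f : ↥R →* ↥(K.map (QuotientGroup.mk' H)) :=
      { toFun := fun c => ⟨((c : G) : G ⧸ H), (mem_map_iff H K hle _).2 (hR.1 c.2)⟩
        map_one' := by apply Subtype.ext; simp
        map_mul' := fun a b => by apply Subtype.ext; simp }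
    apply isCyclic_of_injective f
    rw [injective_iff_map_eq_one]
    intro c hc1
    have h1 : ((c : G) : G ⧸ H) = 1 := congrArg Subtype.val hc1
    rw [QuotientGroup.eq_one_iff] at h1
    exact Subtype.ext (hRH c c.2 h1)
  have hrR : r ∣ Nat.card ↥R := by
    rw [hR.2]
    apply dvd_pow_self
    exact (hr.factorization_pos_of_dvd Nat.card_pos.ne' hrK).ne'
  obtain ⟨x, hx⟩ := exists_prime_orderOf_dvd_card' r hrR
  have hxo : orderOf (x : G) = r := by rw [Subgroup.orderOf_coe, hx]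
  set L := zpowers (x : G) with hL
  have hLR : L ≤ R := by rw [hL, Subgroup.zpowers_le]; exact x.2
  have hLcard : Nat.card ↥L = r := by rw [hL, Nat.card_zpowers, hxo]
  have hdR : d ∈ normalizer (R : Set G) := hRd (mem_zpowers d)
  have hdL : d ∈ normalizer (L : Set G) := by
    rw [H69.TISub.mem_normalizer_iff_smul] at hdR ⊢
    apply H1.FrobSyl.eq_of_card_eq_of_le hRcyc _ hLR
    · rw [H1.SZ.card_conj_smul]
    · calc MulAut.conj d • L ≤ MulAut.conj d • R := Subgroup.pointwise_smul_le_pointwise_smul_iff.mpr hLR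
        _ = R := hdR
  -- the Sylow p-subgroup of H
  obtain ⟨P⟩ : Nonempty (Sylow p ↥H) := inferInstance
  have hPn : (P : Subgroup ↥H).Normal := inferInstance
  have hPc : (P : Subgroup ↥H).Characteristic := Sylow.characteristic_of_normal P hPn
  have hPG : ((P : Subgroup ↥H).map H.subtype).Normal := inferInstance
  have hPp : IsPGroup p ↥((P : Subgroup ↥H).map H.subtype) := P.isPGroup'.map _
  have hPle : (P : Subgroup ↥H).map H.subtype ≤ H := Subgroup.map_subtype_le _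
  have hP1 : (P : Subgroup ↥H).map H.subtype ≠ ⊥ := by
    intro h
    rw [Subgroup.map_eq_bot_iff_of_injective _ H.subtype_injective] at h
    have h1 := P.card_eq_multiplicity
    rw [h, Subgroup.card_bot] at h1
    have h2 : 0 < (Nat.card ↥H).factorization p :=
      hp.factorization_pos_of_dvd Nat.card_pos.ne' hpH
    have h3 : 1 < p ^ (Nat.card ↥H).factorization p := Nat.one_lt_pow h2.ne' hp.one_lt
    omega
  obtain ⟨a, v, ha, hv, hvo, hav⟩ := exists_fixed hp hq hr hqr _ L (hP := hPG) hPp hP1 hLcard d hd hdL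
    (by
      intro y hy hy1 hcomm
      have hyK : y ∈ K := hR.1 (hLR hy)
      have hyH : y ∉ H := fun h => hy1 (hRH y (hLR hy) h)
      have h1 := hcent y hyK hyH d hcomm.symm
      have h2 : q ∣ Nat.card ↥K := by
        rw [← hd, ← Subgroup.orderOf_mk d h1]
        exact orderOf_dvd_natCard _
      exact hqK h2)
    (by
      intro a ha
      have haK : a ∈ K := by
        apply mem_of_coprime K
        rw [ha]
        exact (Nat.Coprime.coprime_dvd_left hrb hcop2)
      have haH : a ∉ H := by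
        intro h
        apply hrH
        rw [← ha, ← Subgroup.orderOf_mk a h]
        exact orderOf_dvd_natCard _
      have h1 := hfpf a haK haH
      rw [eq_bot_iff, ← h1]
      exact inf_le_inf_right _ hPle)
  refine ⟨a * v, ?_⟩
  have hc : Commute a v := hav
  rw [hc.orderOf_mul_eq_mul_orderOf_of_coprime
    (by rw [ha, hvo]; exact ((Nat.coprime_primes hp hq).2 hpq).symm), ha, hvo, mul_comm]

end H69.TwoFrob
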