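import Mathlib

/-!
A 2-group all of whose elements of order dividing `4` lie in a cyclic subgroup of order `4` is
cyclic.
-/

set_option autoImplicit false

namespace H69.TwoGroupCyclic

universe u

theorem aux (m : ℕ) : ∀ (G : Type u) [Group G] [Finite G], Nat.card G = 2 ^ m →
    (∃ L : Subgroup G, Nat.card L = 4 ∧ IsCyclic L ∧ ∀ x : G, x ^ 4 = 1 → x ∈ L) → IsCyclic G := by
  induction m with
  | zero =>
    intro G _ _ hG hL
    obtain ⟨L, hL4, -, -⟩ := hL
    have h1 := Subgroup.card_subgroup_dvd_card L
    rw [hL4, hG] at h1
    norm_num at h1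
  | succ m ih =>
    intro G _ _ hG hL
    have h2 : Fact (Nat.Prime 2) := ⟨Nat.prime_two⟩
    obtain ⟨L, hL4, hLc, hx⟩ := hL
    have hLdvd := Subgroup.card_subgroup_dvd_card L
    by_cases hm : m = 1
    · subst hm
      have h1 : L = ⊤ := by
        apply Subgroup.eq_top_of_card_eq
        rw [hL4, hG]
        norm_num
      have h3 : IsCyclic (⊤ : Subgroup G) := by rw [← h1]; exact hLc
      exact isCyclic_of_surjective (Subgroup.topEquiv (G := G)).toMonoidHom (Subgroup.topEquiv (G := G)).surjective
    · have hm2 : 2 ≤ m := by
        rcases Nat.lt_or_ge m 2 with h | h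
        · exfalso
          have : m = 0 := by omega
          subst this
          rw [hL4, hG] at hLdvd
          norm_num at hLdvd
        · exact h
      obtain ⟨M, hM⟩ := Sylow.exists_subgroup_card_pow_prime (G := G) 2 (n := m) (by
        rw [hG]; exact pow_dvd_pow 2 (Nat.le_succ m))
      -- M contains L
      obtain ⟨K, hK⟩ := Sylow.exists_subgroup_card_pow_prime (G := M) 2 (n := 2) (by
        rw [hM]; exact pow_dvd_pow 2 hm2)
      have hKL : K.map M.subtype ≤ L := by
        rintro _ ⟨y, hy, rfl⟩
        apply hx
        have h1 := pow_card_eq_one' (x := (⟨y, hy⟩ : K))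
        rw [hK] at h1
        have h3 : y ^ (2 ^ 2) = 1 := congrArg Subtype.val h1
        have h4 : (y : G) ^ (2 ^ 2) = 1 := congrArg Subtype.val h3
        simpa using h4
      have hKL' : K.map M.subtype = L := by
        apply Subgroup.eq_of_le_of_card_ge hKL
        rw [Nat.card_congr (K.equivMapOfInjective M.subtype M.subtype_injective).toEquiv.symm, hK, hL4]
        norm_num
      have hLM : L ≤ M := by
        rw [← hKL']
        rintro _ ⟨y, hy, rfl⟩
        exact y.2
      have hMc : IsCyclic M := by
        apply ih M hM
        refine ⟨L.subgroupOf M, ?_, ?_, ?_⟩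
        · rw [Nat.card_congr (Subgroup.subgroupOfEquivOfLe hLM).toEquiv, hL4]
        · exact isCyclic_of_surjective (Subgroup.subgroupOfEquivOfLe hLM).symm.toMonoidHom
            (Subgroup.subgroupOfEquivOfLe hLM).symm.surjective
        · intro x hx4
          rw [Subgroup.mem_subgroupOf]
          apply hx
          have := congrArg Subtype.val hx4
          simpa using this
      have hidx : M.index = 2 := by
        have h1 := Subgroup.card_mul_index M
        rw [hM, hG, pow_succ] at h1
        exact Nat.eq_of_mul_eq_mul_left (pow_pos two_pos m) h1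
      have hMn : M.Normal := Subgroup.normal_of_index_eq_two hidx
      obtain ⟨a, ha⟩ := hMc.exists_generator
      have haM : ∀ y : G, y ∈ M → ∃ i : ℤ, y = (a : G) ^ i := by
        intro y hy
        obtain ⟨i, hi⟩ := Subgroup.mem_zpowers_iff.1 (ha ⟨y, hy⟩)
        refine ⟨i, ?_⟩
        have := congrArg Subtype.val hi
        simpa using this.symm
      have hoa : orderOf (a : G) = 2 ^ m := by
        rw [Subgroup.orderOf_coe, ← hM]
        exact orderOf_eq_card_of_forall_mem_zpowers ha
      have hne : M ≠ ⊤ := by
        rintro rfl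
        rw [Subgroup.index_top] at hidx
        norm_num at hidx
      obtain ⟨x, hxM⟩ : ∃ x, x ∉ M := by
        by_contra h
        push Not at h
        exact hne ((Subgroup.eq_top_iff' M).2 h)
      have hx2 : x ^ 2 ∈ M := by
        have := Subgroup.pow_index_mem M x
        rwa [hidx] at this
      obtain ⟨j, hj⟩ := haM _ hx2
      obtain ⟨r, hr⟩ := haM (x * a * x⁻¹) (hMn.conj_mem _ a.2 x)
      have hzero : ∀ i : ℤ, (a : G) ^ i = 1 ↔ (2 : ℤ) ^ m ∣ i := by
        intro i
        rw [← orderOf_dvd_iff_zpow_eq_one, hoa]
        push_cast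
        rfl
      have hconj : ∀ i : ℤ, x * (a : G) ^ i * x⁻¹ = (a : G) ^ (r * i) := by
        intro i
        rw [← conj_zpow, hr, ← zpow_mul]
      have hxj : (a : G) ^ (r * j) = (a : G) ^ j := by
        rw [← hconj j, ← hj]
        group
      -- r is odd
      have hrodd : Odd r := by
        by_contra hr'
        rw [Int.not_odd_iff_even] at hr'
        have h1 : (a : G) ^ (r * (2 ^ (m - 1) : ℤ)) = 1 := by
          rw [hzero]
          obtain ⟨c, hc⟩ := hr'
          refine ⟨c, ?_⟩
          have : (2 : ℤ) ^ m = 2 * 2 ^ (m - 1) := by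
            rw [← pow_succ']
            congr 1
            omega
          rw [hc, this]; ring
        rw [← hconj] at h1
        have h3 : (a : G) ^ (2 ^ (m - 1) : ℤ) = 1 := by
          have : (a : G) ^ (2 ^ (m - 1) : ℤ) = x⁻¹ * (x * (a : G) ^ (2 ^ (m - 1) : ℤ) * x⁻¹) * x := by group
          rw [this, h1]; group
        rw [hzero] at h3
        have h4 : (2 : ℤ) ^ m ≤ 2 ^ (m - 1) := Int.le_of_dvd (by positivity) h3
        have h5 : (2 : ℤ) ^ m = 2 * 2 ^ (m - 1) := by
          rw [← pow_succ']
          congr 1
          omega
        have h6 : (0 : ℤ) < 2 ^ (m - 1) := by positivity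
        omega
      obtain ⟨c, hc⟩ := hrodd
      rcases Int.even_or_odd j with hje | hjo
      · rcases Int.even_or_odd c with hce | hco
        · -- r ≡ 1 mod 4: r + 1 = 2 u, u odd
          exfalso
          obtain ⟨j', hj'⟩ := hje
          obtain ⟨c', hc'⟩ := hce
          have hcop : IsCoprime (c + 1) ((2 : ℤ) ^ m) := by
            apply IsCoprime.pow_right
            refine ⟨1, -c', ?_⟩
            rw [hc']; ring
          obtain ⟨u, v, huv⟩ := hcop
          -- i with (c+1) i ≡ -j'
          have h1 : (x * (a : G) ^ (-j' * u)) ^ 2 = 1 := by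
            have h3 : (x * (a : G) ^ (-j' * u)) ^ 2 =
                (x * (a : G) ^ (-j' * u) * x⁻¹) * x ^ 2 * (a : G) ^ (-j' * u) := by
              rw [pow_two, pow_two]; group
            rw [h3, hconj, hj, ← zpow_add, ← zpow_add, hzero]
            refine ⟨2 * j' * v, ?_⟩
            rw [hc, hj']
            linear_combination (-2 * j') * huv
          have h3 : (x * (a : G) ^ (-j' * u)) ∈ M := by
            apply hLM
            apply hx
            rw [show (4 : ℕ) = 2 * 2 by norm_num, pow_mul, h1, one_pow]
          apply hxM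
          exact (Subgroup.mul_mem_cancel_right M (M.zpow_mem a.2 _)).1 h3
        · -- r ≡ 3 mod 4
          exfalso
          apply hxM
          apply hLM
          apply hx
          obtain ⟨c', hc'⟩ := hco
          have h1 : (a : G) ^ (r * j - j) = 1 := by
            rw [zpow_sub, hxj, mul_inv_cancel]
          rw [hzero] at h1
          rw [show (4 : ℕ) = 2 * 2 by norm_num, pow_mul, hj, ← zpow_natCast, ← zpow_mul, hzero]
          have h3 : r * j - j = (2 * c' + 1) * (j * 2) := by
            rw [hc, hc']; ring
          rw [h3] at h1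
          have hcop : IsCoprime ((2 : ℤ) ^ m) (2 * c' + 1) := by
            apply IsCoprime.pow_left
            exact ⟨-c', 1, by ring⟩
          exact_mod_cast hcop.dvd_of_dvd_mul_left h1
      · -- x² generates M
        have hcop : IsCoprime j ((2 : ℤ) ^ m) := by
          apply IsCoprime.pow_right
          obtain ⟨c', hc'⟩ := hjo
          exact ⟨1, -c', by rw [hc']; ring⟩
        obtain ⟨u, v, huv⟩ := hcop
        have h1 : (a : G) ∈ Subgroup.zpowers x := by
          have h3 : (a : G) = (x ^ 2) ^ u := by
            rw [hj, ← zpow_mul]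
            have h4 : (a : G) ^ (j * u) = (a : G) ^ (1 - 2 ^ m * v) := by
              congr 1
              linear_combination huv
            rw [h4, zpow_sub, zpow_one, (hzero _).2 (Dvd.intro _ rfl), inv_one, mul_one]
          rw [h3]
          exact Subgroup.zpow_mem _ (Subgroup.pow_mem _ (Subgroup.mem_zpowers x) 2) u
        have h3 : M ≤ Subgroup.zpowers x := by
          intro y hy
          obtain ⟨i, rfl⟩ := haM y hy
          exact Subgroup.zpow_mem _ h1 i
        have h4 : Subgroup.zpowers x = ⊤ := by
          have h5 : (Subgroup.zpowers x).index ∣ 2 := by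
            rw [← hidx]
            exact Subgroup.index_dvd_of_le h3
          rcases (Nat.dvd_prime Nat.prime_two).1 h5 with h6 | h6
          · exact Subgroup.index_eq_one.1 h6
          · exfalso
            have h7 : M = Subgroup.zpowers x := by
              apply Subgroup.eq_of_le_of_card_ge h3
              have h8 := Subgroup.card_mul_index M
              have h9 := Subgroup.card_mul_index (Subgroup.zpowers x)
              rw [hidx] at h8
              rw [h6] at h9
              omega
            exact hxM (by rw [h7]; exact Subgroup.mem_zpowers x)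
        refine ⟨⟨x, fun y => ?_⟩⟩
        have h5 : y ∈ Subgroup.zpowers x := by rw [h4]; exact Subgroup.mem_top y
        exact Subgroup.mem_zpowers_iff.1 h5

theorem isCyclic_of_four {G : Type u} [Group G] [Finite G] (hG : IsPGroup 2 G)
    (L : Subgroup G) (hL : Nat.card L = 4) (hLc : IsCyclic L) (hx : ∀ x : G, x ^ 4 = 1 → x ∈ L) :
    IsCyclic G := by
  have h2 : Fact (Nat.Prime 2) := ⟨Nat.prime_two⟩
  obtain ⟨m, hm⟩ := hG.exists_card_eq
  exact aux m G hm ⟨L, hL, hLc, hx⟩

end H69.TwoGroupCyclic
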