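import Mathlib
import Cfsg.Agent.Lib.H69.OrdCount
import Cfsg.Agent.Lib.H69.OrdClass
import Cfsg.Agent.Lib.H1.Hall
import Cfsg.Agent.Lib.H1.Frob
import Cfsg.Agent.Lib.H1.FrobSyl
import Cfsg.Agent.Lib.H1.Cores
import Cfsg.Agent.Lib.H71.FourOrbits

/-!
# Solvable groups with two primes, prime exponents and no mixed orders
-/

set_option autoImplicit false

namespace H69.TwoPrimeFrob

open H69.OrdCount Subgroup
open scoped Pointwise

/-- the norm argument -/
theorem pow_eq_one_of_norm {V A : Type*} [CommGroup V] [Group A] (φ : A →* MulAut V) (Q : Subgroup A)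
    [Finite Q] (y : A) (p : ℕ) (hp : 0 < p) (hfix : ∀ v : V, (∀ w ∈ Q, φ w v = v) → v = 1)
    (hnorm : ∀ v : V, ∀ w ∈ Q, ∏ i ∈ Finset.range p, φ (w * y ^ i * w⁻¹) v = 1)
    (hy : ∀ w ∈ Q, y * w * y⁻¹ ∈ Q)
    (hcomm : ∀ i, 0 < i → i < p → ∀ w ∈ Q, y ^ i * w = w * y ^ i → w = 1) (v : V) :
    v ^ Nat.card Q = 1 := by
  classical
  have := Fintype.ofFinite Q
  have hyi : ∀ i : ℕ, ∀ w ∈ Q, y ^ i * w * (y ^ i)⁻¹ ∈ Q := by
    intro i
    induction i with
    | zero => intro w hw; simpa using hw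
    | succ i ih =>
      intro w hw
      have h1 := hy _ (ih w hw)
      have h2 : y * (y ^ i * w * (y ^ i)⁻¹) * y⁻¹ = y ^ (i + 1) * w * (y ^ (i + 1))⁻¹ := by
        rw [pow_succ']; group
      rwa [h2] at h1
  -- the norm over `Q`
  have hQ : ∀ u : V, ∏ w : Q, φ (w : A) u = 1 := by
    intro u
    apply hfix
    intro w hw
    rw [map_prod]
    refine Fintype.prod_equiv (Equiv.mulLeft (⟨w, hw⟩ : Q)) _ _ ?_
    intro x
    simp only [Equiv.coe_mulLeft, Subgroup.coe_mul]
    rw [map_mul]; rfl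
  have h1 : ∏ w : Q, ∏ i ∈ Finset.range p, φ ((w : A) * y ^ i * (w : A)⁻¹) v = 1 :=
    Finset.prod_eq_one fun w _ => hnorm v w w.2
  rw [Finset.prod_comm] at h1
  obtain ⟨p', rfl⟩ : ∃ p', p = p' + 1 := ⟨p - 1, by omega⟩
  rw [Finset.prod_range_succ'] at h1
  have h2 : ∀ i ∈ Finset.range p', ∏ w : Q, φ ((w : A) * y ^ (i + 1) * (w : A)⁻¹) v = 1 := by
    intro i hi
    rw [← hQ (φ (y ^ (i + 1)) v)]
    have hbij : Function.Bijective (fun w : Q =>
        (⟨(w : A) * (y ^ (i + 1) * (w : A)⁻¹ * (y ^ (i + 1))⁻¹),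
          Q.mul_mem w.2 (hyi _ _ (Q.inv_mem w.2))⟩ : Q)) := by
      rw [← Finite.injective_iff_bijective]
      intro a b hab
      have h3 : (a : A) * (y ^ (i + 1) * (a : A)⁻¹ * (y ^ (i + 1))⁻¹) =
          (b : A) * (y ^ (i + 1) * (b : A)⁻¹ * (y ^ (i + 1))⁻¹) := congrArg Subtype.val hab
      have h4 : (b : A)⁻¹ * (a : A) = 1 := by
        apply hcomm (i + 1) (Nat.succ_pos i) (by have := Finset.mem_range.1 hi; omega) _
          (Q.mul_mem (Q.inv_mem b.2) a.2)
        have h5 : (b : A)⁻¹ * (a : A) * y ^ (i + 1) =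
            (b : A)⁻¹ * ((a : A) * (y ^ (i + 1) * (a : A)⁻¹ * (y ^ (i + 1))⁻¹)) * y ^ (i + 1) * a := by
          group
        rw [h5, h3]; group
      exact Subtype.ext (inv_mul_eq_one.1 h4).symm
    refine Fintype.prod_bijective _ hbij _ _ ?_
    intro w
    simp only
    rw [← MulAut.mul_apply, ← map_mul]
    congr 2
    group
  rw [Finset.prod_eq_one h2, one_mul] at h1
  rw [Nat.card_eq_fintype_card, ← Finset.card_univ, ← Finset.prod_const]
  rw [← h1]
  refine Finset.prod_congr rfl fun w _ => ?_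
  simp

variable {G : Type*} [Group G] [Finite G]

/-- elements of order `p ^ j` have order dividing `p` -/
theorem pow_eq_one {p : ℕ} (hp : p.Prime) (hsq : N G (p ^ 2) = 0) {x : G} {j : ℕ}
    (hx : orderOf x = p ^ j) : x ^ p = 1 := by
  have hj1 : j ≤ 1 := by
    by_contra hcon
    have h1 : N G (p ^ j) ≠ 0 := N_ne_zero_iff.2 ⟨x, hx⟩
    exact ne_zero_of_dvd h1 (pow_dvd_pow p (by omega : 2 ≤ j)) (pow_ne_zero _ hp.ne_zero) hsq
  rw [← orderOf_dvd_iff_pow_eq_one, hx]
  exact (pow_dvd_pow p hj1).trans (by rw [pow_one])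

theorem main {p q : ℕ} (hp : p.Prime) (hq : q.Prime) (hpq : p ≠ q) (hq2 : q ≠ 2)
    (hsol : Group.IsSolvable G)
    (hall : ∀ s : ℕ, s.Prime → s ∣ Nat.card G → s = p ∨ s = q) (hqG : q ∣ Nat.card G)
    (hp2 : N G (p ^ 2) = 0) (hq22 : N G (q ^ 2) = 0) (hmix : N G (p * q) = 0)
    (hcore : Cfsg.pCore p G ≠ ⊥) :
    ∃ C : Subgroup G, Cfsg.IsFrobeniusComplement C ∧ (Nat.card ↥C).Prime := by
  have := Fact.mk hp
  have := Fact.mk hq
  obtain ⟨U, hU⟩ : ∃ U, U = Cfsg.pCore p G := ⟨_, rfl⟩
  have hUp : IsPGroup p U := by rw [hU]; exact H1.Cores.isPGroup_pCore p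
  have hUn : U.Normal := by rw [hU]; infer_instance
  rw [← hU] at hcore
  have hqx : ∀ (x : G) (j : ℕ), orderOf x = q ^ j → x ≠ 1 → orderOf x = q := by
    intro x j hx hx1
    have h1 := orderOf_dvd_of_pow_eq_one (pow_eq_one hq hq22 hx)
    rcases (Nat.dvd_prime hq).1 h1 with h | h
    · exact absurd (orderOf_eq_one_iff.1 h) hx1
    · exact h
  have hpx : ∀ (x : G) (j : ℕ), orderOf x = p ^ j → x ≠ 1 → orderOf x = p := by
    intro x j hx hx1
    have h1 := orderOf_dvd_of_pow_eq_one (pow_eq_one hp hp2 hx)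
    rcases (Nat.dvd_prime hp).1 h1 with h | h
    · exact absurd (orderOf_eq_one_iff.1 h) hx1
    · exact h
  have hno : ∀ x y : G, orderOf x = p → orderOf y = q → x * y ≠ y * x := by
    intro x y hx hy hc
    have h1 : orderOf (x * y) = p * q := by
      rw [(show Commute x y from hc).orderOf_mul_eq_mul_orderOf_of_coprime
        (by rw [hx, hy]; exact (Nat.coprime_primes hp hq).2 hpq), hx, hy]
    exact N_ne_zero_iff.2 ⟨x * y, h1⟩ hmix
  have hfpf : ∀ W : Subgroup G, IsPGroup p W → ∀ (x : G) (j : ℕ), orderOf x = q ^ j → x ≠ 1 →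
      W ⊓ centralizer {x} = ⊥ := by
    intro W hW x j hx hx1
    rw [eq_bot_iff]
    intro v hv
    rw [mem_inf, mem_centralizer_singleton_iff] at hv
    rw [mem_bot]
    by_contra hv1
    obtain ⟨i, hi⟩ := (IsPGroup.iff_orderOf.1 hW) ⟨v, hv.1⟩
    rw [Subgroup.orderOf_mk] at hi
    exact hno v x (hpx v i hi hv1) (hqx x j hx hx1) hv.2
  obtain ⟨Q⟩ : Nonempty (Sylow q G) := inferInstance
  have hQord : ∀ x ∈ (Q : Subgroup G), ∃ j, orderOf x = q ^ j := by
    intro x hx
    obtain ⟨j, hj⟩ := (IsPGroup.iff_orderOf.1 Q.isPGroup') ⟨x, hx⟩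
    rw [Subgroup.orderOf_mk] at hj
    exact ⟨j, hj⟩
  have hQfpf : ∀ W : Subgroup G, IsPGroup p W → ∀ x ∈ (Q : Subgroup G), x ≠ 1 →
      W ⊓ centralizer {x} = ⊥ := by
    intro W hW x hx hx1
    obtain ⟨j, hj⟩ := hQord x hx
    exact hfpf W hW x j hj hx1
  -- |Q| = q
  have hQcard : Nat.card (Q : Subgroup G) = q := by
    have hcyc : IsCyclic (Q : Subgroup G) := by
      rcases H1.FrobSyl.cyclic_or_quaternion (Q : Subgroup G) U hcore
        (by rw [Subgroup.normalizer_eq_top_iff.mpr hUn]; exact le_top) (hQfpf U hUp) q Q.isPGroup'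
        with h | h
      · exact h
      · exact absurd h.1 hq2
    obtain ⟨g, hg⟩ := hcyc.exists_ofOrder_eq_natCard
    obtain ⟨j, hj⟩ := hQord g g.2
    have hq1 : q ∣ Nat.card (Q : Subgroup G) := by
      have := Q.pow_dvd_card_of_pow_dvd_card (n := 1) (by rwa [pow_one])
      rwa [pow_one] at this
    have hg1 : (g : G) ≠ 1 := by
      intro h
      have h2 : g = 1 := Subtype.ext h
      rw [h2, orderOf_one] at hg
      rw [← hg] at hq1
      exact hq.one_lt.ne' (Nat.dvd_one.1 hq1)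
    rw [← hg, ← Subgroup.orderOf_coe]
    exact hqx _ j hj hg1
  have hfac : (Nat.card G).factorization q = 1 := by
    have h1 := Q.card_eq_multiplicity
    rw [hQcard] at h1
    have h2 : q ^ 1 = q ^ (Nat.card G).factorization q := by rw [pow_one]; exact h1
    exact (Nat.pow_right_injective hq.two_le h2).symm
  -- the second layer
  have hqU : ¬ q ∣ Nat.card U := by
    intro h
    obtain ⟨n, hn⟩ := IsPGroup.iff_card.1 hUp
    rw [hn] at h
    exact hpq ((Nat.prime_dvd_prime_iff_eq hq hp).1 (hq.dvd_of_dvd_pow h)).symm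
  have hcardU : Nat.card U * Nat.card (G ⧸ U) = Nat.card G := by
    rw [← Subgroup.index_eq_card]; exact U.card_mul_index
  have hqGU : q ∣ Nat.card (G ⧸ U) := by
    rw [← hcardU] at hqG
    exact (hq.dvd_mul.1 hqG).resolve_left hqU
  have hnt : Nontrivial (G ⧸ U) := by
    rw [← Finite.one_lt_card_iff_nontrivial]
    exact lt_of_lt_of_le hq.one_lt (Nat.le_of_dvd Nat.card_pos hqGU)
  have hsolQ : Group.IsSolvable (G ⧸ U) := inferInstance
  obtain ⟨r, hr, hrcore⟩ := H1.Hall.exists_pCore_ne_bot hsolQ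
  have hrq : r = q := by
    have hFr := Fact.mk hr
    have h1 : r ∣ Nat.card (G ⧸ U) := by
      obtain ⟨n, hn⟩ := IsPGroup.iff_card.1 (H1.Cores.isPGroup_pCore (G := G ⧸ U) r)
      have hn0 : n ≠ 0 := by
        rintro rfl
        rw [pow_zero] at hn
        exact hrcore (Subgroup.card_eq_one.1 hn)
      have h2 : r ∣ Nat.card (Cfsg.pCore r (G ⧸ U)) := by rw [hn]; exact dvd_pow_self r hn0
      exact h2.trans (Subgroup.card_subgroup_dvd_card _)
    rcases hall r hr (h1.trans (hcardU ▸ Dvd.intro_left _ rfl)) with h | h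
    · exfalso
      apply hrcore
      rw [h]
      subst hU
      exact H1.Cores.pCore_quotient_pCore p
    · exact h
  rw [hrq] at hrcore
  obtain ⟨c, hc⟩ := IsPGroup.iff_card.1 (H1.Cores.isPGroup_pCore (G := G ⧸ U) q)
  have hc1 : c = 1 := by
    have hc0 : c ≠ 0 := by
      rintro rfl
      rw [pow_zero] at hc
      exact hrcore (Subgroup.card_eq_one.1 hc)
    have h1 : q ^ c ∣ Nat.card G := by
      rw [← hc]
      exact (Subgroup.card_subgroup_dvd_card _).trans (hcardU ▸ Dvd.intro_left _ rfl)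
    have h2 := (hq.pow_dvd_iff_le_factorization Nat.card_pos.ne').1 h1
    omega
  rw [hc1, pow_one] at hc
  obtain ⟨M, hM⟩ : ∃ M, M = (Cfsg.pCore q (G ⧸ U)).comap (QuotientGroup.mk' U) := ⟨_, rfl⟩
  have hMn : M.Normal := by rw [hM]; infer_instance
  have hMcard : Nat.card M = Nat.card U * q := by rw [hM, H1.Cores.card_comap_mk', hc]
  have hMidx : ¬ q ∣ M.index := by
    intro h
    have h1 : q ^ 2 ∣ Nat.card G := by
      rw [← M.card_mul_index, hMcard, pow_two]
      exact mul_dvd_mul (Dvd.intro_left _ rfl) h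
    have h2 := (hq.pow_dvd_iff_le_factorization Nat.card_pos.ne').1 h1
    omega
  have hQM : (Q : Subgroup G) ≤ M := by
    intro x hx
    rw [← QuotientGroup.eq_one_iff, ← orderOf_eq_one_iff]
    obtain ⟨j, hj⟩ := hQord x hx
    refine Nat.eq_one_of_dvd_coprimes (a := q ^ j) (b := Nat.card (G ⧸ M)) ?_ ?_ ?_
    · rw [← Subgroup.index_eq_card]
      exact Nat.Coprime.pow_left j ((Nat.Prime.coprime_iff_not_dvd hq).2 hMidx)
    · rw [← hj]; exact orderOf_map_dvd (QuotientGroup.mk' M) x
    · exact orderOf_dvd_natCard _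
  have hQb : (Q : Subgroup G) ≠ ⊥ := by
    intro h
    rw [h, Subgroup.card_bot] at hQcard
    exact hq.one_lt.ne hQcard
  by_cases hMt : M = ⊤
  · have hcardG : Nat.card G = Nat.card U * q := by
      rw [← hMcard, hMt, Subgroup.card_top]
    have hcompl : U.IsComplement' (Q : Subgroup G) := by
      apply Subgroup.isComplement'_of_coprime
      · rw [hQcard, hcardG]
      · rw [hQcard]; exact ((Nat.Prime.coprime_iff_not_dvd hq).2 hqU).symm
    refine ⟨(Q : Subgroup G), ?_, by rw [hQcard]; exact hq⟩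
    rw [H1.Frob.isFrobeniusComplement_iff U (Q : Subgroup G) hcompl hcore hQb]
    exact hQfpf U hUp
  · exfalso
    have hidx1 : M.index ≠ 1 := fun h => hMt (Subgroup.index_eq_one.1 h)
    obtain ⟨s, hs, hsM⟩ := Nat.exists_prime_and_dvd hidx1
    have hsp : s = p := by
      rcases hall s hs (hsM.trans (Subgroup.index_dvd_card M)) with h | h
      · exact h
      · subst h; exact absurd hsM hMidx
    subst hsp
    have hfrat := Q.normalizer_sup_eq_top' hQM
    have hrel : M.index = M.relIndex (Subgroup.normalizer ((Q : Subgroup G) : Set G)) := by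
      rw [← Subgroup.relIndex_top_right, ← hfrat, Subgroup.relIndex_sup_right]
      rfl
    have hpN : s ∣ Nat.card (Subgroup.normalizer ((Q : Subgroup G) : Set G)) := by
      rw [hrel] at hsM
      exact hsM.trans (Subgroup.relIndex_dvd_card _ _)
    obtain ⟨y, hy⟩ := exists_prime_orderOf_dvd_card' s hpN
    have hyo : orderOf (y : G) = s := by rw [Subgroup.orderOf_coe, hy]
    have hyQ : ∀ w ∈ (Q : Subgroup G), (y : G) * w * (y : G)⁻¹ ∈ (Q : Subgroup G) := by
      intro w hw
      exact (Subgroup.mem_normalizer_iff.1 y.2 w).1 hw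
    -- the abelian normal subgroup
    set V : Subgroup G := (center U).map U.subtype with hV
    have hVn : V.Normal := inferInstance
    have hVU : V ≤ U := Subgroup.map_subtype_le _
    have hVp : IsPGroup s V := hUp.to_le hVU
    have hUnt : Nontrivial U := (Subgroup.nontrivial_iff_ne_bot U).2 hcore
    have hVb : V ≠ ⊥ := by
      intro h
      rw [hV, Subgroup.map_eq_bot_iff_of_injective _ U.subtype_injective] at h
      have h1 := hUp.bot_lt_center
      rw [h] at h1
      exact lt_irrefl _ h1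
    have hVcomm : ∀ a b : V, a * b = b * a := by
      rintro ⟨_, a, ha, rfl⟩ ⟨_, b, hb, rfl⟩
      apply Subtype.ext
      have h1 := Subgroup.mem_center_iff.1 hb a
      have h2 : (a : G) * (b : G) = (b : G) * (a : G) := congrArg Subtype.val h1
      exact h2
    let _ : CommGroup V := { (inferInstance : Group V) with mul_comm := hVcomm }
    obtain ⟨w₀, hw₀, hw₀1⟩ : ∃ w ∈ (Q : Subgroup G), w ≠ 1 := by
      by_contra hcon
      push Not at hcon
      apply hQb
      rw [eq_bot_iff]
      intro w hw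
      rw [mem_bot]; exact hcon w hw
    have key := pow_eq_one_of_norm (V := V) (MulAut.conjNormal : G →* MulAut V) (Q : Subgroup G)
      (y : G) s hs.pos ?_ ?_ hyQ ?_
    · apply hVb
      rw [eq_bot_iff]
      intro v hv
      rw [mem_bot]
      have h1 := congrArg Subtype.val (key ⟨v, hv⟩)
      rw [hQcard] at h1
      have h1' : v ^ q = 1 := h1
      by_contra hv1
      obtain ⟨j, hj⟩ := (IsPGroup.iff_orderOf.1 hVp) ⟨v, hv⟩
      rw [Subgroup.orderOf_mk] at hj
      have h2 := hpx v j hj hv1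
      have h3 := orderOf_dvd_of_pow_eq_one h1'
      rw [h2, Nat.prime_dvd_prime_iff_eq hs hq] at h3
      exact hpq h3
    · intro v hv
      have h1 := hQfpf V hVp w₀ hw₀ hw₀1
      have h2 : (v : G) ∈ V ⊓ centralizer {w₀} := by
        rw [mem_inf, mem_centralizer_singleton_iff]
        refine ⟨v.2, ?_⟩
        have h3 := congrArg Subtype.val (hv w₀ hw₀)
        rw [MulAut.conjNormal_apply] at h3
        exact (mul_inv_eq_iff_eq_mul.1 h3).symm
      rw [h1, mem_bot] at h2
      exact Subtype.ext h2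
    · intro v w hw
      have hyw : orderOf (w * (y : G) * w⁻¹) = s := by
        have h := (MulAut.conj w).orderOf_eq (y : G)
        rw [MulAut.conj_apply] at h
        rw [h, hyo]
      have hformula : ∀ (z : G) (n : ℕ), ((v : G) * z) ^ n =
          ((∏ i ∈ Finset.range n, (MulAut.conjNormal (z ^ i) : MulAut V) v : V) : G) * z ^ n := by
        intro z n
        induction n with
        | zero => simp
        | succ n ih =>
          rw [pow_succ, ih, Finset.prod_range_succ, Subgroup.coe_mul, MulAut.conjNormal_apply]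
          rw [pow_succ z n]
          group
      have h1 : ((v : G) * (w * (y : G) * w⁻¹)) ^ s = 1 := by
        have h2 : IsPGroup s (V ⊔ zpowers (w * (y : G) * w⁻¹) : Subgroup G) :=
          IsPGroup.to_sup_of_normal_left hVp
            (IsPGroup.of_card (n := 1) (by rw [Nat.card_zpowers, hyw, pow_one]))
        obtain ⟨j, hj⟩ := (IsPGroup.iff_orderOf.1 h2) ⟨(v : G) * (w * (y : G) * w⁻¹),
          mul_mem ((le_sup_left : V ≤ _) v.2) ((le_sup_right : zpowers _ ≤ _) (mem_zpowers _))⟩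
        rw [Subgroup.orderOf_mk] at hj
        exact pow_eq_one hs hp2 hj
      rw [hformula] at h1
      have h3 : (w * (y : G) * w⁻¹) ^ s = 1 := by rw [← hyw]; exact pow_orderOf_eq_one _
      rw [h3, mul_one] at h1
      apply Subtype.ext
      rw [← Subgroup.coe_one] at h1
      rw [← h1]
      congr 1
      refine Finset.prod_congr rfl fun i _ => ?_
      rw [conj_pow]
    · intro i hi hip w hw hcomm
      by_contra hw1
      obtain ⟨j, hj⟩ := hQord w hw
      have h1 := hqx w j hj hw1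
      have h2 : orderOf ((y : G) ^ i) = s := by
        rw [Nat.Coprime.orderOf_pow, hyo]
        rw [hyo]
        exact Nat.coprime_of_lt_prime hi.ne' hip hs
      exact hno _ _ h2 h1 hcomm

end H69.TwoPrimeFrob
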