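import Cfsg.Agent.Lib.H69.QuadEven2

/-!
`p`-elements inverted in a subgroup.
-/

set_option autoImplicit false

namespace H69.ZJReal

open Subgroup Cfsg H69.QuadEven

variable {p : ℕ}

/-- some nontrivial `p`-element of `H` is inverted by an element of `H` -/
def RealIn (p : ℕ) {G : Type*} [Group G] (H : Subgroup G) : Prop :=
  ∃ x ∈ H, ∃ z ∈ H, x ≠ 1 ∧ (∃ k, x ^ p ^ k = 1) ∧ z * x * z⁻¹ = x⁻¹

theorem RealIn.mono {G : Type*} [Group G] {H K : Subgroup G} (h : H ≤ K) : RealIn p H → RealIn p K := by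
  rintro ⟨x, hx, z, hz, h1⟩
  exact ⟨x, h hx, z, h hz, h1⟩

theorem RealIn.map {G G' : Type*} [Group G] [Group G'] (f : G →* G') (hf : Function.Injective f) {H : Subgroup G} :
    RealIn p H → RealIn p (H.map f) := by
  rintro ⟨x, hx, z, hz, hx1, ⟨k, hk⟩, h⟩
  refine ⟨f x, ⟨x, hx, rfl⟩, f z, ⟨z, hz, rfl⟩, ?_, ⟨k, by rw [← map_pow, hk, map_one]⟩, ?_⟩
  · intro h1; exact hx1 (hf (by rw [h1, map_one]))
  · rw [← map_mul, ← map_inv, ← map_mul, h, map_inv]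

theorem conj_odd {G : Type*} [Group G] {x z : G} (h : z * x * z⁻¹ = x⁻¹) {n : ℕ} (hn : Odd n) :
    z ^ n * x * (z ^ n)⁻¹ = x⁻¹ := by
  obtain ⟨m, rfl⟩ := hn
  have h2 : z * x⁻¹ * z⁻¹ = x := by
    have h3 : (z * x * z⁻¹)⁻¹ = (x⁻¹)⁻¹ := by rw [h]
    rw [inv_inv] at h3
    calc z * x⁻¹ * z⁻¹ = (z * x * z⁻¹)⁻¹ := by group
      _ = x := h3
  have h1 : ∀ m : ℕ, z ^ (2 * m) * x * (z ^ (2 * m))⁻¹ = x := by
    intro m
    induction m with
    | zero => simp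
    | succ m ih =>
      calc z ^ (2 * (m + 1)) * x * (z ^ (2 * (m + 1)))⁻¹
          = z * (z * (z ^ (2 * m) * x * (z ^ (2 * m))⁻¹) * z⁻¹) * z⁻¹ := by
            rw [show 2 * (m + 1) = 2 + 2 * m by ring, pow_add, pow_two]; group
        _ = x := by rw [ih, h, h2]
  calc z ^ (2 * m + 1) * x * (z ^ (2 * m + 1))⁻¹ = z * (z ^ (2 * m) * x * (z ^ (2 * m))⁻¹) * z⁻¹ := by
        rw [show 2 * m + 1 = 1 + 2 * m by ring, pow_add, pow_one]; group
    _ = x⁻¹ := by rw [h1, h]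

/-- the `2`-part of an element as an odd power -/
theorem exists_odd_pow {G : Type*} [Group G] [Finite G] (z : G) : ∃ n j, Odd n ∧ (z ^ n) ^ 2 ^ j = 1 := by
  obtain ⟨a, n, hn, hord⟩ := Nat.exists_eq_two_pow_mul_odd (orderOf_pos z).ne'
  refine ⟨n, a, hn, ?_⟩
  rw [← pow_mul, mul_comm, ← hord, pow_orderOf_eq_one]

theorem eq_one_of_sq {G : Type*} [Group G] [hp : Fact p.Prime] (hp2 : p ≠ 2) {x : G} {k : ℕ}
    (hk : x ^ p ^ k = 1) (h : x = x⁻¹) : x = 1 := by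
  have h1 : x ^ 2 = 1 := by rw [pow_two]; nth_rewrite 2 [h]; exact mul_inv_cancel x
  have h2 : Nat.Coprime (p ^ k) 2 := by
    apply Nat.Coprime.pow_left
    exact (Nat.coprime_primes hp.out Nat.prime_two).mpr hp2
  have h3 := Nat.dvd_gcd (orderOf_dvd_of_pow_eq_one hk) (orderOf_dvd_of_pow_eq_one h1)
  rw [h2] at h3
  exact orderOf_eq_one_iff.mp (Nat.dvd_one.mp h3)

theorem RealIn.two {G : Type*} [Group G] [Finite G] {H : Subgroup G} : RealIn p H →
    ∃ x ∈ H, ∃ z ∈ H, x ≠ 1 ∧ (∃ k, x ^ p ^ k = 1) ∧ z * x * z⁻¹ = x⁻¹ ∧ ∃ j, z ^ 2 ^ j = 1 := by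
  rintro ⟨x, hx, z, hz, hx1, hk, h⟩
  obtain ⟨n, j, hn, hj⟩ := exists_odd_pow z
  exact ⟨x, hx, z ^ n, pow_mem hz n, hx1, hk, conj_odd h hn, j, hj⟩

theorem realIn_of_norm {G : Type*} [Group G] {H P : Subgroup G} (hPH : P ≤ H) (hP : IsPGroup p P) :
    ∀ (j : ℕ) (z : G), z ∈ H → z ∈ normalizer (P : Set G) → z ^ 2 ^ j = 1 → z ∉ centralizer (P : Set G) →
    RealIn p H := by
  intro j
  induction j with
  | zero =>
    intro z _ _ hj hnc
    rw [pow_zero, pow_one] at hj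
    exact absurd (by rw [hj]; exact one_mem _) hnc
  | succ j ih =>
    intro z hz hzP hj hnc
    by_cases h2 : z ^ 2 ∈ centralizer (P : Set G)
    · rw [mem_centralizer_iff] at hnc
      push Not at hnc
      obtain ⟨y, hy, hyz⟩ := hnc
      have hzy : z * y * z⁻¹ ∈ P := (mem_normalizer_iff.mp hzP y).mp hy
      set u := y⁻¹ * (z * y * z⁻¹) with hu
      have huP : u ∈ P := mul_mem (inv_mem hy) hzy
      refine ⟨u, hPH huP, z, hz, ?_, ?_, ?_⟩
      · intro h1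
        apply hyz
        rw [hu, inv_mul_eq_one] at h1
        calc y * z = (z * y * z⁻¹) * z := by rw [← h1]
          _ = z * y := by group
      · obtain ⟨k, hk⟩ := hP ⟨u, huP⟩
        exact ⟨k, congrArg Subtype.val hk⟩
      · have h3 : y * z ^ 2 = z ^ 2 * y := mem_centralizer_iff.mp h2 y hy
        have h4 : z ^ 2 * y * (z ^ 2)⁻¹ = y := by rw [← h3, mul_inv_cancel_right]
        calc z * u * z⁻¹ = (z * y * z⁻¹)⁻¹ * (z ^ 2 * y * (z ^ 2)⁻¹) := by rw [hu]; group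
          _ = u⁻¹ := by rw [h4, hu]; group
    · exact ih (z ^ 2) (pow_mem hz 2) (pow_mem hzP 2) (by rw [← pow_mul, ← pow_succ']; exact hj) h2

/-- `p`-elements lift to `p`-elements -/
theorem exists_p_lift {A B : Type*} [Group A] [Finite A] [Group B] [hp : Fact p.Prime] (f : A →* B) {x : B}
    (hx : ∃ a, f a = x) {k : ℕ} (hk : x ^ p ^ k = 1) : ∃ a, f a = x ∧ ∃ m, a ^ p ^ m = 1 := by
  obtain ⟨a, ha⟩ := hx
  obtain ⟨m, n, hn, hord⟩ := Nat.exists_eq_pow_mul_and_not_dvd (orderOf_pos a).ne' p hp.out.ne_one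
  have hcop : Nat.Coprime (p ^ k) n := Nat.Coprime.pow_left _ ((Nat.Prime.coprime_iff_not_dvd hp.out).mpr hn)
  obtain ⟨t, ht1, ht2⟩ := Nat.chineseRemainder hcop 1 0
  refine ⟨a ^ t, ?_, m, ?_⟩
  · rw [map_pow, ha]
    have h1 : x ^ t = x ^ 1 := pow_eq_pow_iff_modEq.mpr (ht1.of_dvd (orderOf_dvd_of_pow_eq_one hk))
    rw [h1, pow_one]
  · obtain ⟨c, hc⟩ := (Nat.modEq_zero_iff_dvd.mp ht2)
    rw [← pow_mul, hc, show n * c * p ^ m = (p ^ m * n) * c by ring, ← hord, pow_mul, pow_orderOf_eq_one, one_pow]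

/-- lifting of inverted `p`-elements -/
theorem RealIn.comap {A B : Type*} [Group A] [Finite A] [Group B] [Finite B] [hp : Fact p.Prime] (hp2 : p ≠ 2)
    (f : A →* B) (hf : Function.Surjective f) {H : Subgroup B} (h : RealIn p H) : RealIn p (H.comap f) := by
  obtain ⟨x, hx, z, hz, hx1, ⟨k, hk⟩, hxz, j, hj⟩ := h.two
  obtain ⟨s, hs, m, hm⟩ := exists_p_lift f (hf x) hk
  obtain ⟨w, hw⟩ := hf z
  set Y : Subgroup A := (zpowers x).comap f with hY
  have hsY : s ∈ Y := by show f s ∈ zpowers x; rw [hs]; exact mem_zpowers x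
  have hYH : Y ≤ H.comap f := comap_mono (by rwa [zpowers_le])
  have hwY : w ∈ normalizer (Y : Set A) := by
    apply mem_normalizer_of_finite
    intro b hb
    obtain ⟨i, hi⟩ := mem_zpowers_iff.mp (show f b ∈ zpowers x from hb)
    show f (w * b * w⁻¹) ∈ zpowers x
    rw [map_mul, map_mul, map_inv, hw, ← hi, ← conj_zpow, hxz]
    exact zpow_mem (inv_mem (mem_zpowers x)) i
  obtain ⟨S, hsS, hSY, hS, hSi⟩ := H51.SylowAmb.exists_sylow_ge (p := p) (K := Y) (Q := zpowers s)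
    (by rwa [zpowers_le]) (by
      apply IsPGroup.of_card_dvd_pow (n := m)
      rw [Nat.card_zpowers]
      exact orderOf_dvd_of_pow_eq_one hm)
  obtain ⟨y, hy, hn⟩ := H51.SylowAmb.frattini hSY hS hSi hwY
  obtain ⟨n, i, hnodd, hi⟩ := exists_odd_pow (y * w)
  have hinv : f (y * w) * x * (f (y * w))⁻¹ = x⁻¹ := by
    obtain ⟨l, hl⟩ := mem_zpowers_iff.mp (show f y ∈ zpowers x from hy)
    rw [map_mul, hw, ← hl]
    calc x ^ l * z * x * (x ^ l * z)⁻¹ = x ^ l * (z * x * z⁻¹) * (x ^ l)⁻¹ := by group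
      _ = x⁻¹ := by rw [hxz]; group
  have hinv2 := conj_odd hinv hnodd
  refine realIn_of_norm (P := S) (hSY.trans hYH) hS i ((y * w) ^ n) ?_ (pow_mem hn n) hi ?_
  · apply pow_mem
    apply mul_mem (hYH hy)
    show f w ∈ H
    rw [hw]; exact hz
  · intro hc
    apply hx1
    apply eq_one_of_sq hp2 hk
    have h1 := mem_centralizer_iff.mp hc s (hsS (mem_zpowers s))
    have h2 := congrArg f h1
    rw [map_mul, map_mul, hs, map_pow] at h2
    rw [← h2, mul_inv_cancel_right] at hinv2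
    exact hinv2

end H69.ZJReal
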